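import Cfsg.Agent.Lib.H15.TwoTrans

set_option autoImplicit false

/-! Burnside's theorem on minimal normal subgroups of doubly transitive groups. -/

namespace H15.Burnside

open MulAction SubMulAction

variable {G X : Type*} [Group G] [MulAction G X]

section
variable [Finite X] [Finite G] [FaithfulSMul G X] [Nontrivial X] (N : Subgroup G) [hN : N.Normal]
    (h2 : ∀ x y u v : X, x ≠ y → u ≠ v → ∃ g : G, g • x = u ∧ g • y = v)
    (hmin : ∀ M : Subgroup G, M.Normal → M ≤ N → M = ⊥ ∨ M = N)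
    (hNb : N ≠ ⊥)

include h2 in
theorem primitive : IsPreprimitive G X := by
  apply isPreprimitive_of_is_two_pretransitive
  rw [is_two_pretransitive_iff]
  intro a b c d hab hcd
  exact h2 a b c d hab hcd

include hN hmin in
/-- a minimal normal subgroup containing a nontrivial normal `p`-subgroup is commutative -/
theorem comm_of_pgroup {p : ℕ} (hp : p.Prime) (Q : Subgroup G) (hQ : Q.Normal) (hQN : Q ≤ N)
    (hQb : Q ≠ ⊥) (hQp : IsPGroup p Q) : ∀ a ∈ N, ∀ b ∈ N, a * b = b * a := by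
  have hF : Fact p.Prime := ⟨hp⟩
  have hQN' : Q = N := (hmin Q hQ hQN).resolve_left hQb
  subst hQN'
  have hnt : Nontrivial Q := (Subgroup.nontrivial_iff_ne_bot Q).2 hQb
  have hc := hQp.center_nontrivial
  have hn : ((Subgroup.center Q).map Q.subtype).Normal := inferInstance
  rcases hmin _ hn (Subgroup.map_subtype_le _) with h | h
  · rw [Subgroup.map_eq_bot_iff_of_injective _ Q.subtype_injective] at h
    rw [h] at hc
    exact absurd hc (not_nontrivial _)
  · intro a ha b hb
    have ha' : a ∈ (Subgroup.center Q).map Q.subtype := by rw [h]; exact ha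
    obtain ⟨x, hx, rfl⟩ := ha'
    have := Subgroup.mem_center_iff.1 hx ⟨b, hb⟩
    exact (congrArg Subtype.val this).symm

include hN h2 hmin hNb in
/-- nonabelian minimal normal subgroups are primitive -/
theorem primitive_of_nonabelian (hna : ¬ ∀ a ∈ N, ∀ b ∈ N, a * b = b * a) : IsPreprimitive N X := by
  have hpr := primitive h2
  have htr := Jordan.transitive_of_normal hpr N hNb
  constructor
  intro B hB
  by_contra hcon
  rw [IsTrivialBlock, not_or, Set.not_subsingleton_iff] at hcon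
  obtain ⟨⟨a, ha, b, hb, hab⟩, hne⟩ := hcon
  have hBk : TwoTrans.Bk N B := by
    intro h hh z hz hhz w hw
    exact Blk.isBlock_iff.1 hB ⟨h, hh⟩ z hz hhz w hw
  have hfix : ∀ h ∈ N, ∀ x y : X, x ≠ y → h • x = x → h • y = y → h = 1 := by
    intro h hh x y hxy hx hy
    apply FaithfulSMul.eq_of_smul_eq_smul (α := X)
    intro w
    rw [one_smul]
    exact TwoTrans.fix_of_imprimitive N h2 hBk ha hb hab hne hxy hh hx hy w
  obtain ⟨p, hp, Q, hQ, hQN, hQb, hQp⟩ := TwoTrans.exists_pgroup N h2 htr hfix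
  exact hna (comm_of_pgroup N hmin hp Q hQ hQN hQb hQp)

/-- elements commuting with a transitive group are semiregular -/
theorem eq_one_of_comm {G X : Type*} [Group G] [MulAction G X] [FaithfulSMul G X]
    {M : Subgroup G} (hM : ∀ x y : X, ∃ m ∈ M, m • x = y) {c : G}
    (hc : ∀ m ∈ M, c * m = m * c) {a : X} (ha : c • a = a) : c = 1 := by
  apply FaithfulSMul.eq_of_smul_eq_smul (α := X)
  intro x
  obtain ⟨m, hm, rfl⟩ := hM a x
  rw [one_smul, smul_smul, hc m hm, mul_smul, ha]

/-- two commuting transitive subgroups: regular -/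
theorem card_eq_of_regular {G X : Type*} [Group G] [MulAction G X] [Nonempty X]
    {M : Subgroup G} (hM : ∀ x y : X, ∃ m ∈ M, m • x = y)
    (hreg : ∀ m ∈ M, ∀ x : X, m • x = x → m = 1) : Nat.card M = Nat.card X := by
  obtain ⟨x⟩ := ‹Nonempty X›
  apply Nat.card_congr
  have hb : Function.Bijective (fun g : M => (g : G) • x) := by
    constructor
    · intro a b hab
      have h1 : ((b : G)⁻¹ * a) • x = x := by
        rw [mul_smul, inv_smul_eq_iff]
        exact hab
      have h2 := hreg _ (M.mul_mem (M.inv_mem b.2) a.2) x h1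
      exact Subtype.ext (inv_mul_eq_one.1 h2).symm
    · intro y
      obtain ⟨m, hm, hmy⟩ := hM x y
      exact ⟨⟨m, hm⟩, hmy⟩
  exact Equiv.ofBijective _ hb

include hN h2 hmin hNb in
/-- a minimal normal subgroup which is primitive and nonabelian is simple -/
theorem simple_of_nonabelian (hna : ¬ ∀ a ∈ N, ∀ b ∈ N, a * b = b * a) : IsSimpleGroup N := by
  classical
  have hprN := primitive_of_nonabelian N h2 hmin hNb hna
  have hnt : Nontrivial N := (Subgroup.nontrivial_iff_ne_bot N).2 hNb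
  by_contra hns
  -- a proper nontrivial subgroup normalised by `N` of minimal order
  let P : Subgroup G → Prop := fun M => M ≤ N ∧ M ≠ ⊥ ∧ ∀ n ∈ N, ∀ m ∈ M, n * m * n⁻¹ ∈ M
  obtain ⟨M0, hM0N, hM0b, hM0n, hM0ne⟩ : ∃ M0 : Subgroup G, M0 ≤ N ∧ M0 ≠ ⊥ ∧
      (∀ n ∈ N, ∀ m ∈ M0, n * m * n⁻¹ ∈ M0) ∧ M0 ≠ N := by
    by_contra hcon
    push Not at hcon
    apply hns
    constructor
    intro H hH
    by_cases hHb : H = ⊥
    · exact Or.inl hHb
    right
    have h1 := hcon (H.map N.subtype) (Subgroup.map_subtype_le H) (by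
      rwa [Ne, Subgroup.map_eq_bot_iff_of_injective _ N.subtype_injective]) (by
      rintro n hn _ ⟨m, hm, rfl⟩
      exact ⟨⟨n, hn⟩ * m * ⟨n, hn⟩⁻¹, hH.conj_mem m hm _, rfl⟩)
    rw [eq_top_iff]
    intro x _
    have hx : (x : G) ∈ H.map N.subtype := by rw [h1]; exact x.2
    obtain ⟨y, hy, hyx⟩ := hx
    rwa [← Subtype.ext hyx]
  obtain ⟨M, ⟨hMN, hMb, hMn⟩, hMmin⟩ : ∃ M : Subgroup G, P M ∧ ∀ L, P L → Nat.card M ≤ Nat.card L := by
    obtain ⟨M, hM, hmin⟩ := Set.exists_min_image {M | P M} (fun M => Nat.card M) (Set.toFinite _)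
      ⟨M0, hM0N, hM0b, hM0n⟩
    exact ⟨M, hM, fun L hL => hmin L hL⟩
  have hMne : M ≠ N := by
    intro h
    have h1 := hMmin M0 ⟨hM0N, hM0b, hM0n⟩
    rw [h] at h1
    exact hM0ne (Subgroup.eq_of_le_of_card_ge hM0N h1)
  -- conjugates
  let cj : G → Subgroup G → Subgroup G := fun g M => M.map (MulAut.conj g).toMonoidHom
  have hcjmem : ∀ g M x, x ∈ cj g M ↔ g⁻¹ * x * g ∈ M := by
    intro g M x
    constructor
    · rintro ⟨y, hy, rfl⟩
      have : g⁻¹ * (MulAut.conj g).toMonoidHom y * g = y := by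
        change g⁻¹ * (g * y * g⁻¹) * g = y
        group
      rw [this]
      exact hy
    · intro h
      refine ⟨_, h, ?_⟩
      change g * (g⁻¹ * x * g) * g⁻¹ = x
      group
  have hcjcard : ∀ g M, Nat.card (cj g M) = Nat.card M := by
    intro g M
    exact Subgroup.card_map_of_injective (MulAut.conj g).injective
  have hcjP : ∀ g, P (cj g M) := by
    intro g
    refine ⟨?_, ?_, ?_⟩
    · intro x hx
      rw [hcjmem] at hx
      have := hN.conj_mem _ (hMN hx) g
      have h3 : g * (g⁻¹ * x * g) * g⁻¹ = x := by group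
      rwa [h3] at this
    · intro hb
      apply hMb
      rw [Subgroup.eq_bot_iff_forall] at hb ⊢
      intro x hx
      have := hb (g * x * g⁻¹) (by rw [hcjmem]; convert hx using 1; group)
      rwa [mul_inv_eq_one, mul_eq_left] at this
    · intro n hn m hm
      rw [hcjmem] at hm ⊢
      have h3 := hMn (g⁻¹ * n * g) (by simpa using hN.conj_mem n hn g⁻¹) _ hm
      convert h3 using 1
      group
  have hcomm : ∀ L K : Subgroup G, P L → P K → Nat.card L = Nat.card M → Nat.card K = Nat.card M → L ≠ K →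
      L ⊓ K = ⊥ ∧ ∀ l ∈ L, ∀ k ∈ K, l * k = k * l := by
    intro L K hL hK hLc hKc hLK
    have hbot : L ⊓ K = ⊥ := by
      by_contra hb
      have h3 : P (L ⊓ K) := ⟨inf_le_left.trans hL.1, hb, fun n hn m hm =>
        ⟨hL.2.2 n hn m hm.1, hK.2.2 n hn m hm.2⟩⟩
      have h4 := hMmin _ h3
      have h5 : L ⊓ K = L := Subgroup.eq_of_le_of_card_ge inf_le_left (by rw [hLc]; exact h4)
      have h6 : L ⊓ K = K := Subgroup.eq_of_le_of_card_ge inf_le_right (by rw [hKc]; exact h4)
      exact hLK (h5.symm.trans h6)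
    refine ⟨hbot, ?_⟩
    intro l hl k hk
    have h3 : l * k * l⁻¹ * k⁻¹ ∈ L ⊓ K := by
      constructor
      · have := hL.2.2 k (hK.1 hk) l⁻¹ (L.inv_mem hl)
        have h4 := L.mul_mem hl this
        have h5 : l * k * l⁻¹ * k⁻¹ = l * (k * l⁻¹ * k⁻¹) := by group
        rw [h5]
        exact h4
      · exact K.mul_mem (hK.2.2 l (hL.1 hl) k hk) (K.inv_mem hk)
    rw [hbot, Subgroup.mem_bot] at h3
    rwa [mul_inv_eq_one, mul_inv_eq_iff_eq_mul] at h3
  -- transitivity
  have htrans : ∀ L : Subgroup G, P L → ∀ x y : X, ∃ l ∈ L, l • x = y := by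
    intro L hL x y
    have h3 : (L.subgroupOf N).Normal := ⟨fun l hl n => hL.2.2 n n.2 l hl⟩
    have h4 : L.subgroupOf N ≠ ⊥ := by
      intro hb
      apply hL.2.1
      rw [Subgroup.eq_bot_iff_forall] at hb ⊢
      intro l hl
      exact congrArg Subtype.val (hb ⟨l, hL.1 hl⟩ hl)
    have hfa : FaithfulSMul N X := ⟨fun {a b} h => Subtype.ext (FaithfulSMul.eq_of_smul_eq_smul (α := X) h)⟩
    have h5 := Jordan.transitive_of_normal hprN (L.subgroupOf N) h4
    obtain ⟨l, hl⟩ := exists_smul_eq (L.subgroupOf N) x y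
    exact ⟨l.1.1, l.2, hl⟩
  -- a conjugate different from M
  obtain ⟨g, hg⟩ : ∃ g, cj g M ≠ M := by
    by_contra hcon
    push Not at hcon
    have h3 : M.Normal := by
      constructor
      intro m hm g
      rw [← hcon g]
      exact ⟨m, hm, rfl⟩
    rcases hmin M h3 hMN with h4 | h4
    · exact hMb h4
    · exact hMne h4
  set M' := cj g M with hM'
  have hPM : P M := ⟨hMN, hMb, hMn⟩
  have hPM' : P M' := hcjP g
  obtain ⟨hint, hcom⟩ := hcomm M M' hPM hPM' rfl (hcjcard g M) (Ne.symm hg)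
  have hregM' : ∀ c ∈ M', ∀ a : X, c • a = a → c = 1 := fun c hc a ha =>
    eq_one_of_comm (htrans M hPM) (fun m hm => (hcom m hm c hc).symm) ha
  have hregM : ∀ c ∈ M, ∀ a : X, c • a = a → c = 1 := fun c hc a ha =>
    eq_one_of_comm (htrans M' hPM') (fun m hm => hcom c hc m hm) ha
  have hcM := card_eq_of_regular (htrans M hPM) hregM
  -- conjugates are M or M'
  have htwo : ∀ h, cj h M = M ∨ cj h M = M' := by
    intro h
    by_cases hh : cj h M = M
    · exact Or.inl hh
    right
    obtain ⟨-, hc2⟩ := hcomm M (cj h M) hPM (hcjP h) rfl (hcjcard h M) (Ne.symm hh)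
    apply Subgroup.eq_of_le_of_card_ge
    · intro c hc
      obtain ⟨a⟩ := (inferInstance : Nonempty X)
      obtain ⟨m', hm', hm'a⟩ := htrans M' hPM' a (c • a)
      have h3 : m'⁻¹ * c = 1 := by
        apply eq_one_of_comm (htrans M hPM) (a := a)
        · intro m hm
          rw [mul_assoc, ← hc2 m hm c hc, ← mul_assoc, ← mul_assoc]
          congr 1
          rw [inv_mul_eq_iff_eq_mul, ← mul_assoc, ← hcom m hm m' hm', mul_assoc, mul_inv_cancel, mul_one]
        · rw [mul_smul, ← hm'a, inv_smul_smul]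
      rw [← inv_mul_eq_one.1 h3]
      exact hm'
    · rw [hcjcard, hcjcard]
  have htwo' : ∀ h, cj h M' = M ∨ cj h M' = M' := by
    intro h
    have : cj h M' = cj (h * g) M := by
      ext x
      rw [hcjmem, hM', hcjmem, hcjmem]
      simp only [mul_inv_rev, mul_assoc]
    rw [this]
    exact htwo _
  -- the product
  let Q : Subgroup G :=
    { carrier := {x | ∃ m ∈ M, ∃ m' ∈ M', x = m * m'}
      mul_mem' := by
        rintro _ _ ⟨m, hm, m', hm', rfl⟩ ⟨l, hl, l', hl', rfl⟩
        refine ⟨m * l, M.mul_mem hm hl, m' * l', M'.mul_mem hm' hl', ?_⟩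
        rw [mul_assoc, mul_assoc, ← mul_assoc m', ← hcom l hl m' hm', mul_assoc]
      one_mem' := ⟨1, M.one_mem, 1, M'.one_mem, by simp⟩
      inv_mem' := by
        rintro _ ⟨m, hm, m', hm', rfl⟩
        refine ⟨m⁻¹, M.inv_mem hm, m'⁻¹, M'.inv_mem hm', ?_⟩
        rw [hcom m hm m' hm', mul_inv_rev] }
  have hMQ : M ≤ Q := fun m hm => ⟨m, hm, 1, M'.one_mem, (mul_one m).symm⟩
  have hM'Q : M' ≤ Q := fun m hm => ⟨1, M.one_mem, m, hm, (one_mul m).symm⟩
  have hQn : Q.Normal := by
    constructor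
    rintro _ ⟨m, hm, m', hm', rfl⟩ h
    have h3 : h * m * h⁻¹ ∈ Q := by
      have h4 : h * m * h⁻¹ ∈ cj h M := ⟨m, hm, rfl⟩
      rcases htwo h with h5 | h5
      · rw [h5] at h4; exact hMQ h4
      · rw [h5] at h4; exact hM'Q h4
    have h6 : h * m' * h⁻¹ ∈ Q := by
      have h4 : h * m' * h⁻¹ ∈ cj h M' := ⟨m', hm', rfl⟩
      rcases htwo' h with h5 | h5
      · rw [h5] at h4; exact hMQ h4
      · rw [h5] at h4; exact hM'Q h4
    have h7 := Q.mul_mem h3 h6
    convert h7 using 1
    group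
  have hQN : Q = N := by
    refine (hmin Q hQn ?_).resolve_left ?_
    · rintro _ ⟨m, hm, m', hm', rfl⟩
      exact N.mul_mem (hMN hm) (hPM'.1 hm')
    · intro hb
      apply hMb
      rw [eq_bot_iff, ← hb]
      exact hMQ
  have hcN : Nat.card N = Nat.card X * Nat.card X := by
    have h3 : Nat.card N = Nat.card (M × M') := by
      symm
      apply Nat.card_congr
      have hb : Function.Bijective (fun x : M × M' => (⟨x.1 * x.2, N.mul_mem (hMN x.1.2) (hPM'.1 x.2.2)⟩ : N)) := by
        constructor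
        · rintro ⟨a, b⟩ ⟨c, d⟩ h
          have h4 : (a : G) * b = c * d := congrArg Subtype.val h
          have h5 : (c : G)⁻¹ * a = d * (b : G)⁻¹ := by
            rw [inv_mul_eq_iff_eq_mul, ← mul_assoc, eq_mul_inv_iff_mul_eq, h4]
          have h6 : (c : G)⁻¹ * a ∈ M ⊓ M' := by
            refine ⟨M.mul_mem (M.inv_mem c.2) a.2, ?_⟩
            rw [h5]
            exact M'.mul_mem d.2 (M'.inv_mem b.2)
          rw [hint, Subgroup.mem_bot] at h6
          have h7 : (d : G) * (b : G)⁻¹ = 1 := by rw [← h5, h6]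
          exact Prod.ext (Subtype.ext (inv_mul_eq_one.1 h6).symm) (Subtype.ext (mul_inv_eq_one.1 h7).symm)
        · rintro ⟨x, hx⟩
          rw [← hQN] at hx
          obtain ⟨m, hm, m', hm', rfl⟩ := hx
          exact ⟨(⟨m, hm⟩, ⟨m', hm'⟩), rfl⟩
      exact Equiv.ofBijective _ hb
    rw [h3, Nat.card_prod, hcjcard, hcM]
  -- stabiliser
  obtain ⟨a⟩ := (inferInstance : Nonempty X)
  have hX : 1 < Nat.card X := Finite.one_lt_card
  have htrN : IsPretransitive N X := hprN.toIsPretransitive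
  have hcSt : Nat.card (stabilizer N a) = Nat.card X := by
    have h3 := Subgroup.card_mul_index (stabilizer N a)
    rw [MulAction.index_stabilizer_of_transitive N a, hcN] at h3
    exact Nat.eq_of_mul_eq_mul_right (by omega) h3
  have hcS : Nat.card (N.subgroupOf (stabilizer G a)) = Nat.card X := by
    rw [← hcSt]
    apply Nat.card_congr
    exact
      { toFun := fun x => ⟨⟨x.1.1, x.2⟩, x.1.2⟩
        invFun := fun x => ⟨⟨x.1.1, x.2⟩, x.1.2⟩
        left_inv := fun x => rfl
        right_inv := fun x => rfl }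
  have htrG : IsPretransitive (stabilizer G a) (ofStabilizer G a) := by
    constructor
    rintro ⟨x, hx⟩ ⟨y, hy⟩
    obtain ⟨g, hga, hgx⟩ := h2 a x a y (Ne.symm hx) (Ne.symm hy)
    exact ⟨⟨g, hga⟩, Subtype.ext hgx⟩
  have horb : ∀ y : ofStabilizer G a, Nat.card (orbit (N.subgroupOf (stabilizer G a)) y) = 1 := by
    intro y
    have hbl := IsBlock.orbit_of_normal (G := stabilizer G a)
      (N := N.subgroupOf (stabilizer G a)) y
    have hdvd := hbl.ncard_dvd_card ⟨_, mem_orbit_self _⟩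
    rw [nat_card_ofStabilizer_eq, ← Nat.card_coe_set_eq] at hdvd
    have hdvd2 : Nat.card (orbit (N.subgroupOf (stabilizer G a)) y) ∣ Nat.card X := by
      rw [← hcS, Nat.card_congr (orbitEquivQuotientStabilizer (N.subgroupOf (stabilizer G a)) y)]
      exact Subgroup.card_quotient_dvd_card _
    have h3 := (Nat.dvd_sub hdvd2 hdvd)
    rw [Nat.sub_sub_self (by omega)] at h3
    exact Nat.dvd_one.1 h3
  have hbot : N.subgroupOf (stabilizer G a) = ⊥ := by
    rw [Subgroup.eq_bot_iff_forall]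
    intro x hx
    have := Jordan.faithful_stabilizer (G := G) a
    apply FaithfulSMul.eq_of_smul_eq_smul (α := ofStabilizer G a)
    intro y
    rw [one_smul]
    have h3 := horb y
    rw [Nat.card_eq_one_iff_unique] at h3
    have h4 := h3.1.elim ⟨x • y, ⟨⟨x, hx⟩, rfl⟩⟩ ⟨y, mem_orbit_self y⟩
    exact congrArg Subtype.val h4
  rw [hbot, Subgroup.card_bot] at hcS
  omega

end

end H15.Burnside
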