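import Mathlib

set_option autoImplicit false

/-! Centralisers of transitive permutation groups in the symmetric group. -/

namespace H15.Cent

variable {α : Type*}

/-- an element commuting with a transitive group and fixing a point is trivial -/
theorem eq_one_of_fix (G : Subgroup (Equiv.Perm α)) (ht : MulAction.IsPretransitive G α)
    {c : Equiv.Perm α} (hc : c ∈ Subgroup.centralizer (G : Set (Equiv.Perm α))) {a : α}
    (h : c a = a) : c = 1 := by
  ext b
  obtain ⟨g, rfl⟩ := MulAction.exists_smul_eq G a b
  have := Subgroup.mem_centralizer_iff.1 hc (g : Equiv.Perm α) g.2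
  have h2 := congrArg (fun f : Equiv.Perm α => f a) this
  simp only [Equiv.Perm.mul_apply] at h2
  rw [h] at h2
  simpa [Subgroup.smul_def] using h2.symm

/-- if `a` and `b` have the same stabiliser there is an element of the centraliser mapping
`a` to `b` -/
theorem exists_map (G : Subgroup (Equiv.Perm α)) (ht : MulAction.IsPretransitive G α) {a b : α}
    (h : ∀ g : G, g • a = a ↔ g • b = b) :
    ∃ c ∈ Subgroup.centralizer (G : Set (Equiv.Perm α)), c a = b := by
  choose γ hγ using fun x => MulAction.exists_smul_eq G a x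
  have key : ∀ g g' : G, g • a = g' • a ↔ g • b = g' • b := by
    intro g g'
    have h1 := h (g'⁻¹ * g)
    rw [mul_smul, mul_smul, inv_smul_eq_iff, inv_smul_eq_iff] at h1
    exact h1
  let c : α → α := fun x => γ x • b
  have hc : ∀ g : G, c (g • a) = g • b := by
    intro g
    exact (key _ _).1 (hγ _)
  have hinj : Function.Injective c := by
    intro x y hxy
    have := (key _ _).2 hxy
    rwa [hγ, hγ] at this
  have hsurj : Function.Surjective c := by
    intro y
    obtain ⟨g, rfl⟩ := MulAction.exists_smul_eq G b y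
    exact ⟨g • a, hc g⟩
  have hb : Function.Bijective c := ⟨hinj, hsurj⟩
  have hE : ∀ x, Equiv.ofBijective c hb x = c x := fun x => rfl
  refine ⟨Equiv.ofBijective c hb, ?_, ?_⟩
  · rw [Subgroup.mem_centralizer_iff]
    intro g hg
    ext x
    obtain ⟨k, rfl⟩ := MulAction.exists_smul_eq G a x
    rw [Equiv.Perm.mul_apply, Equiv.Perm.mul_apply, hE, hE]
    have h1 : g (k • a) = ((⟨g, hg⟩ * k : G)) • a := by
      rw [mul_smul]; rfl
    rw [h1, hc, hc, mul_smul]; rfl
  · rw [hE]
    have := hc 1
    simpa using this

theorem commute_apply {G : Subgroup (Equiv.Perm α)} {c : Equiv.Perm α}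
    (hc : c ∈ Subgroup.centralizer (G : Set (Equiv.Perm α))) (g : G) (a : α) :
    c (g • a) = g • (c a) := by
  have := Subgroup.mem_centralizer_iff.1 hc (g : Equiv.Perm α) g.2
  have h2 := congrArg (fun f : Equiv.Perm α => f a) this
  exact h2.symm

/-- A transitive subgroup contained in a semiregular group is the whole group. -/
theorem eq_of_le_of_transitive {C H : Subgroup (Equiv.Perm α)} (hH : H ≤ C) [Nonempty α]
    (ht : MulAction.IsPretransitive H α) (hC : ∀ c ∈ C, ∀ a : α, c a = a → c = 1) : H = C := by
  refine le_antisymm hH ?_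
  intro c hc
  obtain ⟨a⟩ := ‹Nonempty α›
  obtain ⟨h, hh⟩ := MulAction.exists_smul_eq H a (c a)
  have h1 : ((h : Equiv.Perm α)⁻¹ * c) a = a := by
    rw [Equiv.Perm.mul_apply, ← hh]
    simp [Subgroup.smul_def]
  have h2 := hC _ (C.mul_mem (C.inv_mem (hH h.2)) hc) a h1
  rw [inv_mul_eq_one] at h2
  rw [← h2]; exact h.2

end H15.Cent
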