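import Cfsg.Agent.Lib.H18.CharOrtho
import Cfsg.Agent.Lib.H4.TwoTrans
import Cfsg.Prelude.Def_Perm

set_option autoImplicit false

/-! The commutant of a complex representation; multiplicity-freeness. -/

namespace H15.Commutant

open Cfsg Representation H18.CharBasic H18.CharOrtho
open scoped ComplexConjugate

universe u v w

variable {G : Type u} [Group G] [Fintype G]

section hom
variable {V : Type v} [AddCommGroup V] [Module ℂ V] [FiniteDimensional ℂ V]
  {W : Type w} [AddCommGroup W] [Module ℂ W] [FiniteDimensional ℂ W]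

omit [Fintype G] [FiniteDimensional ℂ V] [FiniteDimensional ℂ W] in
theorem mem_hom {ρ : Representation ℂ G V} {σ : Representation ℂ G W} {f : V →ₗ[ℂ] W} :
    f ∈ (linHom ρ σ).invariants ↔ ∀ g v, f (ρ g v) = σ g (f v) := by
  rw [mem_invariants]
  constructor
  · intro h g v
    have h1 := congrArg (fun L : V →ₗ[ℂ] W => L (ρ g v)) (h g)
    simp only [linHom_apply, LinearMap.comp_apply] at h1
    rw [← h1, inv_self_apply]
  · intro h g
    ext v
    simp only [linHom_apply, LinearMap.comp_apply]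
    rw [← h, self_inv_apply]

/-- the dimension of the space of intertwiners is the inner product of the characters -/
theorem finrank_hom (ρ : Representation ℂ G V) (σ : Representation ℂ G W) :
    (Module.finrank ℂ (linHom ρ σ).invariants : ℂ) = classInner σ.character ρ.character := by
  have : Invertible (Nat.card G : ℂ) := invertibleOfNonzero card_ne_zero'
  rw [← card_inv_mul_sum_char_eq_finrank, inner_eq_sum_inv (isCharacter_of_rep ρ)]
  congr 1
  refine Finset.sum_congr rfl fun g _ => ?_
  rw [char_linHom, mul_comm]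

omit [FiniteDimensional ℂ V] in
/-- a nonzero intertwiner from an irreducible constituent -/
theorem exists_hom [FiniteDimensional ℂ V] (ρ : Representation ℂ G V) {χ : G → ℂ} (hχ : IsIrrCharacter G χ)
    (h : classInner ρ.character χ ≠ 0) : ∃ (n : ℕ) (σ : Representation ℂ G (Fin n → ℂ)),
      σ.IsIrreducible ∧ σ.character = χ ∧ ∃ f : (Fin n → ℂ) →ₗ[ℂ] V, f ≠ 0 ∧
        ∀ g v, f (σ g v) = ρ g (f v) := by
  obtain ⟨n, σ, hσ, rfl⟩ := hχ
  refine ⟨n, σ, hσ, rfl, ?_⟩
  rw [← finrank_hom] at h
  have h1 : 0 < Module.finrank ℂ (linHom σ ρ).invariants := Nat.pos_of_ne_zero (by exact_mod_cast h)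
  have := Module.nontrivial_of_finrank_pos (R := ℂ) h1
  obtain ⟨f, hf⟩ := exists_ne (0 : (linHom σ ρ).invariants)
  exact ⟨f.1, fun h => hf (Subtype.ext h), mem_hom.1 f.2⟩

omit [FiniteDimensional ℂ V] [FiniteDimensional ℂ W] in
theorem avgOp_hom {ρ : Representation ℂ G V} {σ : Representation ℂ G W} {f : V →ₗ[ℂ] W}
    (hf : ∀ g v, f (ρ g v) = σ g (f v)) (c : G → ℂ) (v : V) :
    avgOp c σ (f v) = f (avgOp c ρ v) := by
  simp only [avgOp, LinearMap.sum_apply, LinearMap.smul_apply, map_sum, map_smul, hf]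

/-- Schur's lemma -/
theorem schur (σ : Representation ℂ G W) (hσ : σ.IsIrreducible) {T : W →ₗ[ℂ] W}
    (hT : ∀ g v, T (σ g v) = σ g (T v)) : ∃ c : ℂ, ∀ v, T v = c • v := by
  let T' : IntertwiningMap σ σ := ⟨T, fun g => LinearMap.ext fun v => hT g v⟩
  obtain ⟨c, hc⟩ := (IsIrreducible.algebraMap_intertwiningMap_bijective_of_isAlgClosed
    (ρ := σ)).2 T'
  refine ⟨c, fun v => ?_⟩
  have := congrArg IntertwiningMap.toLinearMap hc
  have h3 := congrArg (fun L : W →ₗ[ℂ] W => L v) this
  exact h3.symm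

theorem finrank_pos_of_irr (σ : Representation ℂ G W) (hσ : σ.IsIrreducible) :
    0 < Module.finrank ℂ W := by
  have hnt : Nontrivial W := by
    by_contra hcon
    rw [not_nontrivial_iff_subsingleton] at hcon
    have h1 : (⊥ : Subrepresentation σ) = ⊤ :=
      Subrepresentation.toSubmodule_injective (Subsingleton.elim _ _)
    exact bot_ne_top h1
  exact Module.finrank_pos (R := ℂ) (M := W)

/-- the action of a class function operator on an irreducible representation -/
theorem avgOp_irr (σ : Representation ℂ G W) (hσ : σ.IsIrreducible) {f : G → ℂ}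
    (hf : IsClassFunction G f) : ∃ c : ℂ, (∀ v, avgOp f σ v = c • v) ∧
      c * Module.finrank ℂ W = Nat.card G * classInner f σ.character := by
  obtain ⟨c, hc⟩ := schur σ hσ (T := avgOp f σ) (avgOp_comm hf σ)
  refine ⟨c, hc, ?_⟩
  have hT : avgOp f σ = c • LinearMap.id := LinearMap.ext hc
  have htr : LinearMap.trace ℂ W (avgOp f σ) = ∑ g : G, f g * σ.character g⁻¹ := by
    rw [avgOp, map_sum]
    exact Finset.sum_congr rfl fun g _ => by rw [map_smul]; rfl
  rw [hT, map_smul, LinearMap.trace_id, smul_eq_mul] at htr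
  rw [htr, inner_eq_sum_inv (isCharacter_of_rep σ), ← mul_assoc, mul_inv_cancel₀ card_ne_zero', one_mul]

/-- if `avgOp χ` vanishes on the representation then `χ` is not a constituent -/
theorem inner_eq_zero_of_avgOp (ρ : Representation ℂ G V) {χ : G → ℂ} (hχ : IsIrrCharacter G χ)
    {c : G → ℂ} (hc : IsClassFunction G c) (h : avgOp c ρ = 0) (hcχ : classInner c χ ≠ 0) :
    classInner ρ.character χ = 0 := by
  by_contra hcon
  obtain ⟨n, σ, hσ, rfl, f, hf, hfi⟩ := exists_hom ρ hχ hcon
  obtain ⟨a, ha, ha'⟩ := avgOp_irr σ hσ hc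
  have ha0 : a ≠ 0 := by
    rintro rfl
    rw [zero_mul] at ha'
    exact mul_ne_zero card_ne_zero' hcχ ha'.symm
  apply hf
  ext v
  have h1 := avgOp_hom hfi c (Pi.single v 1)
  rw [h, ha, map_smul, LinearMap.zero_apply] at h1
  have h2 := (smul_eq_zero.1 h1.symm).resolve_left ha0
  simpa using h2

end hom

section mf
variable {V : Type v} [AddCommGroup V] [Module ℂ V] [FiniteDimensional ℂ V]

/-- the multiplicity as a natural number -/
theorem mult_nat (ρ : Representation ℂ G V) {χ : G → ℂ} (hχ : IsIrrCharacter G χ) :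
    ∃ m : ℕ, classInner ρ.character χ = m :=
  inner_char_natCast (isCharacter_of_rep ρ) (isCharacter_of_isIrr hχ)

theorem inner_self_sum [Fintype (IrrCharacter G)] (ρ : Representation ℂ G V) :
    classInner ρ.character ρ.character =
      ∑ χ : IrrCharacter G, classInner ρ.character (χ : G → ℂ) * classInner ρ.character (χ : G → ℂ) := by
  rw [parseval (isClassFunction_of_isCharacter (isCharacter_of_rep ρ))]
  refine Finset.sum_congr rfl fun χ _ => ?_
  obtain ⟨m, hm⟩ := mult_nat ρ χ.2
  rw [hm, Complex.conj_natCast]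

/-- in the multiplicity-free case all intertwiners come from class functions -/
theorem exists_avgOp (ρ : Representation ℂ G V)
    (hmf : ∀ χ : G → ℂ, IsIrrCharacter G χ →
      classInner ρ.character χ = 0 ∨ classInner ρ.character χ = 1)
    {T : V →ₗ[ℂ] V} (hT : ∀ g v, T (ρ g v) = ρ g (T v)) :
    ∃ c : G → ℂ, IsClassFunction G c ∧ (∀ χ, IsIrrCharacter G χ → classInner ρ.character χ = 0 →
      classInner c χ = 0) ∧ T = avgOp c ρ := by
  classical
  have := Fintype.ofFinite (IrrCharacter G)
  let C := {χ : IrrCharacter G // classInner ρ.character (χ : G → ℂ) ≠ 0}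
  let F : (C → ℂ) → G → ℂ := fun a => ∑ χ : C, a χ • ((χ.1 : IrrCharacter G) : G → ℂ)
  have hclass : ∀ a : C → ℂ, IsClassFunction G (F a) :=
    fun a => isClassFunction_sum _ _ fun χ _ =>
      isClassFunction_smul _ (isClassFunction_of_isIrr χ.1.2)
  let Φ : (C → ℂ) →ₗ[ℂ] (linHom ρ ρ).invariants :=
    { toFun := fun a => ⟨avgOp (F a) ρ, mem_hom.2 (avgOp_comm (hclass a) ρ)⟩
      map_add' := by
        intro a b
        apply Subtype.ext
        change avgOp _ ρ = avgOp _ ρ + avgOp _ ρ
        simp only [avgOp, ← Finset.sum_add_distrib]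
        refine Finset.sum_congr rfl fun g _ => ?_
        rw [← add_smul]
        congr 1
        simp only [F, Finset.sum_apply, Pi.smul_apply, Pi.add_apply, smul_eq_mul, add_mul,
          Finset.sum_add_distrib]
      map_smul' := by
        intro r a
        apply Subtype.ext
        change avgOp _ ρ = r • avgOp _ ρ
        simp only [avgOp, Finset.smul_sum, smul_smul]
        refine Finset.sum_congr rfl fun g _ => ?_
        congr 1
        simp only [F, Finset.sum_apply, Pi.smul_apply, smul_eq_mul, Finset.mul_sum, mul_assoc] }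
  have hinner : ∀ (a : C → ℂ) (χ : C), classInner (F a) ((χ.1 : IrrCharacter G) : G → ℂ) = a χ := by
    intro a χ
    rw [inner_sum_left, Finset.sum_eq_single χ]
    · rw [H18.CharOrtho.inner_smul_left, inner_irr_self χ.1.2, mul_one]
    · intro ψ _ hne
      rw [H18.CharOrtho.inner_smul_left, inner_irr_ne ψ.1.2 χ.1.2 (fun h => hne (Subtype.ext (Subtype.ext h))), mul_zero]
    · intro h; exact absurd (Finset.mem_univ _) h
  have hinj : Function.Injective Φ := by
    rw [← LinearMap.ker_eq_bot, LinearMap.ker_eq_bot']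
    intro a ha
    funext χ
    by_contra hcon
    apply χ.2
    apply inner_eq_zero_of_avgOp ρ χ.1.2 (hclass a) (congrArg Subtype.val ha)
    rw [hinner]
    exact hcon
  have hfr : Module.finrank ℂ (C → ℂ) = Module.finrank ℂ (linHom ρ ρ).invariants := by
    have h1 : (Module.finrank ℂ (linHom ρ ρ).invariants : ℂ) = (Fintype.card C : ℂ) := by
      rw [finrank_hom, inner_self_sum, Fintype.card_subtype, Finset.card_filter]
      push_cast
      refine Finset.sum_congr rfl fun χ _ => ?_
      rcases hmf χ χ.2 with h | h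
      · simp [h]
      · simp [h]
    rw [Module.finrank_fintype_fun_eq_card]
    exact_mod_cast h1.symm
  have hsurj := (LinearMap.injective_iff_surjective_of_finrank_eq_finrank hfr).1 hinj
  obtain ⟨a, ha⟩ := hsurj ⟨T, mem_hom.2 hT⟩
  refine ⟨F a, hclass a, ?_, (congrArg Subtype.val ha).symm⟩
  intro χ hχ h0
  rw [inner_sum_left]
  refine Finset.sum_eq_zero fun ψ _ => ?_
  rw [H18.CharOrtho.inner_smul_left, inner_irr_ne ψ.1.2 hχ (fun h => ψ.2 (by rw [h]; exact h0)), mul_zero]

/-- elements of the commutant commute in the multiplicity-free case -/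
theorem comm_of_mf (ρ : Representation ℂ G V)
    (hmf : ∀ χ : G → ℂ, IsIrrCharacter G χ →
      classInner ρ.character χ = 0 ∨ classInner ρ.character χ = 1)
    {S T : V →ₗ[ℂ] V} (hS : ∀ g v, S (ρ g v) = ρ g (S v)) (hT : ∀ g v, T (ρ g v) = ρ g (T v)) :
    S ∘ₗ T = T ∘ₗ S := by
  obtain ⟨c, -, -, rfl⟩ := exists_avgOp ρ hmf hS
  ext v
  exact avgOp_hom hT c v

/-- a commutative commutant forces multiplicity-freeness -/
theorem mf_of_comm (ρ : Representation ℂ G V)
    (hcomm : ∀ S T : V →ₗ[ℂ] V, (∀ g v, S (ρ g v) = ρ g (S v)) → (∀ g v, T (ρ g v) = ρ g (T v)) →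
      S ∘ₗ T = T ∘ₗ S) {χ : G → ℂ} (hχ : IsIrrCharacter G χ) :
    classInner ρ.character χ = 0 ∨ classInner ρ.character χ = 1 := by
  obtain ⟨m, hm⟩ := mult_nat ρ hχ
  by_contra hcon
  rw [hm, not_or] at hcon
  have hm2 : 2 ≤ m := by
    rcases m with _ | _ | m
    · exact absurd Nat.cast_zero hcon.1
    · exact absurd Nat.cast_one hcon.2
    · omega
  obtain ⟨n, σ, hσ, rfl⟩ := hχ
  rw [← finrank_hom] at hm
  have hm' : Module.finrank ℂ (linHom σ ρ).invariants = m := by exact_mod_cast hm
  have hnt := Module.nontrivial_of_finrank_pos (R := ℂ) (M := (linHom σ ρ).invariants) (by omega)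
  obtain ⟨f1, hf1⟩ := exists_ne (0 : (linHom σ ρ).invariants)
  obtain ⟨f2, hf2⟩ : ∃ f2 : (linHom σ ρ).invariants, f2 ∉ Submodule.span ℂ {f1} := by
    by_contra hc
    push Not at hc
    have h1 : Submodule.span ℂ {f1} = ⊤ := Submodule.eq_top_iff'.2 hc
    have h2 := finrank_top ℂ (linHom σ ρ).invariants
    rw [← h1] at h2
    have h3 := finrank_span_singleton (K := ℂ) hf1
    omega
  have e1 := mem_hom.1 f1.2
  have e2 := mem_hom.1 f2.2
  -- injectivity
  have hker : LinearMap.ker f1.1 = ⊥ := by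
    let K : Subrepresentation σ := ⟨LinearMap.ker f1.1, fun g v hv => by
      rw [LinearMap.mem_ker] at hv ⊢
      rw [e1, hv, map_zero]⟩
    have hso : IsSimpleOrder (Subrepresentation σ) := hσ
    rcases hso.eq_bot_or_eq_top K with h | h
    · exact congrArg Subrepresentation.toSubmodule h
    · exfalso
      apply hf1
      apply Subtype.ext
      have h4 : LinearMap.ker f1.1 = ⊤ := congrArg Subrepresentation.toSubmodule h
      exact LinearMap.ker_eq_top.1 h4
  obtain ⟨l, hl⟩ := f1.1.exists_leftInverse_of_injective hker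
  obtain ⟨h, hh⟩ : ∃ h : V →ₗ[ℂ] (Fin n → ℂ), ∀ v, h v =
      (Nat.card G : ℂ)⁻¹ • ∑ g : G, σ g⁻¹ (l (ρ g v)) :=
    ⟨(Nat.card G : ℂ)⁻¹ • ∑ g : G, σ g⁻¹ ∘ₗ l ∘ₗ ρ g, fun v => by
      simp only [LinearMap.smul_apply, LinearMap.sum_apply, LinearMap.comp_apply]⟩
  have hhi : ∀ g v, h (ρ g v) = σ g (h v) := by
    intro k v
    rw [hh, hh, map_smul, map_sum]
    congr 1
    refine Fintype.sum_equiv (Equiv.mulRight k) _ _ fun g => ?_
    simp only [Equiv.coe_mulRight]
    rw [← Module.End.mul_apply, ← map_mul, ← Module.End.mul_apply, ← map_mul]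
    congr 2
    group
  have hhf : ∀ v, h (f1.1 v) = v := by
    intro v
    rw [hh]
    have h1 : ∀ g : G, σ g⁻¹ (l (ρ g (f1.1 v))) = v := by
      intro g
      rw [← e1]
      have h2 := congrArg (fun L : (Fin n → ℂ) →ₗ[ℂ] (Fin n → ℂ) => L (σ g v)) hl
      simp only [LinearMap.comp_apply, LinearMap.id_apply] at h2
      rw [h2, inv_self_apply]
    rw [Finset.sum_congr rfl (fun g _ => h1 g), Finset.sum_const, Finset.card_univ,
      ← Nat.cast_smul_eq_nsmul ℂ, smul_smul, ← Nat.card_eq_fintype_card,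
      inv_mul_cancel₀ card_ne_zero', one_smul]
  obtain ⟨c, hc⟩ := schur σ hσ (T := h ∘ₗ f2.1) (fun g v => by
    rw [LinearMap.comp_apply, LinearMap.comp_apply, e2, hhi])
  let f3 : (Fin n → ℂ) →ₗ[ℂ] V := f2.1 - c • f1.1
  have hf3v : ∀ v, f3 v = f2.1 v - c • f1.1 v := fun v => rfl
  have hf3 : ∀ v, h (f3 v) = 0 := by
    intro v
    have h1 := hc v
    rw [LinearMap.comp_apply] at h1
    rw [hf3v, map_sub, map_smul, h1, hhf, sub_self]
  have e3 : ∀ g v, f3 (σ g v) = ρ g (f3 v) := by
    intro g v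
    rw [hf3v, hf3v, e1, e2, map_sub, map_smul]
  have hcm := hcomm (f1.1 ∘ₗ h) (f3 ∘ₗ h) (fun g v => by
    rw [LinearMap.comp_apply, LinearMap.comp_apply, hhi, e1]) (fun g v => by
    rw [LinearMap.comp_apply, LinearMap.comp_apply, hhi, e3])
  have hf30 : f3 = 0 := by
    ext v
    have h1 := congrArg (fun L : V →ₗ[ℂ] V => L (f1.1 (Pi.single v 1))) hcm
    simp only [LinearMap.comp_apply, hhf, hf3, map_zero] at h1
    simpa using h1.symm
  apply hf2
  rw [Submodule.mem_span_singleton]
  refine ⟨c, Subtype.ext ?_⟩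
  exact (sub_eq_zero.1 hf30).symm

end mf

section perm

variable (Ω : Type v) [Fintype Ω] [MulAction G Ω]

omit [Fintype G] in
/-- the character of the permutation representation -/
theorem permRep_char (g : G) : (permRep ℂ G Ω).character g = (Nat.card (MulAction.fixedBy Ω g) : ℂ) := by
  classical
  rw [Representation.character, LinearMap.trace_eq_matrix_trace ℂ (Pi.basisFun ℂ Ω), Matrix.trace]
  have h1 : ∀ x : Ω, Matrix.diag ((LinearMap.toMatrix (Pi.basisFun ℂ Ω) (Pi.basisFun ℂ Ω))
      (permRep ℂ G Ω g)) x = if g • x = x then 1 else 0 := by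
    intro x
    rw [Matrix.diag_apply, LinearMap.toMatrix_apply]
    simp only [Pi.basisFun_repr, Pi.basisFun_apply]
    change (Pi.single x (1 : ℂ) : Ω → ℂ) (g⁻¹ • x) = _
    by_cases h : g • x = x
    · have h2 : g⁻¹ • x = x := by rw [inv_smul_eq_iff, h]
      rw [h2, if_pos h, Pi.single_eq_same]
    · have h2 : g⁻¹ • x ≠ x := by
        intro h3
        rw [inv_smul_eq_iff] at h3
        exact h h3.symm
      rw [if_neg h, Pi.single_eq_of_ne h2]
  rw [Finset.sum_congr rfl (fun x _ => h1 x), Finset.sum_boole]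
  congr 1
  rw [← Fintype.card_subtype, ← Nat.card_eq_fintype_card]
  rfl

omit [Fintype G] in
theorem permRep_char' : (permRep ℂ G Ω).character = fun g => (Nat.card (MulAction.fixedBy Ω g) : ℂ) :=
  funext (permRep_char Ω)

end perm

end H15.Commutant
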