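import Cfsg.Agent.Lib.H15.FieldOf
import Cfsg.Agent.Lib.H8.ZassNormal
import Mathlib.NumberTheory.Fermat

/-!
Transitive groups of degree `p + 1` and order `(p+1) p d`, `d < p`.
-/

set_option autoImplicit false
set_option linter.unusedSectionVars false

namespace H15.DegP1

open MulAction

variable {G α : Type*} [Group G] [Finite G] [Fintype α] [DecidableEq α] [MulAction G α] [FaithfulSMul G α]

/-- the data -/
structure Hyp (G α : Type*) [Group G] [Fintype α] [MulAction G α] (p : ℕ) (a : α) (P : Subgroup G) : Prop where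
  hp : p.Prime
  hα : Fintype.card α = p + 1
  fix : ∀ u ∈ P, u • a = a
  norm : ∀ g : G, g • a = a → ∀ u ∈ P, g * u * g⁻¹ ∈ P
  free : ∀ u ∈ P, ∀ y : α, y ≠ a → u • y = y → u = 1
  tr : ∀ y z : α, y ≠ a → z ≠ a → ∃ u ∈ P, u • y = z
  card : Nat.card P = p

theorem exists_P {p d : ℕ} (hp : p.Prime) (hα : Fintype.card α = p + 1) [IsPretransitive G α]
    (hG : Nat.card G = (p + 1) * p * d) (hd : d < p) (a : α) : ∃ P : Subgroup G, Hyp G α p a P := by
  classical
  have : Fact p.Prime := ⟨hp⟩
  have hd0 : 0 < d := by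
    rcases Nat.eq_zero_or_pos d with h | h
    · exfalso
      rw [h, mul_zero] at hG
      exact Nat.card_pos.ne' hG
    · exact h
  have hA : Nat.card (stabilizer G a) = p * d := by
    have h1 := (stabilizer G a).card_mul_index
    rw [index_stabilizer_of_transitive, Nat.card_eq_fintype_card (α := α), hα, hG] at h1
    have h2 : (p + 1) * Nat.card (stabilizer G a) = (p + 1) * (p * d) := by
      rw [mul_comm, h1]; ring
    exact Nat.eq_of_mul_eq_mul_left (by omega) h2
  have hpd : ¬ p ∣ d := fun h => absurd (Nat.le_of_dvd hd0 h) (by omega)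
  let S : Sylow p (stabilizer G a) := default
  have hS : Nat.card S = p := by
    rw [Sylow.card_eq_multiplicity, hA, Nat.factorization_mul hp.ne_zero hd0.ne', Finsupp.add_apply,
      hp.factorization_self, Nat.factorization_eq_zero_of_not_dvd hpd, add_zero, pow_one]
  have hSi : (S : Subgroup (stabilizer G a)).index = d := by
    have h1 := (S : Subgroup (stabilizer G a)).card_mul_index
    have h2 : Nat.card (S : Subgroup (stabilizer G a)) = p := hS
    rw [h2, hA] at h1
    exact Nat.eq_of_mul_eq_mul_left hp.pos h1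
  have hSn : Nat.card (Sylow p (stabilizer G a)) = 1 := by
    have h1 : Nat.card (Sylow p (stabilizer G a)) ∣ d := hSi ▸ S.card_dvd_index
    have h2 := card_sylow_modEq_one p (stabilizer G a)
    have h3 : Nat.card (Sylow p (stabilizer G a)) < p := lt_of_le_of_lt (Nat.le_of_dvd hd0 h1) hd
    unfold Nat.ModEq at h2
    rw [Nat.mod_eq_of_lt h3, Nat.mod_eq_of_lt hp.one_lt] at h2
    exact h2
  have hsub : Subsingleton (Sylow p (stabilizer G a)) := (Nat.card_eq_one_iff_unique.1 hSn).1
  have hSnorm : (S : Subgroup (stabilizer G a)).Normal := Sylow.normal_of_subsingleton S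
  let P : Subgroup G := (S : Subgroup (stabilizer G a)).map (stabilizer G a).subtype
  have hPcard : Nat.card P = p := by
    rw [← hS]
    exact (Nat.card_congr ((S : Subgroup (stabilizer G a)).equivMapOfInjective _ (stabilizer G a).subtype_injective).toEquiv).symm
  have hfix : ∀ u ∈ P, u • a = a := by
    rintro _ ⟨u, -, rfl⟩
    exact u.2
  have hnorm : ∀ g : G, g • a = a → ∀ u ∈ P, g * u * g⁻¹ ∈ P := by
    rintro g hg _ ⟨u, hu, rfl⟩
    exact ⟨⟨g, hg⟩ * u * ⟨g, hg⟩⁻¹, hSnorm.conj_mem u hu _, rfl⟩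
  -- a nontrivial orbit
  obtain ⟨u₀, hu₀⟩ : ∃ u : P, u ≠ 1 := by
    have : Nontrivial P := Finite.one_lt_card_iff_nontrivial.1 (by rw [hPcard]; exact hp.one_lt)
    exact exists_ne 1
  obtain ⟨y, hy⟩ : ∃ y : α, (u₀ : G) • y ≠ y := by
    by_contra hcon
    push Not at hcon
    apply hu₀
    apply Subtype.ext
    exact FaithfulSMul.eq_of_smul_eq_smul (α := α) (fun x => by rw [hcon x, Subgroup.coe_one, one_smul])
  have hya : y ≠ a := by
    rintro rfl
    exact hy (hfix _ u₀.2)
  have horb : Nat.card (orbit P y) * Nat.card (stabilizer P y) = p := by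
    rw [← hPcard, ← Nat.card_prod]
    exact Nat.card_congr (orbitProdStabilizerEquivGroup P y)
  have hstab : Nat.card (stabilizer P y) = 1 := by
    rcases (Nat.dvd_prime hp).1 (Dvd.intro_left _ horb) with h | h
    · exact h
    · exfalso
      have h1 : stabilizer P y = ⊤ := by
        rw [← Subgroup.card_eq_iff_eq_top, h, hPcard]
      have h2 : u₀ ∈ stabilizer P y := by rw [h1]; trivial
      exact hy h2
  have horb' : Nat.card (orbit P y) = p := by rw [hstab, mul_one] at horb; exact horb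
  have hsubset : orbit P y ⊆ {z | z ≠ a} := by
    rintro _ ⟨u, rfl⟩ h
    have h1 : (u : G) • a = a := hfix _ u.2
    exact hya (smul_left_cancel (u : G) (h.trans h1.symm))
  have hsetcard : ({z | z ≠ a} : Set α).ncard = p := by
    have h1 : ({z | z ≠ a} : Set α) = {a}ᶜ := rfl
    rw [h1, Set.ncard_compl, Set.ncard_singleton, Nat.card_eq_fintype_card, hα]
    omega
  have heq : orbit P y = {z | z ≠ a} := by
    apply Set.eq_of_subset_of_ncard_le hsubset
    rw [hsetcard, ← Nat.card_coe_set_eq, horb']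
  have htr0 : ∀ z, z ≠ a → ∃ u ∈ P, u • y = z := by
    intro z hz
    have h1 : z ∈ orbit P y := by rw [heq]; exact hz
    obtain ⟨u, hu⟩ := h1
    exact ⟨u, u.2, hu⟩
  have hfree0 : ∀ u ∈ P, u • y = y → u = 1 := by
    intro u hu h
    have h1 : (⟨u, hu⟩ : P) ∈ stabilizer P y := h
    rw [Subgroup.card_eq_one.1 hstab, Subgroup.mem_bot] at h1
    exact congrArg Subtype.val h1
  refine ⟨P, hp, hα, hfix, hnorm, ?_, ?_, hPcard⟩
  · intro u hu z hz huz
    obtain ⟨v, hv, hvz⟩ := htr0 z hz
    have h1 : v⁻¹ * u * v = 1 := by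
      apply hfree0 _ (P.mul_mem (P.mul_mem (P.inv_mem hv) hu) hv)
      rw [mul_smul, mul_smul, hvz, huz, inv_smul_eq_iff, hvz]
    have h2 : u = v * (v⁻¹ * u * v) * v⁻¹ := by group
    rw [h2, h1]; group
  · intro z w hz hw
    obtain ⟨v, hv, hvz⟩ := htr0 z hz
    obtain ⟨x, hx, hxw⟩ := htr0 w hw
    refine ⟨x * v⁻¹, P.mul_mem hx (P.inv_mem hv), ?_⟩
    rw [mul_smul, ← hvz, inv_smul_smul, hxw]

namespace Hyp

variable {p : ℕ} {a : α} {P : Subgroup G} (h : Hyp G α p a P)
include h

theorem comm (u v : G) (hu : u ∈ P) (hv : v ∈ P) : u * v = v * u := by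
  have : Fact p.Prime := ⟨h.hp⟩
  have h1 : IsCyclic P := isCyclic_of_prime_card h.card
  have h2 := IsCyclic.isMulCommutative (α := P)
  exact congrArg Subtype.val (h2.is_comm.comm (⟨u, hu⟩ : P) ⟨v, hv⟩)

theorem two_trans [IsPretransitive G α] {x y z w : α} (hxy : x ≠ y) (hzw : z ≠ w) :
    ∃ g : G, g • x = z ∧ g • y = w := by
  obtain ⟨k, hk⟩ := exists_smul_eq G x a
  obtain ⟨l, hl⟩ := exists_smul_eq G z a
  have h1 : k • y ≠ a := fun h1 => hxy (smul_left_cancel k (hk.trans h1.symm))
  have h2 : l • w ≠ a := fun h1 => hzw (smul_left_cancel l (hl.trans h1.symm))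
  obtain ⟨u, hu, huy⟩ := h.tr _ _ h1 h2
  refine ⟨l⁻¹ * u * k, ?_, ?_⟩
  · rw [mul_smul, mul_smul, hk, h.fix u hu, inv_smul_eq_iff, hl]
  · rw [mul_smul, mul_smul, huy, inv_smul_smul]

theorem is2 [IsPretransitive G α] : IsMultiplyPretransitive G α 2 := by
  rw [is_two_pretransitive_iff]
  intro x y z w hxy hzw
  exact h.two_trans hxy hzw

theorem zpowers {u : G} (hu : u ∈ P) (hu1 : u ≠ 1) : ∀ v ∈ P, ∃ n : ℤ, u ^ n = v := by
  have : Fact p.Prime := ⟨h.hp⟩
  intro v hv
  have h1 : Subgroup.zpowers (⟨u, hu⟩ : P) = ⊤ := by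
    have h2 : (⟨u, hu⟩ : P) ≠ 1 := fun h => hu1 (congrArg Subtype.val h)
    exact zpowers_eq_top_of_prime_card (p := p) h.card h2
  have h2 : (⟨v, hv⟩ : P) ∈ Subgroup.zpowers (⟨u, hu⟩ : P) := by rw [h1]; trivial
  obtain ⟨n, hn⟩ := Subgroup.mem_zpowers_iff.1 h2
  exact ⟨n, congrArg Subtype.val hn⟩

theorem three_a {g : G} {b c : α} (hb : b ≠ a) (hc : c ≠ a) (hbc : b ≠ c) (hga : g • a = a) (hgb : g • b = b)
    (hgc : g • c = c) : g = 1 := by
  obtain ⟨u, hu, hub⟩ := h.tr b c hb hc
  have hu1 : u ≠ 1 := by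
    rintro rfl
    rw [one_smul] at hub
    exact hbc hub
  have h1 : g * u * g⁻¹ = u := by
    have h2 := h.norm g hga u hu
    have h3 : u⁻¹ * (g * u * g⁻¹) = 1 := by
      apply h.free _ (P.mul_mem (P.inv_mem hu) h2) b hb
      have hgb' : g⁻¹ • b = b := by rw [inv_smul_eq_iff, hgb]
      rw [mul_smul, mul_smul, mul_smul, hgb', hub, hgc, inv_smul_eq_iff, hub]
    exact (inv_mul_eq_one.1 h3).symm
  have h2 : ∀ v ∈ P, g * v = v * g := by
    intro v hv
    obtain ⟨n, rfl⟩ := h.zpowers hu hu1 v hv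
    have h3 : Commute g u := by
      have h4 : g * u = (g * u * g⁻¹) * g := by group
      rw [h1] at h4
      exact h4
    exact (h3.zpow_right n).eq
  apply FaithfulSMul.eq_of_smul_eq_smul (α := α)
  intro x
  rw [one_smul]
  by_cases hx : x = a
  · rw [hx, hga]
  · obtain ⟨v, hv, hvx⟩ := h.tr b x hb hx
    rw [← hvx, ← mul_smul, h2 v hv, mul_smul, hgb]

theorem three [IsPretransitive G α] (g : G) (x y z : α) (hxy : x ≠ y) (hyz : y ≠ z) (hxz : x ≠ z) (hx : g • x = x)
    (hy : g • y = y) (hz : g • z = z) : g = 1 := by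
  obtain ⟨k, hk⟩ := exists_smul_eq G x a
  have key : ∀ w : α, g • w = w → (k * g * k⁻¹) • (k • w) = k • w := by
    intro w hw
    rw [mul_smul, mul_smul, inv_smul_smul, hw]
  have h1 : k * g * k⁻¹ = 1 := by
    apply h.three_a (b := k • y) (c := k • z)
    · intro h1
      exact hxy (smul_left_cancel k (hk.trans h1.symm))
    · intro h1
      exact hxz (smul_left_cancel k (hk.trans h1.symm))
    · intro h1
      exact hyz (smul_left_cancel k h1)
    · rw [← hk]; exact key x hx
    · exact key y hy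
    · exact key z hz
  rw [mul_inv_eq_one, mul_eq_left] at h1
  exact h1

/-- counting: the order of the two-point stabiliser -/
theorem card_E [IsPretransitive G α] {d : ℕ} (hG : Nat.card G = (p + 1) * p * d) {b : α} (hb : b ≠ a) :
    Nat.card (stabilizer G a ⊓ stabilizer G b : Subgroup G) = d := by
  have hA : Nat.card (stabilizer G a) = p * d := by
    have h1 := (stabilizer G a).card_mul_index
    rw [index_stabilizer_of_transitive, Nat.card_eq_fintype_card (α := α), h.hα, hG] at h1
    have h2 : (p + 1) * Nat.card (stabilizer G a) = (p + 1) * (p * d) := by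
      rw [mul_comm, h1]; ring
    exact Nat.eq_of_mul_eq_mul_left (by omega) h2
  -- bijection P × E ≃ A
  have h1 : Function.Bijective (fun x : P × (stabilizer G a ⊓ stabilizer G b : Subgroup G) =>
      (⟨(x.1 : G) * (x.2 : G), by
        have h1 : (x.2 : G) • a = a := x.2.2.1
        change ((x.1 : G) * (x.2 : G)) • a = a
        rw [mul_smul, h1, h.fix _ x.1.2]⟩ : stabilizer G a)) := by
    constructor
    · rintro ⟨u, e⟩ ⟨v, f⟩ hxy
      have h2 : (u : G) * (e : G) = (v : G) * (f : G) := congrArg Subtype.val hxy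
      have he : (e : G) • b = b := e.2.2
      have hf : (f : G) • b = b := f.2.2
      have h3 : (v : G)⁻¹ * u = 1 := by
        apply h.free _ (P.mul_mem (P.inv_mem v.2) u.2) b hb
        have h4 : (u : G) • b = (v : G) • b := by
          have h5 := congrArg (fun g : G => g • b) h2
          simp only [mul_smul] at h5
          rw [he, hf] at h5
          exact h5
        rw [mul_smul, h4, inv_smul_smul]
      have h4 : u = v := Subtype.ext (inv_mul_eq_one.1 h3).symm
      subst h4
      have h5 : e = f := Subtype.ext (mul_left_cancel h2)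
      rw [h5]
    · rintro ⟨g, hg⟩
      have hg' : g • a = a := hg
      have h2 : g • b ≠ a := fun h2 => hb (smul_left_cancel g (h2.trans hg'.symm))
      obtain ⟨u, hu, hub⟩ := h.tr b (g • b) hb h2
      refine ⟨(⟨u, hu⟩, ⟨u⁻¹ * g, ?_, ?_⟩), ?_⟩
      · change (u⁻¹ * g) • a = a
        rw [mul_smul, hg', inv_smul_eq_iff, h.fix u hu]
      · change (u⁻¹ * g) • b = b
        rw [mul_smul, inv_smul_eq_iff, hub]
      · apply Subtype.ext
        change u * (u⁻¹ * g) = g
        group
  have h2 := Nat.card_eq_of_bijective _ h1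
  rw [Nat.card_prod, h.card, hA] at h2
  exact Nat.eq_of_mul_eq_mul_left h.hp.pos h2

end Hyp

end H15.DegP1
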