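import Cfsg.Agent.Lib.H15.DegP1
import Mathlib.FieldTheory.Finite.GaloisField
import Mathlib.NumberTheory.Fermat

/-!
Transitive groups of degree `p + 1` with a regular normal subgroup: semiaffine groups.
-/

set_option autoImplicit false
set_option linter.unusedSectionVars false

namespace H15.DegP1

open MulAction

variable {G α : Type*} [Group G] [Finite G] [Fintype α] [DecidableEq α] [MulAction G α] [FaithfulSMul G α]

namespace Hyp

variable {p : ℕ} {a : α} {P : Subgroup G} (h : Hyp G α p a P) {N : Subgroup G} [hN : N.Normal]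
  (hNt : IsPretransitive N α) (hNr : ∀ x : α, stabilizer N x = ⊥)
include h hNt hNr

theorem N_tr (x y : α) : ∃ n ∈ N, n • x = y := by
  obtain ⟨n, hn⟩ := exists_smul_eq N x y
  exact ⟨n, n.2, hn⟩

omit h hNt in
theorem N_free {n : G} (hn : n ∈ N) {x : α} (hx : n • x = x) : n = 1 := by
  have h1 : (⟨n, hn⟩ : N) ∈ stabilizer N x := hx
  rw [hNr, Subgroup.mem_bot] at h1
  exact congrArg Subtype.val h1

theorem N_comm [IsPretransitive G α] {m n : G} (hm : m ∈ N) (hn : n ∈ N) : m * n = n * m := by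
  have : Nontrivial α := Fintype.one_lt_card_iff_nontrivial.1 (by rw [h.hα]; have := h.hp.pos; omega)
  exact H8.Zass.comm_of_regular h.is2 hNt hNr hm hn

theorem card_N : Nat.card N = p + 1 := by
  rw [← h.hα, ← Nat.card_eq_fintype_card]
  apply Nat.card_eq_of_bijective (fun n : N => n • a)
  constructor
  · intro m n hmn
    have h1 : ((n : G)⁻¹ * m) • a = a := by
      have h2 : (m : G) • a = (n : G) • a := hmn
      rw [mul_smul, h2, inv_smul_smul]
    exact Subtype.ext (inv_mul_eq_one.1 (N_free hNr (N.mul_mem (N.inv_mem n.2) m.2) h1)).symm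
  · intro y
    obtain ⟨n, hn, hny⟩ := h.N_tr hNt hNr a y
    exact ⟨⟨n, hn⟩, hny⟩

theorem exists_q [IsPretransitive G α] (hp2 : p ≠ 2) : ∃ q : ℕ, q.Prime ∧ p + 1 = 2 ^ q := by
  have hc := h.card_N hNt hNr
  have hne : Nonempty α := ⟨a⟩
  have hodd := h.hp.odd_of_ne_two hp2
  have h2N : 2 ∣ Nat.card N := by
    rw [hc]
    obtain ⟨k, hk⟩ := hodd
    exact ⟨k + 1, by omega⟩
  have hf : Fact (Nat.Prime 2) := ⟨Nat.prime_two⟩
  obtain ⟨t, ht⟩ := exists_prime_orderOf_dvd_card' 2 h2N
  have ht1 : (t : G) ≠ 1 := by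
    intro h1
    have h2 : t = 1 := Subtype.ext h1
    rw [h2, orderOf_one] at ht
    omega
  have htt : (t : G) * t = 1 := by
    have h1 : t ^ 2 = 1 := by rw [← ht, pow_orderOf_eq_one]
    have h2 := congrArg Subtype.val h1
    rw [pow_two] at h2
    exact h2
  have hsq : ∀ n ∈ N, n * n = 1 := by
    intro n hn
    by_cases hn1 : n = 1
    · rw [hn1, one_mul]
    · obtain ⟨g, hg⟩ := H8.Zass.conj_of_regular h.is2 hNr t.2 hn ht1 hn1
      rw [← hg]
      have h1 : g * t * g⁻¹ * (g * t * g⁻¹) = g * (t * t) * g⁻¹ := by group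
      rw [h1, htt]; group
  have hP2 : IsPGroup 2 N := by
    intro n
    refine ⟨1, Subtype.ext ?_⟩
    rw [pow_one, pow_two]
    exact hsq n n.2
  obtain ⟨k, hk⟩ := IsPGroup.iff_card.1 hP2
  rw [hc] at hk
  refine ⟨k, ?_, hk⟩
  refine (Nat.prime_of_pow_sub_one_prime (a := 2) (n := k) ?_ ?_).2
  · rintro rfl
    have := h.hp.one_lt
    omega
  · have h1 : 2 ^ k - 1 = p := by omega
    rw [h1]
    exact h.hp

/-- the elements of `N P` fixing `a` are in `P` -/
theorem mem_P_of_fix {g : G} (hg : g ∈ N ⊔ P) (hga : g • a = a) : g ∈ P := by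
  obtain ⟨n, hn, u, hu, rfl⟩ := Subgroup.mem_sup_of_normal_left.1 hg
  rw [mul_smul, h.fix u hu] at hga
  rw [N_free hNr hn hga, one_mul]
  exact hu

theorem exists_field [IsPretransitive G α] {b : α} (hb : b ≠ a) : ∃ (_ : Field α), (0 : α) = a ∧ (1 : α) = b ∧
    (∀ n ∈ N, ∀ x : α, n • x = x + n • a) ∧ (∀ u ∈ P, ∀ x : α, u • x = (u • b) * x) := by
  let D : H15.FieldOf.Data (N ⊔ P : Subgroup G) α :=
    { o := a
      u := b
      hou := hb
      E := N.subgroupOf (N ⊔ P)
      normal := by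
        intro g e he
        rw [Subgroup.mem_subgroupOf] at he ⊢
        exact hN.conj_mem _ he _
      Ecomm := by
        intro x hx y hy
        exact Subtype.ext (h.N_comm hNt hNr (Subgroup.mem_subgroupOf.1 hx) (Subgroup.mem_subgroupOf.1 hy))
      Etr := by
        intro x
        obtain ⟨n, hn, hnx⟩ := h.N_tr hNt hNr a x
        exact ⟨⟨n, Subgroup.mem_sup_left hn⟩, Subgroup.mem_subgroupOf.2 hn, hnx⟩
      Ereg := by
        intro e he x hx
        exact Subtype.ext (N_free hNr (Subgroup.mem_subgroupOf.1 he) hx)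
      Htr := by
        intro x hx
        obtain ⟨u, hu, hux⟩ := h.tr b x hb hx
        exact ⟨⟨u, Subgroup.mem_sup_right hu⟩, h.fix u hu, hux⟩
      Hreg := by
        intro g x hx hg hgx
        exact Subtype.ext (h.free g (h.mem_P_of_fix hNt hNr g.2 hg) x hx hgx)
      Hcomm := by
        intro g k hg hk
        exact Subtype.ext (h.comm g k (h.mem_P_of_fix hNt hNr g.2 hg) (h.mem_P_of_fix hNt hNr k.2 hk)) }
  obtain ⟨F, h0, h1, h2, h3⟩ := H15.FieldOf.exists_field D
  have h0' : (0 : α) = a := h0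
  have h1' : (1 : α) = b := h1
  refine ⟨F, h0', h1', ?_, ?_⟩
  · intro n hn x
    obtain ⟨c, d, hc, hcd⟩ := h3 ⟨n, Subgroup.mem_sup_left hn⟩
    have hcd' : ∀ x : α, n • x = c * x + d := hcd
    have hd : n • a = d := by rw [← h0', hcd', mul_zero, zero_add]
    by_cases hc1 : c = 1
    · rw [hcd', hd, hc1, one_mul]
    · have hc2 : 1 - c ≠ 0 := sub_ne_zero.2 (Ne.symm hc1)
      have h4 : n • (d / (1 - c)) = d / (1 - c) := by
        rw [hcd']
        field_simp
        ring
      have h5 : n = 1 := N_free hNr hn h4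
      rw [h5, one_smul, one_smul, ← h0', add_zero]
  · intro u hu x
    exact h2 ⟨u, Subgroup.mem_sup_right hu⟩ (h.fix u hu) x

/-- automorphisms -/
theorem exists_aut {F : Field α} {b : α} (hb : b ≠ a) (h0 : (0 : α) = a) (h1 : (1 : α) = b)
    (hadd : ∀ n ∈ N, ∀ x : α, n • x = x + n • a) (hmul : ∀ u ∈ P, ∀ x : α, u • x = (u • b) * x)
    {g : G} (hga : g • a = a) (hgb : g • b = b) : ∃ φ : α ≃+* α, ∀ x, φ x = g • x := by
  have hmadd : ∀ x y : α, g • (x + y) = g • x + g • y := by
    intro x y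
    obtain ⟨n, hn, hnx⟩ := h.N_tr hNt hNr a x
    have h2 : g • (n • y) = (g * n * g⁻¹) • (g • y) := by
      rw [mul_smul, mul_smul, inv_smul_smul]
    rw [add_comm x y, ← hnx, ← hadd n hn y, h2, hadd _ (hN.conj_mem n hn g)]
    have h3 : (g * n * g⁻¹) • a = g • n • a := by
      have h4 : g⁻¹ • a = a := by rw [inv_smul_eq_iff, hga]
      rw [mul_smul, mul_smul, h4]
    rw [h3, add_comm]
  have hmmul : ∀ x y : α, g • (x * y) = (g • x) * (g • y) := by
    intro x y
    by_cases hx : x = a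
    · have hx0 : x = 0 := hx.trans h0.symm
      have h2 : g • (0 : α) = 0 := by rw [h0, hga]
      rw [hx0, zero_mul, h2, zero_mul]
    · obtain ⟨u, hu, hux⟩ := h.tr b x hb hx
      have h2 : g • (u • y) = (g * u * g⁻¹) • (g • y) := by
        rw [mul_smul, mul_smul, inv_smul_smul]
      rw [← hux, ← hmul u hu y, h2, hmul _ (h.norm g hga u hu)]
      congr 1
      have h4 : g⁻¹ • b = b := by rw [inv_smul_eq_iff, hgb]
      rw [mul_smul, mul_smul, h4]
  exact ⟨{ toFun := fun x => g • x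
           invFun := fun x => g⁻¹ • x
           left_inv := fun x => inv_smul_smul g x
           right_inv := fun x => smul_inv_smul g x
           map_mul' := hmmul
           map_add' := hmadd }, fun x => rfl⟩

theorem semi [IsPretransitive G α] {q d : ℕ} (hq : q.Prime) (hpq : p + 1 = 2 ^ q)
    (hd : Nat.card G = (p + 1) * p * d) : (d = 1 ∨ d = q) ∧ ∃ e : α ≃ GaloisField 2 q, ∀ g : G,
      ∃ (c : (GaloisField 2 q)ˣ) (t : GaloisField 2 q) (φ : GaloisField 2 q ≃+* GaloisField 2 q),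
        ∀ x, e (g • e.symm x) = (c : GaloisField 2 q) * φ x + t := by
  classical
  obtain ⟨b, hb⟩ : ∃ b : α, b ≠ a := by
    have h1 : 1 < Fintype.card α := by rw [h.hα]; have := h.hp.pos; omega
    obtain ⟨b, hb⟩ := Fintype.exists_ne_of_one_lt_card h1 a
    exact ⟨b, hb⟩
  obtain ⟨F, h0, h1, hadd, hmul⟩ := h.exists_field hNt hNr hb
  have hE := h.card_E hd hb
  have hf2 : Fact (Nat.Prime 2) := ⟨Nat.prime_two⟩
  have hcardF : Fintype.card α = 2 ^ q := by rw [h.hα, hpq]
  have hchar : CharP α 2 := charP_of_card_eq_prime_pow hcardF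
  let _ : Algebra (ZMod 2) α := ZMod.algebra α 2
  have hfr : Module.finrank (ZMod 2) α = q := by
    have h3 : Nat.card α = 2 ^ Module.finrank (ZMod 2) α := by
      rw [Module.natCard_eq_pow_finrank (K := ZMod 2), Nat.card_zmod]
    rw [Nat.card_eq_fintype_card, hcardF] at h3
    exact (Nat.pow_right_injective (le_refl 2) h3).symm
  refine ⟨?_, ?_⟩
  · choose φ hφ using fun g : (stabilizer G a ⊓ stabilizer G b : Subgroup G) =>
      h.exists_aut hNt hNr (F := F) hb h0 h1 hadd hmul g.2.1 g.2.2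
    let f : (stabilizer G a ⊓ stabilizer G b : Subgroup G) →* (α ≃ₐ[ZMod 2] α) := MonoidHom.mk'
      (fun g => AlgEquiv.ofRingEquiv (f := φ g) (fun r => by
        have h3 : ((φ g : α ≃+* α) : α →+* α).comp (algebraMap (ZMod 2) α) = algebraMap (ZMod 2) α := Subsingleton.elim _ _
        exact RingHom.congr_fun h3 r)) (by
        intro g k
        apply AlgEquiv.ext
        intro x
        change φ (g * k) x = φ g (φ k x)
        rw [hφ, hφ, hφ, Subgroup.coe_mul, mul_smul])
    have hfi : Function.Injective f := by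
      rw [injective_iff_map_eq_one]
      intro g hg
      apply Subtype.ext
      apply FaithfulSMul.eq_of_smul_eq_smul (α := α)
      intro x
      rw [← hφ, Subgroup.coe_one, one_smul]
      exact congrArg (fun t : α ≃ₐ[ZMod 2] α => t x) hg
    have h3 := Subgroup.card_dvd_of_injective f hfi
    rw [hE, IsGalois.card_aut_eq_finrank, hfr] at h3
    exact (Nat.dvd_prime hq).1 h3
  · have hcg : Nat.card α = Nat.card (GaloisField 2 q) := by
      rw [GaloisField.card 2 q hq.ne_zero, Nat.card_eq_fintype_card, hcardF]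
    have : Fintype (GaloisField 2 q) := Fintype.ofFinite _
    let e : α ≃+* GaloisField 2 q := FiniteField.ringEquivOfCardEq (by
      rw [← Nat.card_eq_fintype_card, ← Nat.card_eq_fintype_card]; exact hcg)
    refine ⟨e.toEquiv, fun g => ?_⟩
    obtain ⟨n, hn, hna⟩ := h.N_tr hNt hNr a (g • a)
    have h2 : (n⁻¹ * g) • a = a := by rw [mul_smul, inv_smul_eq_iff, hna]
    have h3 : (n⁻¹ * g) • b ≠ a := fun h3 => hb (smul_left_cancel (n⁻¹ * g) (h3.trans h2.symm))
    obtain ⟨u, hu, hub⟩ := h.tr b _ hb h3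
    have h4 : (u⁻¹ * (n⁻¹ * g)) • a = a := by rw [mul_smul, h2, inv_smul_eq_iff, h.fix u hu]
    have h5 : (u⁻¹ * (n⁻¹ * g)) • b = b := by rw [mul_smul, ← hub, inv_smul_smul]
    obtain ⟨φ, hφ⟩ := h.exists_aut hNt hNr (F := F) hb h0 h1 hadd hmul h4 h5
    have hub0 : u • b ≠ 0 := by rw [hub, h0]; exact h3
    have hub0' : e (u • b) ≠ 0 := by rw [Ne, EmbeddingLike.map_eq_zero_iff]; exact hub0
    refine ⟨Units.mk0 (e (u • b)) hub0', e (n • a), (e.symm.trans φ).trans e, ?_⟩
    intro x
    change e (g • e.symm x) = e (u • b) * e (φ (e.symm x)) + e (n • a)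
    rw [← map_mul, ← map_add]
    congr 1
    have h6 : g • e.symm x = n • u • (u⁻¹ * (n⁻¹ * g)) • e.symm x := by
      rw [← mul_smul, ← mul_smul]
      congr 1
      group
    rw [h6, hadd n hn, hmul u hu, hφ]

end Hyp

end H15.DegP1
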