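import Mathlib

/-!
# M. Hall's theorem on 4-transitive groups (S4221): base definitions
-/

set_option autoImplicit false

namespace H15.MH

universe u v

/-- four distinct points -/
def D4 {α : Type*} (a b c d : α) : Prop :=
  a ≠ b ∧ a ≠ c ∧ a ≠ d ∧ b ≠ c ∧ b ≠ d ∧ c ≠ d

/-- `G` is 4-transitive on `α` and the stabilizers of four points have odd order -/
structure Hyp (G : Type u) (α : Type v) [Group G] [MulAction G α] : Prop where
  tr : ∀ a b c d a' b' c' d' : α, D4 a b c d → D4 a' b' c' d' →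
    ∃ g : G, g • a = a' ∧ g • b = b' ∧ g • c = c' ∧ g • d = d'
  od : ∀ a b c d : α, D4 a b c d → ∀ g : G, g • a = a → g • b = b → g • c = c → g • d = d → Odd (orderOf g)

/-- moreover every involution has exactly three fixed points, and for three distinct points there is at
most one involution fixing them -/
structure Hyp3 (G : Type u) (α : Type v) [Group G] [MulAction G α] : Prop extends Hyp G α where
  fx : ∀ t : G, orderOf t = 2 → ∃ a b c : α, a ≠ b ∧ a ≠ c ∧ b ≠ c ∧ ∀ x : α, t • x = x ↔ (x = a ∨ x = b ∨ x = c)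
  un : ∀ a b c : α, a ≠ b → a ≠ c → b ≠ c → ∀ s t : G, orderOf s = 2 → orderOf t = 2 →
    s • a = a → s • b = b → s • c = c → t • a = a → t • b = b → t • c = c → s = t

section basic

variable {G : Type u} {α : Type v} [Group G] [MulAction G α]

/-- an element whose square fixes four points: an odd power is an involution or `1` and acts in the same
way on all points fixed by the square -/
theorem exists_pow (h : Hyp G α) {a b c d : α} (hD : D4 a b c d) (g : G)
    (ha : g • g • a = a) (hb : g • g • b = b) (hc : g • g • c = c) (hd : g • g • d = d) :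
    ∃ u : G, u * u = 1 ∧ ∀ x : α, g • g • x = x → u • x = g • x := by
  have hodd : Odd (orderOf (g * g)) := by
    apply h.od a b c d hD <;> rw [mul_smul] <;> assumption
  obtain ⟨k, hk⟩ := hodd
  have hx : ∀ (x : α), g • g • x = x → ∀ j : ℕ, (g * g) ^ j • x = x := by
    intro x hx j
    induction j with
    | zero => simp
    | succ j ih => rw [pow_succ, mul_smul, mul_smul, hx, ih]
  refine ⟨g ^ (orderOf (g * g)), ?_, fun x hgx => ?_⟩
  · rw [← (Commute.refl g).mul_pow]; exact pow_orderOf_eq_one _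
  · rw [hk, pow_succ', pow_mul, pow_two, mul_smul, hx x hgx]

/-- an involution fixing `a`, `b` and interchanging `c`, `d` -/
theorem exists_u (h : Hyp G α) {a b c d : α} (hD : D4 a b c d) :
    ∃ u : G, orderOf u = 2 ∧ u • a = a ∧ u • b = b ∧ u • c = d ∧ u • d = c := by
  obtain ⟨hab, hac, had, hbc, hbd, hcd⟩ := hD
  obtain ⟨g, h1, h2, h3, h4⟩ := h.tr a b c d a b d c ⟨hab, hac, had, hbc, hbd, hcd⟩
    ⟨hab, had, hac, hbd, hbc, hcd.symm⟩
  obtain ⟨u, hu, hux⟩ := exists_pow h (⟨hab, hac, had, hbc, hbd, hcd⟩ : D4 a b c d) g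
    (by rw [h1, h1]) (by rw [h2, h2]) (by rw [h3, h4]) (by rw [h4, h3])
  have hc : u • c = d := by rw [hux c (by rw [h3, h4]), h3]
  refine ⟨u, orderOf_eq_prime (by rw [pow_two]; exact hu) ?_, by rw [hux a (by rw [h1, h1]), h1],
    by rw [hux b (by rw [h2, h2]), h2], hc, by rw [hux d (by rw [h4, h3]), h4]⟩
  rintro rfl
  rw [one_smul] at hc
  exact hcd hc

/-- two involutions acting in the same way on four points forming a union of cycles are conjugate by an
element fixing the four points -/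
theorem conj_of_eq (h : Hyp G α) {a b c d : α} (hD : D4 a b c d) {u w : G} (hu : u * u = 1) (hw : w * w = 1)
    (ha : u • w • a = a) (hb : u • w • b = b) (hc : u • w • c = c) (hd : u • w • d = d) :
    ∃ g : G, g • a = a ∧ g • b = b ∧ g • c = c ∧ g • d = d ∧ g * u * g⁻¹ = w := by
  have hodd : Odd (orderOf (u * w)) := by
    apply h.od a b c d hD <;> rw [mul_smul] <;> assumption
  obtain ⟨m, hm⟩ := hodd
  have hx : ∀ (x : α), u • w • x = x → ∀ j : ℕ, (u * w) ^ j • x = x := by
    intro x hx j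
    induction j with
    | zero => simp
    | succ j ih => rw [pow_succ, mul_smul, mul_smul, hx, ih]
  have hx' : ∀ (x : α), u • w • x = x → ∀ j : ℕ, ((u * w) ^ j)⁻¹ • x = x := by
    intro x hxx j
    rw [inv_smul_eq_iff]
    exact (hx x hxx j).symm
  have h2 : u⁻¹ = u := inv_eq_of_mul_eq_one_left hu
  have h3 : w⁻¹ = w := inv_eq_of_mul_eq_one_left hw
  have h0 : u * (u * w) * u⁻¹ = (u * w)⁻¹ := by
    rw [mul_inv_rev, h2, h3, ← mul_assoc, hu, one_mul]
  have h1 : ∀ n : ℕ, u * (u * w) ^ n * u = ((u * w) ^ n)⁻¹ := by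
    intro n
    calc u * (u * w) ^ n * u = u * (u * w) ^ n * u⁻¹ := by rw [h2]
      _ = (u * (u * w) * u⁻¹) ^ n := by rw [conj_pow]
      _ = ((u * w) ^ n)⁻¹ := by rw [h0, inv_pow]
  refine ⟨((u * w) ^ (m + 1))⁻¹, hx' a ha _, hx' b hb _, hx' c hc _, hx' d hd _, ?_⟩
  rw [inv_inv]
  have h4 : ((u * w) ^ (m + 1))⁻¹ * u = u * (u * w) ^ (m + 1) := by
    rw [← h1 (m + 1)]
    calc u * (u * w) ^ (m + 1) * u * u = u * (u * w) ^ (m + 1) * (u * u) := by group
      _ = u * (u * w) ^ (m + 1) := by rw [hu, mul_one]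
  rw [h4, mul_assoc, ← pow_add]
  have h5 : m + 1 + (m + 1) = orderOf (u * w) + 1 := by omega
  rw [h5, pow_add, pow_orderOf_eq_one, one_mul, pow_one, ← mul_assoc, hu, one_mul]

end basic

end H15.MH
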