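import Mathlib
import Cfsg.Agent.Lib.H15.MH0

/-!
# M. Hall's theorem (S4221): fixed point counts
-/

set_option autoImplicit false

namespace H15.MH

open MulAction

universe u v

variable {G : Type u} {α : Type v} [Group G] [MulAction G α]

theorem sq_one {t : G} (ht : orderOf t = 2) : t * t = 1 := by
  rw [← pow_two, ← ht]; exact pow_orderOf_eq_one t

theorem smul_smul_self {t : G} (ht : orderOf t = 2) (x : α) : t • t • x = x := by
  rw [← mul_smul, sq_one ht, one_smul]

theorem not_fix4 (h : Hyp G α) {t : G} (ht : orderOf t = 2) {a b c d : α} (hD : D4 a b c d)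
    (ha : t • a = a) (hb : t • b = b) (hc : t • c = c) (hd : t • d = d) : False := by
  have := h.od a b c d hD t ha hb hc hd
  rw [ht] at this; exact absurd this (by decide)

theorem exists_D4_of_card {s : Set α} [Finite α] (hs : 4 ≤ s.ncard) :
    ∃ a ∈ s, ∃ b ∈ s, ∃ c ∈ s, ∃ d ∈ s, D4 a b c d := by
  have h1 : s.Nonempty := by
    rw [Set.nonempty_iff_ne_empty]; rintro rfl; simp at hs
  obtain ⟨a, ha⟩ := h1
  have h2 : 2 < (s \ {a}).ncard := by
    rw [Set.ncard_sdiff_singleton_of_mem ha]; omega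
  obtain ⟨b, c, d, hb, hc, hd, hbc, hbd, hcd⟩ := (Set.two_lt_ncard_iff (Set.toFinite _)).1 h2
  exact ⟨a, ha, b, hb.1, c, hc.1, d, hd.1, fun e => hb.2 e.symm, fun e => hc.2 e.symm,
    fun e => hd.2 e.symm, hbc, hbd, hcd⟩

theorem fix_le3 (h : Hyp G α) [Finite α] {t : G} (ht : orderOf t = 2) : (fixedBy α t).ncard ≤ 3 := by
  by_contra hc
  obtain ⟨a, ha, b, hb, c, hc, d, hd, hD⟩ := exists_D4_of_card (s := fixedBy α t) (by omega)
  exact not_fix4 h ht hD ha hb hc hd

theorem exists_cycles (h : Hyp G α) [Finite α] (h6 : 6 ≤ Nat.card α) {t : G} (ht : orderOf t = 2) :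
    ∃ a b : α, D4 a (t • a) b (t • b) := by
  have h1 := fix_le3 h ht
  have h2 := Set.ncard_add_ncard_compl (fixedBy α t)
  obtain ⟨a, b, c, ha, hb, hc, hab, hac, hbc⟩ := (Set.two_lt_ncard_iff (s := (fixedBy α t)ᶜ) (Set.toFinite _)).1 (by omega)
  have key : ∀ x y : α, x ∈ (fixedBy α t)ᶜ → y ∈ (fixedBy α t)ᶜ → x ≠ y → t • x ≠ y → D4 x (t • x) y (t • y) := by
    intro x y hx hy hxy htxy
    refine ⟨fun e => hx e.symm, hxy, ?_, htxy, ?_, fun e => hy e.symm⟩
    · intro e
      apply htxy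
      rw [e, smul_smul_self ht]
    · intro e
      exact hxy (MulAction.injective t e)
  by_cases h3 : t • a = b
  · refine ⟨a, c, key a c ha hc hac ?_⟩
    rw [h3]; exact hbc
  · exact ⟨a, b, key a b ha hb hab h3⟩

theorem conj_inv (h : Hyp G α) [Finite α] (h6 : 6 ≤ Nat.card α) {s t : G} (hs : orderOf s = 2)
    (ht : orderOf t = 2) : ∃ g : G, g * s * g⁻¹ = t := by
  obtain ⟨a, b, hD⟩ := exists_cycles h h6 hs
  obtain ⟨c, d, hD'⟩ := exists_cycles h h6 ht
  obtain ⟨g, h1, h2, h3, h4⟩ := h.tr _ _ _ _ _ _ _ _ hD hD'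
  have e1 : g⁻¹ • c = a := by rw [inv_smul_eq_iff]; exact h1.symm
  have e2 : g⁻¹ • t • c = s • a := by rw [inv_smul_eq_iff]; exact h2.symm
  have e3 : g⁻¹ • d = b := by rw [inv_smul_eq_iff]; exact h3.symm
  have e4 : g⁻¹ • t • d = s • b := by rw [inv_smul_eq_iff]; exact h4.symm
  have hsq : g * s * g⁻¹ * (g * s * g⁻¹) = 1 := by
    calc g * s * g⁻¹ * (g * s * g⁻¹) = g * (s * s) * g⁻¹ := by group
      _ = 1 := by rw [sq_one hs]; group
  obtain ⟨k, -, -, -, -, hk⟩ := conj_of_eq h hD' (u := g * s * g⁻¹) (w := t) hsq (sq_one ht)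
    (by rw [mul_smul, mul_smul, e2, smul_smul_self hs, h1])
    (by rw [smul_smul_self ht, mul_smul, mul_smul, e1, h2])
    (by rw [mul_smul, mul_smul, e4, smul_smul_self hs, h3])
    (by rw [smul_smul_self ht, mul_smul, mul_smul, e3, h4])
  exact ⟨k * g, by rw [← hk]; group⟩

theorem ncard_conj [Finite α] (g t : G) : (fixedBy α (g * t * g⁻¹)).ncard = (fixedBy α t).ncard := by
  have h1 : fixedBy α (g * t * g⁻¹) = (fun x => g • x) '' fixedBy α t := by
    ext x
    rw [Set.mem_image]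
    constructor
    · intro hx
      rw [mem_fixedBy, mul_smul, mul_smul] at hx
      refine ⟨g⁻¹ • x, ?_, smul_inv_smul g x⟩
      rw [mem_fixedBy, eq_inv_smul_iff]; exact hx
    · rintro ⟨y, hy, rfl⟩
      rw [mem_fixedBy] at hy ⊢
      rw [mul_smul, mul_smul, inv_smul_smul, hy]
  rw [h1, Set.ncard_image_of_injective _ (MulAction.injective g)]

theorem ncard_parity [Finite α] {t : G} (ht : orderOf t = 2) :
    Nat.card α % 2 = (fixedBy α t).ncard % 2 := by
  classical
  haveI := Fintype.ofFinite α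
  haveI : Fact (Nat.Prime 2) := ⟨Nat.prime_two⟩
  haveI : Finite (Subgroup.zpowers t) := Nat.finite_of_card_ne_zero (by rw [Nat.card_zpowers, ht]; norm_num)
  have h1 : IsPGroup 2 (Subgroup.zpowers t) := by
    rw [IsPGroup.iff_card]
    exact ⟨1, by rw [Nat.card_zpowers, ht, pow_one]⟩
  have h2 := h1.card_modEq_card_fixedPoints α
  have h3 : (fixedPoints (Subgroup.zpowers t) α) = fixedBy α t := by
    ext x
    rw [mem_fixedPoints, mem_fixedBy]
    constructor
    · intro hx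
      exact hx ⟨t, Subgroup.mem_zpowers t⟩
    · rintro hx ⟨y, hy⟩
      obtain ⟨k, rfl⟩ := Subgroup.mem_zpowers_iff.1 hy
      have : t ∈ stabilizer G x := hx
      exact Subgroup.zpow_mem _ this k
  rw [h3, Nat.card_coe_set_eq] at h2
  exact h2

theorem ncard_fix (h : Hyp G α) [Finite α] (h6 : 6 ≤ Nat.card α) {t : G} (ht : orderOf t = 2) :
    2 ≤ (fixedBy α t).ncard := by
  obtain ⟨a, -, b, -, c, -, d, -, hD⟩ := exists_D4_of_card (s := (Set.univ : Set α)) (by
    rw [Set.ncard_univ]; omega)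
  obtain ⟨u, hu, h1, h2, -, -⟩ := exists_u h hD
  obtain ⟨g, hg⟩ := conj_inv h h6 hu ht
  rw [← hg, ncard_conj]
  have h3 : ({a, b} : Set α) ⊆ fixedBy α u := by
    intro x hx
    rcases hx with rfl | hx
    · exact h1
    · rw [Set.mem_singleton_iff] at hx; rw [hx]; exact h2
  have h4 := Set.ncard_le_ncard h3 (Set.toFinite _)
  rwa [Set.ncard_pair hD.1] at h4

theorem fix2 (h : Hyp G α) [Finite α] (h6 : 6 ≤ Nat.card α) (he : Nat.card α % 2 = 0) {t : G} (ht : orderOf t = 2) :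
    (fixedBy α t).ncard = 2 := by
  have h1 := ncard_fix h h6 ht
  have h2 := fix_le3 h ht
  have h3 := ncard_parity (α := α) ht
  omega

theorem fix3 (h : Hyp G α) [Finite α] (h6 : 6 ≤ Nat.card α) (he : Nat.card α % 2 = 1) {t : G} (ht : orderOf t = 2) :
    (fixedBy α t).ncard = 3 := by
  have h1 := ncard_fix h h6 ht
  have h2 := fix_le3 h ht
  have h3 := ncard_parity (α := α) ht
  omega

end H15.MH
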