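import Mathlib
import Cfsg.Agent.Lib.H15.MH1
import Cfsg.Agent.Lib.H16.BdFin1

/-!
# M. Hall's theorem (S4221): the case where Bender's theorem applies
-/

set_option autoImplicit false
set_option linter.style.haveILetI false

namespace H15.MH

open MulAction H57.Bd H16.BD

universe u v

section

variable {G : Type u} {α : Type v} [Group G] [MulAction G α]

theorem ker_one [FaithfulSMul G α] (s0 : Set α) (g : fixingSubgroup G s0)
    (hg : g ∈ (MulAction.toPermHom (fixingSubgroup G s0) (SubMulAction.ofFixingSubgroup G s0)).ker) : g = 1 := by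
  apply Subtype.ext
  apply FaithfulSMul.eq_of_smul_eq_smul (α := α)
  intro x
  rw [OneMemClass.coe_one, one_smul]
  by_cases hx : x ∈ s0
  · exact (mem_fixingSubgroup_iff G).1 g.2 x hx
  · have h1 := congrArg (fun e => ((e ⟨x, hx⟩ : SubMulAction.ofFixingSubgroup G s0) : α)) (MonoidHom.mem_ker.1 hg)
    exact h1

theorem card_four' {X : Type u} {Ω : Type v} [Group X] [Finite X] [Finite Ω] [MulAction X Ω] (hB : Bd X Ω)
    (hF : Four X) (c : Ω) (Q : Subgroup X)
    (hQfix : ∀ q ∈ Q, q • c = c)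
    (hQn : ∀ h : X, h • c = c → ∀ q ∈ Q, h * q * h⁻¹ ∈ Q)
    (hQinv : ∀ t : X, orderOf t = 2 → t • c = c → t ∈ Q)
    (hQ2 : ∀ q ∈ Q, ∃ k : ℕ, q ^ 2 ^ k = 1) :
    (∀ j ∈ Q, j * j = 1 → ∀ t ∈ Q, j * t = t * j) ∧
      (∃ i ∈ Q, ∃ j ∈ Q, i ≠ 1 ∧ j ≠ 1 ∧ i ≠ j ∧ i * i = 1 ∧ j * j = 1 ∧ ∃ m : X, m • c = c ∧ m * i * m⁻¹ = j) := by
  haveI : Fact (Nat.Prime 2) := ⟨Nat.prime_two⟩
  -- two distinct involutions of `Q`
  obtain ⟨v, w, hvw, hv, hw, hcomm⟩ := hF
  obtain ⟨a, hva, -⟩ := hB.uniq v hv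
  obtain ⟨g, hg⟩ := hB.trans a c
  have hwa : w • a = a := hB.fix_of_comm (t := v) (g := w) ⟨hv, hva⟩ hcomm
  have hi2 : orderOf (g * v * g⁻¹) = 2 := by rw [order_conj]; exact hv
  have hj2 : orderOf (g * w * g⁻¹) = 2 := by rw [order_conj]; exact hw
  have hga : g⁻¹ • c = a := by rw [inv_smul_eq_iff]; exact hg.symm
  have hic : (g * v * g⁻¹) • c = c := by rw [mul_smul, mul_smul, hga, hva, hg]
  have hjc : (g * w * g⁻¹) • c = c := by rw [mul_smul, mul_smul, hga, hwa, hg]
  have hij : g * v * g⁻¹ ≠ g * w * g⁻¹ := fun e => hvw (mul_left_cancel (mul_right_cancel e))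
  -- all involutions of the stabilizer are conjugate in the stabilizer
  have hconj : ∀ s t : X, orderOf s = 2 → orderOf t = 2 → s • c = c → t • c = c → ∃ m : X, m • c = c ∧ m * s * m⁻¹ = t := by
    intro s t hs ht hsc htc
    obtain ⟨m, hm⟩ := hB.isConj_of_inv hs ht
    refine ⟨m, ?_, hm⟩
    apply hB.fix_eq ht _ htc
    rw [← hm, mul_smul, mul_smul, inv_smul_smul, hsc]
  have hQi := hQinv _ hi2 hic
  have hQj := hQinv _ hj2 hjc
  -- a central involution of `Q`
  have hQP : IsPGroup 2 Q := fun q => by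
    obtain ⟨k, hk⟩ := hQ2 q q.2
    exact ⟨k, Subtype.ext (by rw [Subgroup.coe_pow]; exact hk)⟩
  have hcen : ∃ z : X, z ∈ Q ∧ orderOf z = 2 ∧ ∀ x ∈ Q, z * x = x * z := by
    haveI : Nontrivial Q := by
      refine ⟨⟨⟨_, hQi⟩, 1, ?_⟩⟩
      intro h
      have := congrArg Subtype.val h
      simp only [OneMemClass.coe_one] at this
      rw [this, orderOf_one] at hi2
      omega
    have hcn := hQP.center_nontrivial
    have hcp : IsPGroup 2 (Subgroup.center Q) := hQP.to_subgroup _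
    have hdvd : 2 ∣ Nat.card (Subgroup.center Q) := by
      obtain ⟨k, hk⟩ := IsPGroup.iff_card.mp hcp
      rw [hk]
      apply dvd_pow_self
      rintro rfl
      rw [pow_zero] at hk
      exact absurd hk (by
        have := Finite.one_lt_card (α := Subgroup.center Q)
        omega)
    obtain ⟨z, hz⟩ := exists_prime_orderOf_dvd_card' 2 hdvd
    refine ⟨((z : Q) : X), (z : Q).2, ?_, ?_⟩
    · rw [Subgroup.orderOf_coe, Subgroup.orderOf_coe]; exact hz
    · intro x hx
      have := Subgroup.mem_center_iff.1 z.2 ⟨x, hx⟩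
      exact (congrArg Subtype.val this).symm
  obtain ⟨z, hzQ, hz2, hzc⟩ := hcen
  refine ⟨?_, ?_⟩
  · intro j hj hjj t ht
    by_cases hj1 : j = 1
    · rw [hj1, one_mul, mul_one]
    · have hjo : orderOf j = 2 := orderOf_eq_prime (by rw [pow_two]; exact hjj) hj1
      obtain ⟨m, hmc, hm⟩ := hconj z j hz2 hjo (hQfix z hzQ) (hQfix j hj)
      have hmc' : m⁻¹ • c = c := by rw [inv_smul_eq_iff]; exact hmc.symm
      have h1 := hQn m⁻¹ hmc' t ht
      have h2 := hzc _ h1
      rw [inv_inv] at h2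
      calc j * t = m * (z * (m⁻¹ * t * m)) * m⁻¹ := by rw [← hm]; group
        _ = m * ((m⁻¹ * t * m) * z) * m⁻¹ := by rw [h2]
        _ = t * j := by rw [← hm]; group
  · obtain ⟨m, hmc, hm⟩ := hconj _ _ hi2 hj2 hic hjc
    refine ⟨_, hQi, _, hQj, ?_, ?_, hij, sq_one hi2, sq_one hj2, m, hmc, hm⟩
    · intro h; rw [h, orderOf_one] at hi2; omega
    · intro h; rw [h, orderOf_one] at hj2; omega

/-- the statement of the 2-group lemma -/
def CardFour (G : Type u) [Group G] : Prop :=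
  ∀ (T : Subgroup G) (s : G), s * s = 1 → (∀ t ∈ T, s * t * s⁻¹ ∈ T) → (∀ t ∈ T, ∃ k : ℕ, t ^ 2 ^ k = 1) →
    (∀ t ∈ T, ∀ t' ∈ T, t ≠ 1 → t' ≠ 1 → s * t * s⁻¹ = t → s * t' * s⁻¹ = t' → t = t') →
    (∀ j ∈ T, j * j = 1 → ∀ t ∈ T, j * t = t * j) →
    (∃ i ∈ T, ∃ j ∈ T, i ≠ 1 ∧ j ≠ 1 ∧ i ≠ j ∧ i * i = 1 ∧ j * j = 1) → Nat.card T = 4

theorem bender_case [Finite G] [Finite α] [FaithfulSMul G α] (main : BenderThm.{u, v}) (card4 : CardFour G)
    (s0 : Set α) (ω : α) (hω : ω ∉ s0)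
    (hB : Bd (fixingSubgroup G s0) (SubMulAction.ofFixingSubgroup G s0))
    (hF : Four (fixingSubgroup G s0))
    (hev : ∀ g : G, (∀ x ∈ s0, g • x = x) → g • ω = ω → ∀ y, y ∉ s0 → y ≠ ω → g • y = y → Odd (orderOf g))
    (s : G) (hs : orderOf s = 2) (hsF : ∀ x ∈ insert ω s0, s • x ∈ insert ω s0)
    (x y : α) (hx : x ∉ insert ω s0) (hsx : s • x = x)
    (hxy : ∀ w, w ∉ insert ω s0 → s • w = w → w = x ∨ w = y) :
    Nat.card α = (insert ω s0).ncard + 4 ∧
      ∃ m : G, m ≠ 1 ∧ (∀ w ∈ insert ω s0, m • w = w) ∧ ∃ w, w ∉ insert ω s0 ∧ m • w = w := by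
  haveI : Fact (Nat.Prime 2) := ⟨Nat.prime_two⟩
  set X := fixingSubgroup G s0 with hX
  let Ω := SubMulAction.ofFixingSubgroup G s0
  let c : Ω := ⟨ω, hω⟩
  obtain ⟨Q, -, hQfix, hQn, hQtr, hQreg, hQinv, hQ2'⟩ := (main X Ω hB hF).exists_Q c
  have hQreg' : ∀ x : Ω, x ≠ c → ∀ q ∈ Q, q • x = x → q = 1 := fun x hx q hq h => ker_one s0 q (hQreg x hx q hq h)
  have hQ2 : ∀ q ∈ Q, ∃ k : ℕ, q ^ 2 ^ k = 1 := fun q hq => by
    obtain ⟨k, hk⟩ := hQ2' q hq
    exact ⟨k, ker_one s0 _ hk⟩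
  obtain ⟨hcen, i, hi, j, hj, hi1, hj1, hij, hii, hjj, m, hmc, hm⟩ := card_four' hB hF c Q hQfix hQn hQinv hQ2
  have hx0 : x ∉ s0 := fun h => hx (Set.mem_insert_of_mem _ h)
  have hxω : x ≠ ω := fun h => hx (by rw [h]; exact Set.mem_insert _ _)
  let x0 : Ω := ⟨x, hx0⟩
  have hx0c : x0 ≠ c := fun h => hxω (congrArg Subtype.val h)
  -- two-elements of the stabilizer are in `Q`
  have h2el : ∀ n : X, n • c = c → (∃ k : ℕ, n ^ 2 ^ k = 1) → n ∈ Q := by
    intro n hn ⟨k, hk⟩
    have hnx : n • x0 ≠ c := by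
      intro h
      apply hx0c
      apply MulAction.injective n
      change n • x0 = n • c
      rw [h, hn]
    obtain ⟨q, hq, hqx⟩ := hQtr x0 (n • x0) hx0c hnx
    have hp : ∀ l : ℕ, ∃ q' ∈ Q, (q⁻¹ * n) ^ l = q' * n ^ l := by
      intro l
      induction l with
      | zero => exact ⟨1, Q.one_mem, by simp⟩
      | succ l ih =>
        obtain ⟨q', hq', h'⟩ := ih
        have hnl : n ^ l • c = c := by
          have : n ∈ stabilizer X c := hn
          exact Subgroup.pow_mem _ this l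
        refine ⟨q' * (n ^ l * q⁻¹ * (n ^ l)⁻¹), Q.mul_mem hq' (hQn _ hnl _ (Q.inv_mem hq)), ?_⟩
        rw [pow_succ, h', pow_succ]; group
    obtain ⟨q', hq', h'⟩ := hp (2 ^ k)
    rw [hk, mul_one] at h'
    obtain ⟨k', hk'⟩ := hQ2 q' hq'
    have h3 : (q⁻¹ * n) ^ 2 ^ (k + k') = 1 := by rw [pow_add, pow_mul, h', hk']
    have h4 : (q⁻¹ * n) • x0 = x0 := by rw [mul_smul, ← hqx, inv_smul_smul]
    have h5 : (q⁻¹ * n) • c = c := by rw [mul_smul, hn, inv_smul_eq_iff, hQfix q hq]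
    have h6 : Odd (orderOf ((q⁻¹ * n : X) : G)) := by
      refine hev _ (fun w hw => (mem_fixingSubgroup_iff G).1 (q⁻¹ * n).2 w hw) ?_ x hx0 hxω ?_
      · exact congrArg Subtype.val h5
      · exact congrArg Subtype.val h4
    rw [Subgroup.orderOf_coe] at h6
    have h7 : orderOf (q⁻¹ * n) ∣ 2 ^ (k + k') := orderOf_dvd_of_pow_eq_one h3
    have h8 : orderOf (q⁻¹ * n) = 1 := by
      have hc : Nat.Coprime (orderOf (q⁻¹ * n)) (2 ^ (k + k')) := (Nat.Coprime.pow_right _ (Nat.coprime_two_right.2 h6))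
      exact Nat.Coprime.eq_one_of_dvd hc h7
    rw [orderOf_eq_one_iff] at h8
    have : n = q := by
      have := congrArg (fun e => q * e) h8
      simpa using this
    rw [this]; exact hq
  have hFmem : ∀ (n : X), n • c = c → ∀ w ∈ insert ω s0, (n : G) • w = w := by
    intro n hn w hw
    rcases hw with rfl | hw
    · exact congrArg Subtype.val hn
    · exact (mem_fixingSubgroup_iff G).1 n.2 w hw
  have hout : ∀ (n : X), n • c = c → ∀ w, w ∉ insert ω s0 → (n : G) • w ∉ insert ω s0 := by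
    intro n hn w hw h
    apply hw
    have := hFmem n hn _ h
    have h2 := MulAction.injective (n : G) this
    rw [← h2]; exact h
  let T : Subgroup G := Q.map X.subtype
  have hT : Nat.card T = 4 := by
    apply card4 T s (sq_one hs)
    · rintro _ ⟨q, hq, rfl⟩
      have hss : s⁻¹ = s := inv_eq_of_mul_eq_one_left (sq_one hs)
      have h1 : ∀ w ∈ insert ω s0, (s * (q : G) * s⁻¹) • w = w := by
        intro w hw
        rw [mul_smul, mul_smul, hss, hFmem q (hQfix q hq) _ (hsF w hw), smul_smul_self hs]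
      let n : X := ⟨s * (q : G) * s⁻¹, (mem_fixingSubgroup_iff G).2 fun w hw => h1 w (Set.mem_insert_of_mem _ hw)⟩
      have hn : n • c = c := Subtype.ext (h1 ω (Set.mem_insert _ _))
      obtain ⟨k, hk⟩ := hQ2 q hq
      refine ⟨n, h2el n hn ⟨k, ?_⟩, rfl⟩
      apply Subtype.ext
      have hk2 := congrArg Subtype.val hk
      rw [Subgroup.coe_pow] at hk2 ⊢
      change (s * (q : G) * s⁻¹) ^ 2 ^ k = 1
      rw [conj_pow, hk2]
      simp
    · rintro _ ⟨q, hq, rfl⟩
      obtain ⟨k, hk⟩ := hQ2 q hq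
      refine ⟨k, ?_⟩
      rw [← map_pow, hk, map_one]
    · rintro _ ⟨q, hq, rfl⟩ _ ⟨q', hq', rfl⟩ h1 h1' h2 h2'
      have key : ∀ r ∈ Q, X.subtype r ≠ 1 → s * X.subtype r * s⁻¹ = X.subtype r → (r : G) • x = y := by
        intro r hr hr1 hsr
        have hw := hout r (hQfix r hr) x hx
        have hsw : s • (r : G) • x = (r : G) • x := by
          have h3 : s * (r : G) = (r : G) * s := by
            have h4 : s * (r : G) * s⁻¹ = (r : G) := hsr
            calc s * (r : G) = s * (r : G) * s⁻¹ * s := by group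
              _ = (r : G) * s := by rw [h4]
          rw [← mul_smul, h3, mul_smul, hsx]
        rcases hxy _ hw hsw with h | h
        · exfalso
          apply hr1
          have h5 : r • x0 = x0 := Subtype.ext h
          rw [hQreg' x0 hx0c r hr h5, map_one]
        · exact h
      have e1 := key q hq h1 h2
      have e2 := key q' hq' h1' h2'
      have h3 : (q'⁻¹ * q) • x0 = x0 := by
        rw [mul_smul, inv_smul_eq_iff]
        apply Subtype.ext
        change (q : G) • x = (q' : G) • x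
        rw [e1, e2]
      have h4 := hQreg' x0 hx0c _ (Q.mul_mem (Q.inv_mem hq') hq) h3
      rw [inv_mul_eq_one] at h4
      rw [h4]
    · rintro _ ⟨q, hq, rfl⟩ hqq _ ⟨q', hq', rfl⟩
      have h1 : q * q = 1 := Subtype.ext (by rw [Subgroup.coe_mul]; exact hqq)
      have := hcen q hq h1 q' hq'
      exact congrArg Subtype.val this
    · refine ⟨i, ⟨i, hi, rfl⟩, j, ⟨j, hj, rfl⟩, ?_, ?_, ?_, congrArg Subtype.val hii, congrArg Subtype.val hjj⟩
      · intro h; exact hi1 (Subtype.ext h)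
      · intro h; exact hj1 (Subtype.ext h)
      · intro h; exact hij (Subtype.ext h)
  have hQ4 : Nat.card Q = 4 := by
    rw [← hT]
    exact Nat.card_congr (Q.equivMapOfInjective X.subtype X.subtype_injective).toEquiv
  refine ⟨?_, ?_⟩
  · -- `Q` is regular on the points outside
    have hbij : Function.Bijective (fun q : Q => (⟨((q : X) : G) • x, hout q (hQfix q q.2) x hx⟩ :
        {w : α // w ∉ insert ω s0})) := by
      constructor
      · intro q q' h
        have h1 : ((q : X) : G) • x = ((q' : X) : G) • x := congrArg Subtype.val h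
        have h3 : ((q' : X)⁻¹ * (q : X)) • x0 = x0 := by
          rw [mul_smul, inv_smul_eq_iff]
          apply Subtype.ext
          exact h1
        have h4 := hQreg' x0 hx0c _ (Q.mul_mem (Q.inv_mem q'.2) q.2) h3
        rw [inv_mul_eq_one] at h4
        exact Subtype.ext h4.symm
      · rintro ⟨w, hw⟩
        have hw0 : w ∉ s0 := fun h => hw (Set.mem_insert_of_mem _ h)
        have hwc : (⟨w, hw0⟩ : Ω) ≠ c := fun h => hw (by
          have := congrArg Subtype.val h
          change w = ω at this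
          rw [this]; exact Set.mem_insert _ _)
        obtain ⟨q, hq, hqx⟩ := hQtr x0 ⟨w, hw0⟩ hx0c hwc
        have hval : (q : G) • x = w := congrArg Subtype.val hqx
        exact ⟨⟨q, hq⟩, Subtype.ext hval⟩
    have h1 := Nat.card_congr (Equiv.ofBijective _ hbij)
    rw [hQ4] at h1
    have h2 := Set.ncard_add_ncard_compl (insert ω s0)
    have h3 : ((insert ω s0)ᶜ).ncard = Nat.card {w : α // w ∉ insert ω s0} := by
      rw [← Nat.card_coe_set_eq]; rfl
    omega
  · by_contra hne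
    push Not at hne
    have hmx : m • x0 ≠ c := by
      intro h
      apply hx0c
      apply MulAction.injective m
      change m • x0 = m • c
      rw [h, hmc]
    obtain ⟨q, hq, hqx⟩ := hQtr x0 (m • x0) hx0c hmx
    have h3 : (q⁻¹ * m) • x0 = x0 := by rw [mul_smul, ← hqx, inv_smul_smul]
    have h5 : (q⁻¹ * m) • c = c := by rw [mul_smul, hmc, inv_smul_eq_iff, hQfix q hq]
    have h6 : q⁻¹ * m = 1 := by
      by_contra h7
      have h8 : ((q⁻¹ * m : X) : G) ≠ 1 := fun h => h7 (Subtype.ext h)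
      exact hne _ h8 (hFmem _ h5) x hx (congrArg Subtype.val h3)
    have h7 : m = q := by
      have := congrArg (fun e => q * e) h6
      simpa using this
    apply hij
    rw [← hm, h7, ← hcen i hi hii q hq]
    group

end

end H15.MH
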