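import Mathlib
import Cfsg.Agent.Lib.H15.MH2

/-!
# M. Hall's theorem (S4221): the dichotomy
-/

set_option autoImplicit false
set_option linter.style.haveILetI false

namespace H15.MH

open MulAction H57.Bd H16.BD

universe u v

section

variable {G : Type u} {α : Type v} [Group G] [MulAction G α]

/-- the hypotheses on the set `s0` -/
structure Good (G : Type u) {α : Type v} [Group G] [MulAction G α] (s0 : Set α) : Prop where
  tr : ∀ x y x' y' : α, x ∉ s0 → y ∉ s0 → x ≠ y → x' ∉ s0 → y' ∉ s0 → x' ≠ y' →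
    ∃ g : G, (∀ w ∈ s0, g • w = w) ∧ g • x = x' ∧ g • y = y'
  fx : ∀ t : G, orderOf t = 2 → (∀ w ∈ s0, t • w = w) → ∃ ω, ω ∉ s0 ∧ t • ω = ω ∧ ∀ w, w ∉ s0 → t • w = w → w = ω
  iv : ∃ t : G, orderOf t = 2 ∧ ∀ w ∈ s0, t • w = w
  pt : ∃ x y : α, x ∉ s0 ∧ y ∉ s0 ∧ x ≠ y

theorem Good.two {s0 : Set α} (h : Good G s0) (a b c d : SubMulAction.ofFixingSubgroup G s0) (hab : a ≠ b)
    (hcd : c ≠ d) : ∃ g : fixingSubgroup G s0, g • a = c ∧ g • b = d := by
  obtain ⟨g, hg, h1, h2⟩ := h.tr a b c d a.2 b.2 (fun e => hab (Subtype.ext e)) c.2 d.2 (fun e => hcd (Subtype.ext e))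
  exact ⟨⟨g, (mem_fixingSubgroup_iff G).2 hg⟩, Subtype.ext h1, Subtype.ext h2⟩

theorem Good.bd {s0 : Set α} (h : Good G s0) :
    Bd (fixingSubgroup G s0) (SubMulAction.ofFixingSubgroup G s0) where
  trans := fun a b => by
    obtain ⟨x, y, hx, hy, hxy⟩ := h.pt
    have hex : ∀ a : SubMulAction.ofFixingSubgroup G s0, ∃ c : SubMulAction.ofFixingSubgroup G s0, a ≠ c := by
      intro a
      by_cases hax : (a : α) = x
      · exact ⟨⟨y, hy⟩, fun e => hxy (by rw [← hax, e])⟩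
      · exact ⟨⟨x, hx⟩, fun e => hax (by rw [e])⟩
    obtain ⟨c, hc⟩ := hex a
    obtain ⟨d, hd⟩ := hex b
    obtain ⟨g, hg, -⟩ := h.two a c b d hc hd
    exact ⟨g, hg⟩
  uniq := fun t ht => by
    rw [← Subgroup.orderOf_coe] at ht
    obtain ⟨ω, hω, h1, h2⟩ := h.fx t ht (fun w hw => (mem_fixingSubgroup_iff G).1 t.2 w hw)
    refine ⟨⟨ω, hω⟩, Subtype.ext h1, fun b hb => Subtype.ext (h2 b b.2 (congrArg Subtype.val hb))⟩
  inv := by
    obtain ⟨t, ht, h1⟩ := h.iv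
    exact ⟨⟨t, (mem_fixingSubgroup_iff G).2 h1⟩, by rw [← Subgroup.orderOf_coe]; exact ht⟩
  two := by
    obtain ⟨x, y, hx, hy, hxy⟩ := h.pt
    exact ⟨⟨x, hx⟩, ⟨y, hy⟩, fun e => hxy (congrArg Subtype.val e)⟩

/-- the statement `uniq_inv` -/
def UniqInv : Prop :=
  ∀ {X : Type u} {Ω : Type v} [Group X] [Finite X] [MulAction X Ω] [FaithfulSMul X Ω], Bd X Ω →
    (∀ a b c d : Ω, a ≠ b → c ≠ d → ∃ g : X, g • a = c ∧ g • b = d) → ¬ Four X → ∀ (ω : Ω) (s t : X),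
    orderOf s = 2 → orderOf t = 2 → s • ω = ω → t • ω = ω → s = t

theorem dich [Finite G] [Finite α] [FaithfulSMul G α] (main : BenderThm.{u, v}) (uq : UniqInv.{u, v})
    (card4 : CardFour G)
    (s0 : Set α) (hg : Good G s0) (ω : α) (hω : ω ∉ s0)
    (hev : ∀ g : G, (∀ x ∈ s0, g • x = x) → g • ω = ω → ∀ y, y ∉ s0 → y ≠ ω → g • y = y → Odd (orderOf g))
    (s : G) (hs : orderOf s = 2) (hsF : ∀ x ∈ insert ω s0, s • x ∈ insert ω s0)
    (x y : α) (hx : x ∉ insert ω s0) (hsx : s • x = x)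
    (hxy : ∀ w, w ∉ insert ω s0 → s • w = w → w = x ∨ w = y) :
    (∀ s t : G, orderOf s = 2 → orderOf t = 2 → (∀ w ∈ insert ω s0, s • w = w) → (∀ w ∈ insert ω s0, t • w = w) →
      s = t) ∨
    (Nat.card α = (insert ω s0).ncard + 4 ∧
      ∃ m : G, m ≠ 1 ∧ (∀ w ∈ insert ω s0, m • w = w) ∧ ∃ w, w ∉ insert ω s0 ∧ m • w = w) := by
  by_cases hF : Four (fixingSubgroup G s0)
  · right
    exact bender_case main card4 s0 ω hω hg.bd hF hev s hs hsF x y hx hsx hxy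
  · left
    intro s t hs ht hsw htw
    haveI : FaithfulSMul (fixingSubgroup G s0) (SubMulAction.ofFixingSubgroup G s0) := by
      constructor
      intro g g' h
      have h1 : g'⁻¹ * g = 1 := by
        apply ker_one s0
        rw [MonoidHom.mem_ker]
        ext w
        change ((g'⁻¹ * g) • w : SubMulAction.ofFixingSubgroup G s0).1 = w.1
        rw [mul_smul, h w, inv_smul_smul]
      rw [inv_mul_eq_one] at h1
      exact h1.symm
    let s' : fixingSubgroup G s0 := ⟨s, (mem_fixingSubgroup_iff G).2 fun w hw => hsw w (Set.mem_insert_of_mem _ hw)⟩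
    let t' : fixingSubgroup G s0 := ⟨t, (mem_fixingSubgroup_iff G).2 fun w hw => htw w (Set.mem_insert_of_mem _ hw)⟩
    have := uq hg.bd hg.two hF ⟨ω, hω⟩ s' t' (by rw [← Subgroup.orderOf_coe]; exact hs)
      (by rw [← Subgroup.orderOf_coe]; exact ht) (Subtype.ext (hsw ω (Set.mem_insert _ _)))
      (Subtype.ext (htw ω (Set.mem_insert _ _)))
    exact congrArg Subtype.val this

end

end H15.MH
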