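import Mathlib
import Cfsg.Agent.Lib.H15.MH3

/-!
# M. Hall's theorem (S4221): the two parities
-/

set_option autoImplicit false
set_option linter.style.haveILetI false

namespace H15.MH

open MulAction H57.Bd H16.BD

universe u v

section

variable {G : Type u} {α : Type v} [Group G] [MulAction G α]

theorem fx_of [Finite α] {s0 : Set α} {t : G} (hc : (fixedBy α t).ncard = s0.ncard + 1)
    (hw : ∀ w ∈ s0, t • w = w) : ∃ ω, ω ∉ s0 ∧ t • ω = ω ∧ ∀ w, w ∉ s0 → t • w = w → w = ω := by
  have h1 : s0 ⊆ fixedBy α t := fun w h => hw w h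
  have h2 : (fixedBy α t \ s0).ncard = 1 := by
    have := Set.ncard_sdiff_add_ncard_of_subset h1 (Set.toFinite _)
    omega
  obtain ⟨ω, hω⟩ := Set.ncard_eq_one.1 h2
  have h3 : ω ∈ fixedBy α t \ s0 := by rw [hω]; rfl
  refine ⟨ω, h3.2, h3.1, fun w hw1 hw2 => ?_⟩
  have h4 : w ∈ fixedBy α t \ s0 := ⟨hw2, hw1⟩
  rw [hω] at h4; exact h4

theorem exists_two_out [Finite α] (s0 : Set α) (h : s0.ncard + 2 ≤ Nat.card α) :
    ∃ x y, x ∉ s0 ∧ y ∉ s0 ∧ x ≠ y := by
  have h2 := Set.ncard_add_ncard_compl s0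
  obtain ⟨x, y, hx, hy, hxy⟩ := (Set.one_lt_ncard_iff (s := s0ᶜ) (Set.toFinite _)).1 (by omega)
  exact ⟨x, y, hx, hy, hxy⟩

theorem exists_out [Finite α] (s0 : Set α) (h : s0.ncard + 1 ≤ Nat.card α) : ∃ x, x ∉ s0 := by
  by_contra hc
  push Not at hc
  have : s0 = Set.univ := Set.eq_univ_of_forall hc
  rw [this, Set.ncard_univ] at h
  omega

theorem exists_out3 [Finite α] (h : 4 ≤ Nat.card α) (a b c : α) : ∃ d, d ≠ a ∧ d ≠ b ∧ d ≠ c := by
  obtain ⟨d, hd⟩ := exists_out ({a, b, c} : Set α) (by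
    have := Set.ncard_insert_le a {b, c}
    have h2 := Set.ncard_insert_le b {c}
    have h3 := Set.ncard_singleton c
    omega)
  simp only [Set.mem_insert_iff, Set.mem_singleton_iff, not_or] at hd
  exact ⟨d, hd.1, hd.2.1, hd.2.2⟩

theorem good_odd (h : Hyp G α) [Finite α] (h7 : 7 ≤ Nat.card α) (ho : Nat.card α % 2 = 1) {a b : α}
    (hab : a ≠ b) : Good G ({a, b} : Set α) where
  tr := by
    intro x y x' y' hx hy hxy hx' hy' hxy'
    simp only [Set.mem_insert_iff, Set.mem_singleton_iff, not_or] at hx hy hx' hy'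
    obtain ⟨g, h1, h2, h3, h4⟩ := h.tr a b x y a b x' y' ⟨hab, fun e => hx.1 e.symm, fun e => hy.1 e.symm,
      fun e => hx.2 e.symm, fun e => hy.2 e.symm, hxy⟩ ⟨hab, fun e => hx'.1 e.symm, fun e => hy'.1 e.symm,
      fun e => hx'.2 e.symm, fun e => hy'.2 e.symm, hxy'⟩
    refine ⟨g, ?_, h3, h4⟩
    rintro w (rfl | hw)
    · exact h1
    · rw [Set.mem_singleton_iff] at hw; rw [hw]; exact h2
  fx := fun t ht hw => fx_of (by rw [fix3 h (by omega) ho ht, Set.ncard_pair hab]) hw
  iv := by
    obtain ⟨x, y, hx, hy, hxy⟩ := exists_two_out ({a, b} : Set α) (by rw [Set.ncard_pair hab]; omega)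
    simp only [Set.mem_insert_iff, Set.mem_singleton_iff, not_or] at hx hy
    obtain ⟨u, hu, h1, h2, -, -⟩ := exists_u h (a := a) (b := b) (c := x) (d := y) ⟨hab, fun e => hx.1 e.symm,
      fun e => hy.1 e.symm, fun e => hx.2 e.symm, fun e => hy.2 e.symm, hxy⟩
    refine ⟨u, hu, ?_⟩
    rintro w (rfl | hw)
    · exact h1
    · rw [Set.mem_singleton_iff] at hw; rw [hw]; exact h2
  pt := exists_two_out _ (by rw [Set.ncard_pair hab]; omega)

theorem good_even (h : Hyp G α) [Finite α] (h7 : 7 ≤ Nat.card α) (ho : Nat.card α % 2 = 0) (a : α) :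
    Good G ({a} : Set α) where
  tr := by
    intro x y x' y' hx hy hxy hx' hy' hxy'
    rw [Set.mem_singleton_iff] at hx hy hx' hy'
    obtain ⟨d, hd1, hd2, hd3⟩ := exists_out3 (α := α) (by omega) a x y
    obtain ⟨d', hd1', hd2', hd3'⟩ := exists_out3 (α := α) (by omega) a x' y'
    obtain ⟨g, h1, h2, h3, h4⟩ := h.tr a x y d a x' y' d' ⟨fun e => hx e.symm, fun e => hy e.symm,
      fun e => hd1 e.symm, hxy, fun e => hd2 e.symm, fun e => hd3 e.symm⟩ ⟨fun e => hx' e.symm, fun e => hy' e.symm,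
      fun e => hd1' e.symm, hxy', fun e => hd2' e.symm, fun e => hd3' e.symm⟩
    refine ⟨g, ?_, h2, h3⟩
    intro w hw
    rw [Set.mem_singleton_iff] at hw; rw [hw]; exact h1
  fx := fun t ht hw => fx_of (by rw [fix2 h (by omega) ho ht, Set.ncard_singleton]) hw
  iv := by
    obtain ⟨b, hb⟩ := exists_out ({a} : Set α) (by rw [Set.ncard_singleton]; omega)
    rw [Set.mem_singleton_iff] at hb
    have hab : a ≠ b := fun e => hb e.symm
    obtain ⟨x, y, hx, hy, hxy⟩ := exists_two_out ({a, b} : Set α) (by rw [Set.ncard_pair hab]; omega)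
    simp only [Set.mem_insert_iff, Set.mem_singleton_iff, not_or] at hx hy
    obtain ⟨u, hu, h1, h2, -, -⟩ := exists_u h (a := a) (b := b) (c := x) (d := y) ⟨hab, fun e => hx.1 e.symm,
      fun e => hy.1 e.symm, fun e => hx.2 e.symm, fun e => hy.2 e.symm, hxy⟩
    refine ⟨u, hu, ?_⟩
    intro w hw
    rw [Set.mem_singleton_iff] at hw; rw [hw]; exact h1
  pt := exists_two_out _ (by rw [Set.ncard_singleton]; omega)

theorem odd_dich (h : Hyp G α) [Finite G] [Finite α] [FaithfulSMul G α] (main : BenderThm.{u, v})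
    (uq : UniqInv.{u, v}) (card4 : CardFour G) (h7 : 7 ≤ Nat.card α) (ho : Nat.card α % 2 = 1) {a b c : α}
    (hab : a ≠ b) (hac : a ≠ c) (hbc : b ≠ c) :
    (∀ s t : G, orderOf s = 2 → orderOf t = 2 → s • a = a → s • b = b → s • c = c → t • a = a → t • b = b →
      t • c = c → s = t) ∨
    (Nat.card α = 7 ∧ ∃ m : G, m ≠ 1 ∧ m • a = a ∧ m • b = b ∧ m • c = c ∧ ∃ w, w ≠ a ∧ w ≠ b ∧ w ≠ c ∧ m • w = w) := by
  obtain ⟨d, hd1, hd2, hd3⟩ := exists_out3 (α := α) (by omega) a b c
  obtain ⟨s, hs, hsc, hsd, hsa, hsb⟩ := exists_u h (a := c) (b := d) (c := a) (d := b) ⟨fun e => hd3 e.symm,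
    fun e => hac e.symm, fun e => hbc e.symm, hd1, hd2, hab⟩
  have hcd : c ≠ d := fun e => hd3 e.symm
  obtain ⟨e, he, hse, hew⟩ := fx_of (s0 := ({c, d} : Set α)) (t := s)
    (by rw [fix3 h (by omega) ho hs, Set.ncard_pair hcd]) (by
      rintro w (rfl | hw)
      · exact hsc
      · rw [Set.mem_singleton_iff] at hw; rw [hw]; exact hsd)
  have hcab : c ∉ ({a, b} : Set α) := by
    simp only [Set.mem_insert_iff, Set.mem_singleton_iff, not_or]
    exact ⟨fun e => hac e.symm, fun e => hbc e.symm⟩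
  have hdab : d ∉ insert c ({a, b} : Set α) := by
    simp only [Set.mem_insert_iff, Set.mem_singleton_iff, not_or]
    exact ⟨hd3, hd1, hd2⟩
  rcases dich main uq card4 ({a, b} : Set α) (good_odd h h7 ho hab) c hcab (by
      intro g hg hgc y hy hyc hgy
      simp only [Set.mem_insert_iff, Set.mem_singleton_iff, not_or] at hy
      exact h.od a b c y ⟨hab, hac, fun e => hy.1 e.symm, hbc, fun e => hy.2 e.symm, fun e => hyc e.symm⟩ g
        (hg a (by simp)) (hg b (by simp)) hgc hgy) s hs (by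
      intro x hx
      simp only [Set.mem_insert_iff, Set.mem_singleton_iff] at hx ⊢
      rcases hx with rfl | rfl | rfl
      · left; exact hsc
      · right; right; exact hsa
      · right; left; exact hsb) d e hdab hsd (by
      intro w hw hsw
      by_cases hwd : w = d
      · left; exact hwd
      · right
        apply hew w _ hsw
        simp only [Set.mem_insert_iff, Set.mem_singleton_iff, not_or] at hw ⊢
        exact ⟨hw.1, hwd⟩) with h1 | ⟨h1, m, hm1, hm2, w, hw, hmw⟩
  · left
    intro s t hs ht e1 e2 e3 e4 e5 e6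
    apply h1 s t hs ht
    · intro w hw
      simp only [Set.mem_insert_iff, Set.mem_singleton_iff] at hw
      rcases hw with rfl | rfl | rfl <;> assumption
    · intro w hw
      simp only [Set.mem_insert_iff, Set.mem_singleton_iff] at hw
      rcases hw with rfl | rfl | rfl <;> assumption
  · right
    have h3 : (insert c ({a, b} : Set α)).ncard = 3 := by
      rw [Set.ncard_insert_of_notMem hcab, Set.ncard_pair hab]
    simp only [Set.mem_insert_iff, Set.mem_singleton_iff, not_or] at hw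
    exact ⟨by omega, m, hm1, hm2 a (by simp), hm2 b (by simp), hm2 c (by simp), w, hw.2.1, hw.2.2, hw.1, hmw⟩

theorem even_false (h : Hyp G α) [Finite G] [Finite α] [FaithfulSMul G α] (main : BenderThm.{u, v})
    (uq : UniqInv.{u, v}) (card4 : CardFour G) (h7 : 7 ≤ Nat.card α) (ho : Nat.card α % 2 = 0) : False := by
  obtain ⟨a, -, b, -, c, -, d, -, hab, hac, had, hbc, hbd, hcd⟩ := exists_D4_of_card (s := (Set.univ : Set α)) (by
    rw [Set.ncard_univ]; omega)
  obtain ⟨s, hs, hsc, hsd, hsa, hsb⟩ := exists_u h (a := c) (b := d) (c := a) (d := b) ⟨hcd,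
    fun e => hac e.symm, fun e => hbc e.symm, fun e => had e.symm, fun e => hbd e.symm, hab⟩
  obtain ⟨e, he, hse, hew⟩ := fx_of (s0 := ({c} : Set α)) (t := s)
    (by rw [fix2 h (by omega) ho hs, Set.ncard_singleton]) (by
      intro w hw
      rw [Set.mem_singleton_iff] at hw; rw [hw]; exact hsc)
  have hde : d = e := hew d (by rw [Set.mem_singleton_iff]; exact fun e => hcd e.symm) hsd
  have hba : b ∉ ({a} : Set α) := by
    rw [Set.mem_singleton_iff]; exact fun e => hab e.symm
  have hcab : c ∉ insert b ({a} : Set α) := by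
    simp only [Set.mem_insert_iff, Set.mem_singleton_iff, not_or]
    exact ⟨fun e => hbc e.symm, fun e => hac e.symm⟩
  rcases dich main uq card4 ({a} : Set α) (good_even h h7 ho a) b hba (by
      intro g hg hgb y hy hyb hgy
      rw [Set.mem_singleton_iff] at hy
      by_contra hodd
      rw [Nat.not_odd_iff_even, even_iff_two_dvd] at hodd
      obtain ⟨k, hk⟩ := hodd
      have hpos := orderOf_pos g
      have h1 : orderOf (g ^ k) = 2 := by
        rw [orderOf_pow' g (by rintro rfl; omega), hk, Nat.gcd_eq_right (Dvd.intro_left 2 rfl)]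
        exact Nat.mul_div_cancel _ (by omega)
      have h2 : ∀ w : α, g • w = w → g ^ k • w = w := by
        intro w hw
        have : g ∈ stabilizer G w := hw
        exact Subgroup.pow_mem _ this k
      have h3 : ({a, b, y} : Set α) ⊆ fixedBy α (g ^ k) := by
        intro w hw
        simp only [Set.mem_insert_iff, Set.mem_singleton_iff] at hw
        rcases hw with rfl | rfl | rfl
        · exact h2 _ (hg _ rfl)
        · exact h2 _ hgb
        · exact h2 _ hgy
      have h4 := Set.ncard_le_ncard h3 (Set.toFinite _)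
      rw [fix2 h (by omega) ho h1, Set.ncard_eq_three.2 ⟨a, b, y, hab, fun e => hy e.symm, fun e => hyb e.symm, rfl⟩] at h4
      omega) s hs (by
      intro x hx
      simp only [Set.mem_insert_iff, Set.mem_singleton_iff] at hx ⊢
      rcases hx with rfl | rfl
      · right; exact hsb
      · left; exact hsa) c d hcab hsc (by
      intro w hw hsw
      by_cases hwc : w = c
      · left; exact hwc
      · right
        rw [hde]
        exact hew w (by rw [Set.mem_singleton_iff]; exact hwc) hsw) with h1 | ⟨h1, -⟩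
  · obtain ⟨u, hu, h2, h3, h4, h5⟩ := exists_u h (a := a) (b := b) (c := c) (d := d) ⟨hab, hac, had, hbc, hbd, hcd⟩
    obtain ⟨f, hf⟩ := exists_out ({a, b, c, d} : Set α) (by
      have e1 := Set.ncard_insert_le a {b, c, d}
      have e2 := Set.ncard_insert_le b {c, d}
      have e3 := Set.ncard_insert_le c {d}
      have e4 := Set.ncard_singleton d
      omega)
    simp only [Set.mem_insert_iff, Set.mem_singleton_iff, not_or] at hf
    obtain ⟨u', hu', h2', h3', h4', h5'⟩ := exists_u h (a := a) (b := b) (c := c) (d := f) ⟨hab, hac,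
      fun e => hf.1 e.symm, hbc, fun e => hf.2.1 e.symm, fun e => hf.2.2.1 e.symm⟩
    have h6 := h1 u u' hu hu' (by
      intro w hw
      simp only [Set.mem_insert_iff, Set.mem_singleton_iff] at hw
      rcases hw with rfl | rfl <;> assumption) (by
      intro w hw
      simp only [Set.mem_insert_iff, Set.mem_singleton_iff] at hw
      rcases hw with rfl | rfl <;> assumption)
    rw [h6, h4'] at h4
    exact hf.2.2.2 h4
  · rw [Set.ncard_insert_of_notMem hba, Set.ncard_singleton] at h1
    omega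

/-- `Hyp3` -/
theorem hyp3_of (h : Hyp G α) [Finite G] [Finite α] [FaithfulSMul G α] (main : BenderThm.{u, v})
    (uq : UniqInv.{u, v}) (card4 : CardFour G) (h7 : 7 ≤ Nat.card α) (ho : Nat.card α % 2 = 1) :
    Hyp3 G α ∨ (Nat.card α = 7 ∧ ∃ a b c d : α, D4 a b c d ∧ ∃ m : G, m ≠ 1 ∧ m • a = a ∧ m • b = b ∧
      m • c = c ∧ m • d = d) := by
  by_cases hc : Nat.card α = 7 ∧ ∃ a b c d : α, D4 a b c d ∧ ∃ m : G, m ≠ 1 ∧ m • a = a ∧ m • b = b ∧
      m • c = c ∧ m • d = d
  · right; exact hc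
  · left
    refine { toHyp := h, fx := ?_, un := ?_ }
    · intro t ht
      obtain ⟨p, q, r, hpq, hpr, hqr, he⟩ := Set.ncard_eq_three.1 (fix3 h (by omega) ho ht)
      refine ⟨p, q, r, hpq, hpr, hqr, fun x => ?_⟩
      have : x ∈ fixedBy α t ↔ x ∈ ({p, q, r} : Set α) := by rw [he]
      simpa only [mem_fixedBy, Set.mem_insert_iff, Set.mem_singleton_iff] using this
    · intro a b c hab hac hbc s t hs ht e1 e2 e3 e4 e5 e6
      rcases odd_dich h main uq card4 h7 ho hab hac hbc with h1 | ⟨h1, m, hm, ha, hb, hc', w, hwa, hwb, hwc, hmw⟩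
      · exact h1 s t hs ht e1 e2 e3 e4 e5 e6
      · exfalso
        exact hc ⟨h1, a, b, c, w, ⟨hab, hac, fun e => hwa e.symm, hbc, fun e => hwb e.symm, fun e => hwc e.symm⟩,
          m, hm, ha, hb, hc', hmw⟩

end

end H15.MH
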