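import Mathlib
import Cfsg.Agent.Lib.H15.MH4
import Cfsg.Agent.Lib.H6.MHX3
import Cfsg.Agent.Lib.H25.MHX4
import Cfsg.Agent.Lib.H71.MHX5
import Cfsg.Agent.Lib.H41.MHX6
import Cfsg.Agent.Lib.H71.MHX7
import Cfsg.Agent.Lib.H77.CardFour

/-!
# M. Hall's theorem (S4221): final steps
-/

set_option autoImplicit false
set_option linter.style.haveILetI false

namespace H15.MH

open MulAction H57.Bd H16.BD

universe u

variable {α : Type u} [Fintype α] [DecidableEq α]

theorem D4_emb (x : Fin 4 ↪ α) : D4 (x 0) (x 1) (x 2) (x 3) := by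
  refine ⟨?_, ?_, ?_, ?_, ?_, ?_⟩ <;> exact fun h => absurd (x.injective h) (by decide)

/-- the embedding of four points -/
def emb4 {a b c d : α} (h : D4 a b c d) : Fin 4 ↪ α where
  toFun := ![a, b, c, d]
  inj' := by
    obtain ⟨h1, h2, h3, h4, h5, h6⟩ := h
    intro i j hij
    fin_cases i <;> fin_cases j <;> simp_all

theorem all_odd (G : Subgroup (Equiv.Perm α)) (hG : MulAction.IsMultiplyPretransitive G α 4) (x : Fin 4 ↪ α)
    (hodd : Odd (Nat.card (MulAction.stabilizer G x))) (y : Fin 4 ↪ α) :
    Odd (Nat.card (MulAction.stabilizer G y)) := by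
  have h1 : Nat.card (MulAction.stabilizer G y) = Nat.card (MulAction.stabilizer G x) := by
    have e1 := H71.MHX7.card_eq G hG x
    have e2 := H71.MHX7.card_eq G hG y
    rw [e1] at e2
    exact (Nat.eq_of_mul_eq_mul_left (Nat.factorial_pos _) e2).symm
  rw [h1]; exact hodd

theorem hyp_of (G : Subgroup (Equiv.Perm α)) (hG : MulAction.IsMultiplyPretransitive G α 4)
    (hall : ∀ y : Fin 4 ↪ α, Odd (Nat.card (MulAction.stabilizer G y))) : Hyp G α where
  tr := by
    intro a b c d a' b' c' d' hD hD'
    haveI : MulAction.IsPretransitive G (Fin 4 ↪ α) := hG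
    obtain ⟨g, hg⟩ := MulAction.exists_smul_eq G (emb4 hD) (emb4 hD')
    have hgi : ∀ i, g • (emb4 hD i) = emb4 hD' i := fun i => congrArg (fun z : Fin 4 ↪ α => z i) hg
    exact ⟨g, hgi 0, hgi 1, hgi 2, hgi 3⟩
  od := by
    intro a b c d hD g ha hb hc hd
    have hgy : g ∈ MulAction.stabilizer G (emb4 hD) := by
      rw [MulAction.mem_stabilizer_iff]
      ext i
      fin_cases i
      · exact ha
      · exact hb
      · exact hc
      · exact hd
    have h1 : orderOf (⟨g, hgy⟩ : MulAction.stabilizer G (emb4 hD)) ∣ Nat.card (MulAction.stabilizer G (emb4 hD)) :=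
      orderOf_dvd_natCard _
    rw [← Subgroup.orderOf_coe] at h1
    exact Odd.of_dvd_nat (hall _) h1

theorem final (G : Subgroup (Equiv.Perm α)) (hG : MulAction.IsMultiplyPretransitive G α 4) (x : Fin 4 ↪ α)
    (hall : ∀ y : Fin 4 ↪ α, Odd (Nat.card (MulAction.stabilizer G y))) (h7 : 7 ≤ Fintype.card α)
    (h : Hyp G α) (main : BenderThm.{u, u}) (uq : UniqInv.{u, u}) :
    ((Fintype.card α = 6 ∨ Fintype.card α = 7) ∧ G = alternatingGroup α) ∨
      (Fintype.card α = 11 ∧ Nat.card G = 7920) := by
  have hc : Nat.card α = Fintype.card α := Nat.card_eq_fintype_card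
  have card4 : CardFour G := fun T s h1 h2 h3 h4 h5 h6 => H77.CardFour.card_four T s h1 h2 h3 h4 h5 h6
  rcases Nat.mod_two_eq_zero_or_one (Nat.card α) with ho | ho
  · exact (even_false h main uq card4 (by omega) ho).elim
  · rcases hyp3_of h main uq card4 (by omega) ho with h3 | ⟨hn, a, b, c, d, hD, m, hm, ha, hb, hc', hd⟩
    · right
      have hu := H6.MHX3.unique_u h3
      have hw := H25.MHX4.unique_x h hu
      have h11 := H71.MHX5.card_eleven h3 hu hw (by omega)
      refine ⟨by omega, H71.MHX7.final11 G hG (fun y => ?_) (by omega)⟩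
      rw [Nat.card_eq_one_iff_unique]
      refine ⟨⟨?_⟩, ⟨1⟩⟩
      have key : ∀ g : stabilizer G y, g = 1 := by
        intro g
        apply Subtype.ext
        have hg := mem_stabilizer_iff.1 g.2
        have hgi : ∀ i, (g : G) • (y i) = y i := fun i => congrArg (fun z : Fin 4 ↪ α => z i) hg
        exact H41.MHX6.triv h3 hu h11 (D4_emb y) (g : G) (hgi 0) (hgi 1) (hgi 2) (hgi 3)
      intro g g'
      rw [key g, key g']
    · left
      have h7' : Fintype.card α = 7 := by omega
      refine ⟨Or.inr h7', ?_⟩
      set y := emb4 hD with hy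
      have hmy : m ∈ stabilizer G y := by
        rw [mem_stabilizer_iff]
        ext i
        fin_cases i
        · exact ha
        · exact hb
        · exact hc'
        · exact hd
      have hne : Nat.card (stabilizer G y) ≠ 1 := by
        intro h1
        rw [Nat.card_eq_one_iff_unique] at h1
        haveI := h1.1
        apply hm
        exact congrArg Subtype.val (Subsingleton.elim (⟨m, hmy⟩ : stabilizer G y) 1)
      apply H71.MHX7.final7 G hG h7' y (hall y)
      have h1 := H71.MHX7.card_eq G hG y
      rw [h7'] at h1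
      have h2 : (7 - 4).factorial = 6 := by decide
      have h4 : (7).factorial = 5040 := by decide
      rw [h2, h4] at h1
      have h5 : Nat.card G = 840 * Nat.card (stabilizer G y) := by omega
      have h6 := Subgroup.card_mul_index G
      rw [Nat.card_perm, Nat.card_eq_fintype_card (α := α), h7', h4, h5] at h6
      have h8 : Nat.card (stabilizer G y) ∣ 6 := by
        refine ⟨G.index, ?_⟩
        have : 840 * 6 = 840 * (Nat.card (stabilizer G y) * G.index) := by rw [← mul_assoc, h6]
        exact Nat.eq_of_mul_eq_mul_left (by norm_num) this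
      have h9 := hall y
      have h10 := Nat.le_of_dvd (by norm_num) h8
      generalize Nat.card (stabilizer G y) = k at *
      interval_cases k
      · simp at h8
      · exact absurd rfl hne
      · exact absurd h9 (by decide)
      · exact dvd_rfl
      · exact absurd h9 (by decide)
      · exact absurd h8 (by decide)
      · exact absurd h9 (by decide)

end H15.MH
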