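import Mathlib

set_option autoImplicit false

/-! Kernel-friendly computation with `2 × 2` matrices over `ZMod p`, coded as natural numbers,
and regularity of explicit linear groups on the non-zero vectors of the plane. -/

namespace H15.Mat2

def enc (p a b c d : ℕ) : ℕ := ((a * p + b) * p + c) * p + d
def dd (p x : ℕ) : ℕ := x % p
def cc (p x : ℕ) : ℕ := x / p % p
def bb (p x : ℕ) : ℕ := x / p / p % p
def aa (p x : ℕ) : ℕ := x / p / p / p

def cmul (p x y : ℕ) : ℕ :=
  enc p ((aa p x * aa p y + bb p x * cc p y) % p) ((aa p x * bb p y + bb p x * dd p y) % p)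
    ((cc p x * aa p y + dd p x * cc p y) % p) ((cc p x * bb p y + dd p x * dd p y) % p)

/-- words in the generators -/
def build (p : ℕ) (gens : List ℕ) : List (ℕ × ℕ) → List ℕ
  | [] => [enc p 1 0 0 1]
  | (k, s) :: t =>
    if gens.elem k && (build p gens t).elem s then cmul p k s :: build p gens t
    else build p gens t

def closedB (p : ℕ) (gens L : List ℕ) : Bool :=
  gens.all fun g => L.all fun s => L.elem (cmul p g s)

/-- a code of a matrix `g` with `det (g - c) ≠ 0` where `c` is a scalar, `c < p` -/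
def detB (p c x : ℕ) : Bool :=
  !(((aa p x + p - c) * (dd p x + p - c) + (p * p - bb p x * cc p x)) % p == 0)

section

variable {p : ℕ}

theorem enc_lt {a b c d : ℕ} (ha : a < p) (hb : b < p) (hc : c < p) (hd : d < p) :
    dd p (enc p a b c d) = d ∧ cc p (enc p a b c d) = c ∧ bb p (enc p a b c d) = b ∧
      aa p (enc p a b c d) = a := by
  have hp : 0 < p := by omega
  have e1 : enc p a b c d % p = d := by
    unfold enc
    rw [Nat.mul_add_mod_of_lt hd]
  have e2 : enc p a b c d / p = (a * p + b) * p + c := by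
    unfold enc
    rw [Nat.add_comm, Nat.add_mul_div_right _ _ hp, Nat.div_eq_of_lt hd, zero_add]
  have e3 : ((a * p + b) * p + c) / p = a * p + b := by
    rw [Nat.add_comm, Nat.add_mul_div_right _ _ hp, Nat.div_eq_of_lt hc, zero_add]
  have e4 : (a * p + b) / p = a := by
    rw [Nat.add_comm, Nat.add_mul_div_right _ _ hp, Nat.div_eq_of_lt hb, zero_add]
  refine ⟨e1, ?_, ?_, ?_⟩
  · unfold cc
    rw [e2, Nat.mul_add_mod_of_lt hc]
  · unfold bb
    rw [e2, e3, Nat.mul_add_mod_of_lt hb]
  · unfold aa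
    rw [e2, e3, e4]

variable [hp : Fact p.Prime]

/-- the code of a matrix -/
def code (M : Matrix (Fin 2) (Fin 2) (ZMod p)) : ℕ :=
  enc p (M 0 0).val (M 0 1).val (M 1 0).val (M 1 1).val

instance : NeZero p := ⟨hp.out.ne_zero⟩

theorem code_parts (M : Matrix (Fin 2) (Fin 2) (ZMod p)) :
    dd p (code M) = (M 1 1).val ∧ cc p (code M) = (M 1 0).val ∧ bb p (code M) = (M 0 1).val ∧
      aa p (code M) = (M 0 0).val :=
  enc_lt (ZMod.val_lt _) (ZMod.val_lt _) (ZMod.val_lt _) (ZMod.val_lt _)

theorem code_injective : Function.Injective (code : Matrix (Fin 2) (Fin 2) (ZMod p) → ℕ) := by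
  intro M N h
  obtain ⟨h1, h2, h3, h4⟩ := code_parts M
  obtain ⟨h1', h2', h3', h4'⟩ := code_parts N
  rw [h] at h1 h2 h3 h4
  ext i j
  fin_cases i <;> fin_cases j
  · exact ZMod.val_injective p (h4.symm.trans h4')
  · exact ZMod.val_injective p (h3.symm.trans h3')
  · exact ZMod.val_injective p (h2.symm.trans h2')
  · exact ZMod.val_injective p (h1.symm.trans h1')

theorem code_one : code (1 : Matrix (Fin 2) (Fin 2) (ZMod p)) = enc p 1 0 0 1 := by
  have : Fact (1 < p) := ⟨hp.out.one_lt⟩
  unfold code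
  simp [ZMod.val_one]

theorem code_mul (M N : Matrix (Fin 2) (Fin 2) (ZMod p)) :
    code (M * N) = cmul p (code M) (code N) := by
  obtain ⟨h1, h2, h3, h4⟩ := code_parts M
  obtain ⟨h1', h2', h3', h4'⟩ := code_parts N
  unfold cmul
  rw [h1, h2, h3, h4, h1', h2', h3', h4']
  have key : ∀ a b c d : ZMod p, (a * b + c * d).val = (a.val * b.val + c.val * d.val) % p := by
    intro a b c d
    rw [ZMod.val_add, ZMod.val_mul, ZMod.val_mul, ← Nat.add_mod]
  unfold code
  simp only [Matrix.mul_apply, Fin.sum_univ_two, key]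

variable {gensG : Set (Matrix.GeneralLinearGroup (Fin 2) (ZMod p))} {gens : List ℕ}

abbrev GL2 (p : ℕ) [Fact p.Prime] := Matrix.GeneralLinearGroup (Fin 2) (ZMod p)

def gcode (g : GL2 p) : ℕ := code (g : Matrix (Fin 2) (Fin 2) (ZMod p))

theorem gcode_injective : Function.Injective (gcode : GL2 p → ℕ) := by
  intro g h e
  exact Units.ext (code_injective e)

theorem gcode_mul (g h : GL2 p) : gcode (g * h) = cmul p (gcode g) (gcode h) := by
  unfold gcode
  rw [Units.val_mul, code_mul]

theorem gcode_one : gcode (1 : GL2 p) = enc p 1 0 0 1 := code_one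

theorem one_mem_build (data : List (ℕ × ℕ)) : enc p 1 0 0 1 ∈ build p gens data := by
  induction data with
  | nil => simp [build]
  | cons a t ih =>
    obtain ⟨k, s⟩ := a
    rw [build]
    split_ifs
    · exact List.mem_cons_of_mem _ ih
    · exact ih

theorem build_sound (hg' : ∀ k ∈ gens, ∃ g ∈ gensG, gcode g = k) (data : List (ℕ × ℕ)) :
    ∀ x ∈ build p gens data, ∃ g ∈ Subgroup.closure gensG, gcode g = x := by
  induction data with
  | nil =>
    intro x hx
    simp only [build, List.mem_singleton] at hx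
    exact ⟨1, Subgroup.one_mem _, by rw [gcode_one, hx]⟩
  | cons a t ih =>
    obtain ⟨k, s⟩ := a
    intro x hx
    rw [build] at hx
    split_ifs at hx with h
    · rw [Bool.and_eq_true, List.elem_eq_mem, List.elem_eq_mem, decide_eq_true_eq,
        decide_eq_true_eq] at h
      rcases List.mem_cons.1 hx with rfl | hx
      · obtain ⟨g, hg, hgk⟩ := hg' k h.1
        obtain ⟨g', hg', hgs⟩ := ih s h.2
        exact ⟨g * g', Subgroup.mul_mem _ (Subgroup.subset_closure hg) hg', by
          rw [gcode_mul, hgk, hgs]⟩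
      · exact ih x hx
    · exact ih x hx

theorem mem_closure_iff (hg : ∀ g ∈ gensG, gcode g ∈ gens)
    (hg' : ∀ k ∈ gens, ∃ g ∈ gensG, gcode g = k) (data : List (ℕ × ℕ)) (L : List ℕ)
    (hL : build p gens data = L) (hcl : closedB p gens L = true) (g : GL2 p) :
    g ∈ Subgroup.closure gensG ↔ gcode g ∈ L := by
  classical
  subst hL
  constructor
  · intro h
    rw [closedB, List.all_eq_true] at hcl
    have hmul : ∀ g ∈ gensG, ∀ s : GL2 p, gcode s ∈ build p gens data →
        gcode (g * s) ∈ build p gens data := by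
      intro g hgg s hs
      have h1 := hcl _ (hg g hgg)
      rw [List.all_eq_true] at h1
      have h2 := h1 _ hs
      rw [List.elem_eq_mem, decide_eq_true_eq] at h2
      rwa [gcode_mul]
    have hfin : {s : GL2 p | gcode s ∈ build p gens data}.Finite := Set.toFinite _
    induction h using Subgroup.closure_induction_left with
    | one => rw [gcode_one]; exact one_mem_build data
    | mul_left x hx y _ ih => exact hmul x hx y ih
    | inv_mul_cancel x hx y _ ih =>
      have h1 : Set.MapsTo (fun s => x * s) {s : GL2 p | gcode s ∈ build p gens data}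
        {s : GL2 p | gcode s ∈ build p gens data} := fun s hs => hmul x hx s hs
      have h2 : Set.InjOn (fun s => x * s) {s : GL2 p | gcode s ∈ build p gens data} :=
        fun a _ b _ hab => mul_left_cancel hab
      have h3 := ((hfin.injOn_iff_bijOn_of_mapsTo h1).1 h2).surjOn
      obtain ⟨s, hs, hxs⟩ := h3 (show y ∈ {s : GL2 p | gcode s ∈ build p gens data} from ih)
      have : x⁻¹ * y = s := by rw [← hxs]; simp
      rw [this]; exact hs
  · intro h
    obtain ⟨g', hg'', he⟩ := build_sound hg' data _ h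
    rwa [← gcode_injective he]

theorem card_closure (hg : ∀ g ∈ gensG, gcode g ∈ gens)
    (hg' : ∀ k ∈ gens, ∃ g ∈ gensG, gcode g = k) (data : List (ℕ × ℕ)) (L : List ℕ)
    (hL : build p gens data = L) (hcl : closedB p gens L = true) (hnd : L.Nodup) :
    Nat.card (Subgroup.closure gensG) = L.length := by
  classical
  have hm := mem_closure_iff hg hg' data L hL hcl
  have h1 : Nat.card (Subgroup.closure gensG) = Nat.card {x // x ∈ L.toFinset} := by
    apply Nat.card_congr
    refine Equiv.ofBijective (fun g => ⟨gcode g.1, by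
      rw [List.mem_toFinset]; exact (hm _).1 g.2⟩) ⟨?_, ?_⟩
    · intro a b hab
      exact Subtype.ext (gcode_injective (congrArg Subtype.val hab))
    · rintro ⟨x, hx⟩
      rw [List.mem_toFinset] at hx
      rw [← hL] at hx
      obtain ⟨g, hg1, hg2⟩ := build_sound hg' data x hx
      exact ⟨⟨g, hg1⟩, Subtype.ext hg2⟩
  rw [h1, Nat.card_eq_fintype_card, Fintype.card_coe, List.toFinset_card_of_nodup hnd]

/-- the determinant test -/
theorem det_ne {c : ℕ} (hc : c ≤ p) (g : GL2 p) (h : detB p c (gcode g) = true)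
    (v : Fin 2 → ZMod p) (hv : Matrix.mulVec (g : Matrix (Fin 2) (Fin 2) (ZMod p)) v =
      (c : ZMod p) • v) : v = 0 := by
  obtain ⟨h1, h2, h3, h4⟩ := code_parts (g : Matrix (Fin 2) (Fin 2) (ZMod p))
  set M : Matrix (Fin 2) (Fin 2) (ZMod p) := (g : Matrix (Fin 2) (Fin 2) (ZMod p)) with hM
  have hdet : (M 0 0 - c) * (M 1 1 - c) - M 0 1 * M 1 0 ≠ 0 := by
    intro h0
    unfold detB at h
    rw [gcode, ← hM, h1, h2, h3, h4] at h
    have hlt : (M 0 1).val * (M 1 0).val ≤ p * p :=
      Nat.mul_le_mul (ZMod.val_lt _).le (ZMod.val_lt _).le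
    have h5 : ((((M 0 0).val + p - c) * ((M 1 1).val + p - c) +
        (p * p - (M 0 1).val * (M 1 0).val) : ℕ) : ZMod p) = 0 := by
      rw [Nat.cast_add, Nat.cast_mul, Nat.cast_sub (by omega), Nat.cast_sub (by omega),
        Nat.cast_sub hlt]
      push_cast
      simp only [ZMod.natCast_self, ZMod.natCast_val, ZMod.cast_id', id_eq]
      linear_combination h0
    rw [ZMod.natCast_eq_zero_iff] at h5
    have h6 := Nat.mod_eq_zero_of_dvd h5
    rw [h6] at h
    simp at h
  have e0 : M 0 0 * v 0 + M 0 1 * v 1 = c * v 0 := by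
    have := congrFun hv 0
    simpa [Matrix.mulVec, dotProduct, Fin.sum_univ_two] using this
  have e1 : M 1 0 * v 0 + M 1 1 * v 1 = c * v 1 := by
    have := congrFun hv 1
    simpa [Matrix.mulVec, dotProduct, Fin.sum_univ_two] using this
  have f0 : ((M 0 0 - c) * (M 1 1 - c) - M 0 1 * M 1 0) * v 0 = 0 := by
    linear_combination (M 1 1 - c) * e0 - M 0 1 * e1
  have f1 : ((M 0 0 - c) * (M 1 1 - c) - M 0 1 * M 1 0) * v 1 = 0 := by
    linear_combination (M 0 0 - c) * e1 - M 1 0 * e0
  ext i
  fin_cases i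
  · exact (mul_eq_zero.1 f0).resolve_left hdet
  · exact (mul_eq_zero.1 f1).resolve_left hdet

/-- a free linear group of order `p ^ 2 - 1` is regular on the non-zero vectors -/
theorem regular_of_card (H : Subgroup (GL2 p)) (hcard : Nat.card H = p ^ 2 - 1)
    (hfree : ∀ h ∈ H, h ≠ 1 → ∀ v : Fin 2 → ZMod p,
      Matrix.mulVec (h : Matrix (Fin 2) (Fin 2) (ZMod p)) v = v → v = 0)
    (v w : Fin 2 → ZMod p) (hv : v ≠ 0) (hw : w ≠ 0) :
    ∃! h : H, Matrix.mulVec ((h : GL2 p) : Matrix (Fin 2) (Fin 2) (ZMod p)) v = w := by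
  classical
  have hmul : ∀ (g h : GL2 p) (u : Fin 2 → ZMod p),
      Matrix.mulVec ((g * h : GL2 p) : Matrix (Fin 2) (Fin 2) (ZMod p)) u =
      Matrix.mulVec (g : Matrix (Fin 2) (Fin 2) (ZMod p))
        (Matrix.mulVec (h : Matrix (Fin 2) (Fin 2) (ZMod p)) u) := by
    intro g h u
    rw [Units.val_mul, Matrix.mulVec_mulVec]
  have hne : ∀ (g : GL2 p) (u : Fin 2 → ZMod p), u ≠ 0 →
      Matrix.mulVec (g : Matrix (Fin 2) (Fin 2) (ZMod p)) u ≠ 0 := by
    intro g u hu h0
    apply hu
    have h1 := hmul g⁻¹ g u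
    rw [inv_mul_cancel, h0, Matrix.mulVec_zero, Units.val_one, Matrix.one_mulVec] at h1
    exact h1
  let f : H → {u : Fin 2 → ZMod p // u ≠ 0} := fun h =>
    ⟨Matrix.mulVec ((h : GL2 p) : Matrix (Fin 2) (Fin 2) (ZMod p)) v, hne _ _ hv⟩
  have hinj : Function.Injective f := by
    intro a b hab
    have h1 : Matrix.mulVec ((a : GL2 p) : Matrix (Fin 2) (Fin 2) (ZMod p)) v =
      Matrix.mulVec ((b : GL2 p) : Matrix (Fin 2) (Fin 2) (ZMod p)) v := congrArg Subtype.val hab
    by_contra hne'
    apply hv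
    apply hfree ((b : GL2 p)⁻¹ * a) (H.mul_mem (H.inv_mem b.2) a.2)
    · intro h2
      apply hne'
      exact Subtype.ext (inv_mul_eq_one.1 h2).symm
    · rw [hmul, h1, ← hmul, inv_mul_cancel, Units.val_one, Matrix.one_mulVec]
  have hc : Nat.card {u : Fin 2 → ZMod p // u ≠ 0} = p ^ 2 - 1 := by
    rw [Nat.card_eq_fintype_card, Fintype.card_subtype_compl, Fintype.card_subtype_eq,
      Fintype.card_fun, ZMod.card, Fintype.card_fin]
  have hfinH : Finite H := inferInstance
  have hbij : Function.Bijective f := by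
    rw [Nat.bijective_iff_injective_and_card]
    exact ⟨hinj, by rw [hcard, hc]⟩
  obtain ⟨h, hh⟩ := hbij.2 ⟨w, hw⟩
  refine ⟨h, congrArg Subtype.val hh, ?_⟩
  intro h' hh'
  apply hinj
  rw [hh]
  exact Subtype.ext hh'

end

end H15.Mat2
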