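import Mathlib
import Cfsg.Agent.S4003
import Cfsg.Agent.Lib.H69.FrobCount
import Cfsg.Agent.Lib.H39.NseM11

/-! Counting elements of given order: general tools. -/

set_option autoImplicit false
open Subgroup

namespace H15.Nse

universe u
variable {G : Type u} [Group G] [Finite G]

/-- number of elements of order `m` -/
noncomputable def sN (G : Type u) [Group G] (m : ℕ) : ℕ := Nat.card {g : G // orderOf g = m}

theorem sN_one : sN G 1 = 1 := H39.NseM11.cnt_one

theorem sN_zero : sN G 0 = 0 := by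
  have : IsEmpty {g : G // orderOf g = 0} := ⟨fun g => (orderOf_pos (g : G)).ne' g.2⟩
  exact Nat.card_of_isEmpty

theorem sN_pos {g : G} {m : ℕ} (h : orderOf g = m) : 0 < sN G m := by
  have : Nonempty {g : G // orderOf g = m} := ⟨⟨g, h⟩⟩
  exact Nat.card_pos

theorem exists_of_sN {m : ℕ} (h : sN G m ≠ 0) : ∃ g : G, orderOf g = m := by
  by_contra hne
  push Not at hne
  apply h
  have : IsEmpty {g : G // orderOf g = m} := ⟨fun g => hne g.1 g.2⟩
  exact Nat.card_of_isEmpty

theorem sum_sN (n : ℕ) (hn : n ≠ 0) : ∑ m ∈ n.divisors, sN G m = Nat.card {g : G // g ^ n = 1} := by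
  classical
  let _ := Fintype.ofFinite G
  have h := sum_card_orderOf_eq_card_pow_eq_one (G := G) hn
  rw [Nat.card_eq_fintype_card, Fintype.card_subtype]
  refine Eq.trans ?_ (h.trans ?_)
  · apply Finset.sum_congr rfl
    intro m _
    rw [sN, Nat.card_eq_fintype_card, Fintype.card_subtype]
    try congr
  · try congr

theorem frob (n : ℕ) (hn : n ∣ Nat.card G) : n ∣ ∑ m ∈ n.divisors, sN G m := by
  have h0 : n ≠ 0 := by
    rintro rfl
    exact Nat.card_pos.ne' (Nat.eq_zero_of_zero_dvd hn)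
  rw [sum_sN n h0]
  exact H69.FrobCount.frobenius_dvd n hn

theorem sum_card : ∑ m ∈ (Nat.card G).divisors, sN G m = Nat.card G := by
  rw [sum_sN _ Nat.card_pos.ne']
  have : ∀ g : G, g ^ Nat.card G = 1 := fun g => pow_card_eq_one'
  exact Nat.card_congr (Equiv.subtypeUnivEquiv this)

theorem totient_dvd (m : ℕ) : m.totient ∣ sN G m := by
  rcases Nat.eq_zero_or_pos m with rfl | hm
  · rw [sN_zero]; exact dvd_zero _
  · have h := Cfsg.Agent.S4003.card_eq (G := G) m 1 hm.ne' one_ne_zero (Nat.coprime_one_right m)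
    rw [mul_one] at h
    rw [sN, h]
    exact dvd_mul_left _ _

theorem sN_dvd_zero {a b : ℕ} (h : a ∣ b) (hb : b ≠ 0) (ha : sN G a = 0) : sN G b = 0 := by
  by_contra hne
  obtain ⟨g, hg⟩ := exists_of_sN hne
  obtain ⟨c, hc⟩ := h
  have hc0 : c ≠ 0 := by rintro rfl; exact hb (by rw [hc, mul_zero])
  have ha0 : a ≠ 0 := by rintro rfl; exact hb (by rw [hc, zero_mul])
  have h1 : orderOf (g ^ c) = a := by
    rw [orderOf_pow_of_dvd hc0 (by rw [hg, hc]; exact dvd_mul_left _ _), hg, hc]
    exact Nat.mul_div_cancel _ (Nat.pos_of_ne_zero hc0)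
  exact (sN_pos h1).ne' ha

theorem dvd_card_of_sN {m : ℕ} (h : sN G m ≠ 0) : m ∣ Nat.card G := by
  obtain ⟨g, hg⟩ := exists_of_sN h
  rw [← hg]; exact orderOf_dvd_natCard g

theorem sN_prime_pos {p : ℕ} (hp : p.Prime) (h : p ∣ Nat.card G) : sN G p ≠ 0 := by
  have : Fact p.Prime := ⟨hp⟩
  obtain ⟨x, hx⟩ := exists_prime_orderOf_dvd_card' (G := G) p h
  exact (sN_pos hx).ne'

/-- Frobenius for a prime -/
theorem frob_prime {p : ℕ} (hp : p.Prime) (h : p ∣ Nat.card G) : p ∣ 1 + sN G p := by
  have := frob p h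
  rwa [hp.divisors, Finset.sum_pair hp.one_lt.ne, sN_one] at this

/-- equivariant maps onto transitive sets -/
theorem dvd_of_equiv {X Y : Type*} [Finite X] [Finite Y] [MulAction G Y] [MulAction.IsPretransitive G Y]
    (f : X → Y) (σ : G → X → X) (hσ : ∀ g, Function.Injective (σ g)) (hf : ∀ g x, f (σ g x) = g • f x) :
    Nat.card Y ∣ Nat.card X := by
  classical
  let _ := Fintype.ofFinite Y
  rcases isEmpty_or_nonempty Y with hY | ⟨⟨y0⟩⟩
  · have : IsEmpty X := ⟨fun x => hY.false (f x)⟩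
    rw [Nat.card_of_isEmpty (α := X)]
    exact dvd_zero _
  · have hle : ∀ y y' : Y, Nat.card {x // f x = y} ≤ Nat.card {x // f x = y'} := by
      intro y y'
      obtain ⟨g, hg⟩ := MulAction.exists_smul_eq G y y'
      apply Nat.card_le_card_of_injective (fun x : {x // f x = y} => (⟨σ g x.1, by rw [hf, x.2, hg]⟩ : {x // f x = y'}))
      intro a b hab
      exact Subtype.ext (hσ g (congrArg Subtype.val hab))
    have h1 : Nat.card X = ∑ y : Y, Nat.card {x // f x = y} := by
      rw [← Nat.card_congr (Equiv.sigmaFiberEquiv f), Nat.card_sigma]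
    rw [h1, Finset.sum_const_nat (m := Nat.card {x // f x = y0}) (fun y _ => le_antisymm (hle _ _) (hle _ _)),
      Finset.card_univ, ← Nat.card_eq_fintype_card]
    exact dvd_mul_right _ _

/-- Sylow subgroups of prime order: their number divides the number of elements of any order divisible by `p` -/
theorem card_sylow_dvd_sN {p : ℕ} [hp : Fact p.Prime] (hP : ∀ P : Sylow p G, Nat.card (P : Subgroup G) = p) {n : ℕ}
    (hn : p ∣ n) : Nat.card (Sylow p G) ∣ sN G n := by
  classical
  rcases Nat.eq_zero_or_pos n with rfl | hn0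
  · rw [sN_zero]; exact dvd_zero _
  have hex : ∀ x : {g : G // orderOf g = n}, ∃ P : Sylow p G, zpowers ((x : G) ^ (n / p)) = (P : Subgroup G) := by
    rintro ⟨x, hx⟩
    have h1 : orderOf (x ^ (n / p)) = p := by
      rw [orderOf_pow_of_dvd (Nat.div_pos (Nat.le_of_dvd hn0 hn) hp.out.pos).ne' (by rw [hx]; exact Nat.div_dvd_of_dvd hn),
        hx, Nat.div_div_self hn hn0.ne']
    have h2 : IsPGroup p (zpowers (x ^ (n / p))) := IsPGroup.of_card (n := 1) (by rw [Nat.card_zpowers, h1, pow_one])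
    obtain ⟨P, hP1⟩ := h2.exists_le_sylow
    refine ⟨P, H39.NseM11.zpowers_eq_sylow h1 P (hP P) (hP1 (mem_zpowers _))⟩
  choose f hf using hex
  have hc : ∀ (y g : G), orderOf (y * g * y⁻¹) = orderOf g := fun y g => (MulAut.conj y).orderOf_eq g
  refine dvd_of_equiv (G := G) f (fun g x => ⟨g * x * g⁻¹, by rw [hc]; exact x.2⟩) ?_ ?_
  · intro g a b hab
    have h1 : g * (a : G) * g⁻¹ = g * b * g⁻¹ := congrArg Subtype.val hab
    exact Subtype.ext (mul_left_cancel (mul_right_cancel h1))
  · intro g x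
    apply Sylow.ext
    rw [← hf, Sylow.coe_subgroup_smul, ← hf]
    change zpowers ((g * (x : G) * g⁻¹) ^ (n / p)) = _
    rw [conj_pow]
    rw [Subgroup.pointwise_smul_def]
    exact (MonoidHom.map_zpowers (MulDistribMulAction.toMonoidEnd (MulAut G) G (MulAut.conj g)) _).symm

/-- cyclic Sylow subgroups -/
theorem sN_cyclic_sylow {p k : ℕ} [hp : Fact p.Prime] (hP : ∀ P : Sylow p G, Nat.card (P : Subgroup G) = p ^ k)
    (hs : sN G (p ^ k) ≠ 0) : sN G (p ^ k) = Nat.card (Sylow p G) * (p ^ k).totient ∧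
      ∀ P : Sylow p G, IsCyclic (P : Subgroup G) := by
  classical
  obtain ⟨x, hx⟩ := exists_of_sN hs
  have h0 : IsPGroup p (zpowers x) := IsPGroup.of_card (n := k) (by rw [Nat.card_zpowers, hx])
  obtain ⟨P0, hP0⟩ := h0.exists_le_sylow
  have hz : ∀ (P : Sylow p G) (y : G), orderOf y = p ^ k → y ∈ (P : Subgroup G) → zpowers y = (P : Subgroup G) := by
    intro P y hy hyP
    exact Subgroup.eq_of_le_of_card_ge ((Subgroup.zpowers_le).2 hyP) (by rw [hP P, Nat.card_zpowers, hy])
  have hc : ∀ (y g : G), orderOf (y * g * y⁻¹) = orderOf g := fun y g => (MulAut.conj y).orderOf_eq g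
  have hcyc : ∀ P : Sylow p G, IsCyclic (P : Subgroup G) := by
    intro P
    obtain ⟨g, hg⟩ := MulAction.exists_smul_eq G P0 P
    have h1 : g * x * g⁻¹ ∈ (P : Subgroup G) := by
      rw [← hg, Sylow.coe_subgroup_smul]
      exact Subgroup.smul_mem_pointwise_smul x (MulAut.conj g) _ (hP0 (mem_zpowers x))
    rw [← hz P _ ((hc g x).trans hx) h1]
    infer_instance
  refine ⟨?_, hcyc⟩
  let F : (Σ P : Sylow p G, {y : (P : Subgroup G) // orderOf y = p ^ k}) → {g : G // orderOf g = p ^ k} :=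
    fun a => ⟨a.2.1.1, by rw [Subgroup.orderOf_coe]; exact a.2.2⟩
  have hF : Function.Bijective F := by
    constructor
    · rintro ⟨P, y, hy⟩ ⟨Q, z, hz'⟩ h
      have h1 : (y : G) = (z : G) := congrArg Subtype.val h
      have h2 : P = Q := by
        apply Sylow.ext
        rw [← hz P y (by rw [Subgroup.orderOf_coe]; exact hy) y.2, h1,
          hz Q z (by rw [Subgroup.orderOf_coe]; exact hz') z.2]
      subst h2
      have h3 : y = z := Subtype.ext h1
      subst h3
      rfl
    · rintro ⟨g, hg⟩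
      have h1 : IsPGroup p (zpowers g) := IsPGroup.of_card (n := k) (by rw [Nat.card_zpowers, hg])
      obtain ⟨P, hP1⟩ := h1.exists_le_sylow
      exact ⟨⟨P, ⟨⟨g, hP1 (mem_zpowers g)⟩, by rw [← Subgroup.orderOf_coe]; exact hg⟩⟩, rfl⟩
  let _ := Fintype.ofFinite (Sylow p G)
  rw [sN, ← Nat.card_congr (Equiv.ofBijective F hF), Nat.card_sigma, Finset.sum_const_nat (m := (p ^ k).totient),
    Finset.card_univ, Nat.card_eq_fintype_card]
  intro P _
  let _ := Fintype.ofFinite (P : Subgroup G)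
  have := hcyc P
  rw [Nat.card_eq_fintype_card, Fintype.card_subtype]
  exact IsCyclic.card_orderOf_eq_totient (by rw [← Nat.card_eq_fintype_card, hP P])

/-- the sum of the numbers over a set of orders is at most the order of the group -/
theorem sum_le (s : Finset ℕ) : ∑ m ∈ s, sN G m ≤ Nat.card G := by
  classical
  let _ := Fintype.ofFinite G
  have h1 : ∑ m ∈ s, sN G m = ∑ m ∈ s, (Finset.univ.filter (fun g : G => orderOf g = m)).card := by
    apply Finset.sum_congr rfl
    intro m _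
    rw [sN, Nat.card_eq_fintype_card, Fintype.card_subtype]
  rw [h1, ← Finset.card_biUnion, Nat.card_eq_fintype_card, ← Finset.card_univ]
  · exact Finset.card_le_card (Finset.subset_univ _)
  · intro a _ b _ hab
    rw [Function.onFun, Finset.disjoint_left]
    intro g hg hg'
    rw [Finset.mem_filter] at hg hg'
    exact hab (hg.2.symm.trans hg'.2)

/-- the counting set -/
def HasSet (G : Type u) [Group G] (T : Finset ℕ) : Prop :=
  (∀ m, sN G m = 0 ∨ sN G m ∈ T) ∧ ∀ t ∈ T, ∃ m, sN G m = t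

theorem hasSet_of {A : Type*} [Group A] [Finite A] (T : Finset ℕ)
    (hA : ((fun m : ℕ => Nat.card {g : A // orderOf g = m}) '' Set.range (orderOf : A → ℕ)) = (T : Set ℕ))
    (h : ((fun m : ℕ => Nat.card {g : G // orderOf g = m}) '' Set.range (orderOf : G → ℕ)) =
      ((fun m : ℕ => Nat.card {g : A // orderOf g = m}) '' Set.range (orderOf : A → ℕ))) : HasSet G T := by
  rw [hA] at h
  constructor
  · intro m
    by_cases h0 : sN G m = 0
    · exact Or.inl h0
    · obtain ⟨g, hg⟩ := exists_of_sN h0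
      right
      have : sN G m ∈ (T : Set ℕ) := by
        rw [← h]
        exact ⟨m, ⟨g, hg⟩, rfl⟩
      exact this
  · intro t ht
    have : t ∈ (T : Set ℕ) := ht
    rw [← h] at this
    obtain ⟨m, -, hm⟩ := this
    exact ⟨m, hm⟩

end H15.Nse
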