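import Mathlib
import Cfsg.Agent.Lib.H15.Nse1
import Cfsg.Agent.Lib.H46.A6Facts

/-! Numbers of elements of given order in `A₄`, `A₅`, `A₆`. -/

set_option autoImplicit false
set_option maxRecDepth 100000
open Subgroup

namespace H15.Nse

theorem natCard_pow {n k c : ℕ} (h : (Finset.univ.filter (fun g : Equiv.Perm (Fin n) => g ^ k = 1 ∧ Equiv.Perm.sign g = 1)).card = c) :
    Nat.card {g : alternatingGroup (Fin n) // g ^ k = 1} = c := by
  rw [← h, ← Fintype.card_subtype, ← Nat.card_eq_fintype_card]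
  refine Nat.card_congr ⟨fun g => ⟨g.1.1, congrArg Subtype.val g.2, Equiv.Perm.mem_alternatingGroup.mp g.1.2⟩,
    fun g => ⟨⟨g.1, Equiv.Perm.mem_alternatingGroup.mpr g.2.2⟩, Subtype.ext g.2.1⟩, fun g => rfl, fun g => rfl⟩

theorem filt_eq {n k c : ℕ} (P : Equiv.Perm (Fin n) → Prop) [DecidablePred P]
    (hP : ∀ g, g ^ k = 1 ↔ P g) (h : (Finset.univ.filter (fun g : Equiv.Perm (Fin n) => P g ∧ Equiv.Perm.sign g = 1)).card = c) :
    (Finset.univ.filter (fun g : Equiv.Perm (Fin n) => g ^ k = 1 ∧ Equiv.Perm.sign g = 1)).card = c := by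
  rw [← h]
  congr 1
  apply Finset.filter_congr
  intro g _
  rw [hP]

theorem pow2_iff {n : ℕ} (g : Equiv.Perm (Fin n)) : g ^ 2 = 1 ↔ ∀ i, g (g i) = i :=
  ⟨fun h i => congrArg (fun x : Equiv.Perm (Fin n) => x i) h, fun h => Equiv.ext h⟩

theorem pow3_iff {n : ℕ} (g : Equiv.Perm (Fin n)) : g ^ 3 = 1 ↔ ∀ i, g (g (g i)) = i :=
  ⟨fun h i => congrArg (fun x : Equiv.Perm (Fin n) => x i) h, fun h => Equiv.ext h⟩

theorem pow4_iff {n : ℕ} (g : Equiv.Perm (Fin n)) : g ^ 4 = 1 ↔ ∀ i, g (g (g (g i))) = i :=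
  ⟨fun h i => congrArg (fun x : Equiv.Perm (Fin n) => x i) h, fun h => Equiv.ext h⟩

theorem pow5_iff {n : ℕ} (g : Equiv.Perm (Fin n)) : g ^ 5 = 1 ↔ ∀ i, g (g (g (g (g i)))) = i :=
  ⟨fun h i => congrArg (fun x : Equiv.Perm (Fin n) => x i) h, fun h => Equiv.ext h⟩

theorem c42 : Nat.card {g : alternatingGroup (Fin 4) // g ^ 2 = 1} = 4 :=
  natCard_pow (filt_eq _ pow2_iff (by decide +kernel))
theorem c43 : Nat.card {g : alternatingGroup (Fin 4) // g ^ 3 = 1} = 9 :=
  natCard_pow (filt_eq _ pow3_iff (by decide +kernel))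
theorem c52 : Nat.card {g : alternatingGroup (Fin 5) // g ^ 2 = 1} = 16 :=
  natCard_pow (filt_eq _ pow2_iff (by decide +kernel))
theorem c53 : Nat.card {g : alternatingGroup (Fin 5) // g ^ 3 = 1} = 21 :=
  natCard_pow (filt_eq _ pow3_iff (by decide +kernel))
theorem c55 : Nat.card {g : alternatingGroup (Fin 5) // g ^ 5 = 1} = 25 :=
  natCard_pow (filt_eq _ pow5_iff (by decide +kernel))
theorem c62 : Nat.card {g : alternatingGroup (Fin 6) // g ^ 2 = 1} = 46 :=
  natCard_pow (filt_eq _ pow2_iff (by decide +kernel))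
theorem c63 : Nat.card {g : alternatingGroup (Fin 6) // g ^ 3 = 1} = 81 :=
  natCard_pow (filt_eq _ pow3_iff (by decide +kernel))
theorem c64 : Nat.card {g : alternatingGroup (Fin 6) // g ^ 4 = 1} = 136 :=
  natCard_pow (filt_eq _ pow4_iff (by decide +kernel))
theorem c65 : Nat.card {g : alternatingGroup (Fin 6) // g ^ 5 = 1} = 145 :=
  natCard_pow (filt_eq _ pow5_iff (by decide +kernel))

theorem spec4 : ∀ g : Equiv.Perm (Fin 4), (∀ i, g (g i) = i) ∨ (∀ i, g (g (g i)) = i) ∨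
    Equiv.Perm.sign g ≠ 1 := by decide +kernel
theorem spec5 : ∀ g : Equiv.Perm (Fin 5), (∀ i, g (g i) = i) ∨ (∀ i, g (g (g i)) = i) ∨ (∀ i, g (g (g (g (g i)))) = i) ∨
    Equiv.Perm.sign g ≠ 1 := by decide +kernel

universe u

theorem sN_prime_eq {G : Type u} [Group G] [Finite G] {p c : ℕ} (hp : p.Prime) (h : Nat.card {g : G // g ^ p = 1} = c + 1) :
    sN G p = c := by
  have h1 := sum_sN (G := G) p hp.ne_zero
  rw [hp.divisors, Finset.sum_pair hp.one_lt.ne, sN_one, h] at h1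
  omega

theorem ord4 (g : alternatingGroup (Fin 4)) : orderOf g = 1 ∨ orderOf g = 2 ∨ orderOf g = 3 := by
  rcases spec4 g with h | h | h
  · have h1 : g ^ 2 = 1 := Subtype.ext ((pow2_iff _).2 h)
    rcases (Nat.dvd_prime Nat.prime_two).1 (orderOf_dvd_of_pow_eq_one h1) with h2 | h2 <;> omega
  · have h1 : g ^ 3 = 1 := Subtype.ext ((pow3_iff _).2 h)
    rcases (Nat.dvd_prime Nat.prime_three).1 (orderOf_dvd_of_pow_eq_one h1) with h2 | h2 <;> omega
  · exact absurd (Equiv.Perm.mem_alternatingGroup.mp g.2) h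

theorem ord5 (g : alternatingGroup (Fin 5)) : orderOf g = 1 ∨ orderOf g = 2 ∨ orderOf g = 3 ∨ orderOf g = 5 := by
  rcases spec5 g with h | h | h | h
  · have h1 : g ^ 2 = 1 := Subtype.ext ((pow2_iff _).2 h)
    rcases (Nat.dvd_prime Nat.prime_two).1 (orderOf_dvd_of_pow_eq_one h1) with h2 | h2 <;> omega
  · have h1 : g ^ 3 = 1 := Subtype.ext ((pow3_iff _).2 h)
    rcases (Nat.dvd_prime Nat.prime_three).1 (orderOf_dvd_of_pow_eq_one h1) with h2 | h2 <;> omega
  · have h1 : g ^ 5 = 1 := Subtype.ext ((pow5_iff _).2 h)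
    rcases (Nat.dvd_prime Nat.prime_five).1 (orderOf_dvd_of_pow_eq_one h1) with h2 | h2 <;> omega
  · exact absurd (Equiv.Perm.mem_alternatingGroup.mp g.2) h

theorem ord6 (g : alternatingGroup (Fin 6)) : orderOf g = 1 ∨ orderOf g = 2 ∨ orderOf g = 3 ∨ orderOf g = 4 ∨ orderOf g = 5 := by
  rcases H46.A6Facts.spectrum g with h1 | h1 | h1
  · rcases (Nat.dvd_prime Nat.prime_three).1 (orderOf_dvd_of_pow_eq_one h1) with h2 | h2 <;> omega
  · have h2 : orderOf g ∣ 2 ^ 2 := orderOf_dvd_of_pow_eq_one h1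
    obtain ⟨k, hk, hk2⟩ := (Nat.dvd_prime_pow Nat.prime_two).1 h2
    interval_cases k <;> omega
  · rcases (Nat.dvd_prime Nat.prime_five).1 (orderOf_dvd_of_pow_eq_one h1) with h2 | h2 <;> omega

theorem mem_img {A : Type u} [Group A] [Finite A] {m t : ℕ} (h : sN A m = t) (ht : t ≠ 0) :
    t ∈ ((fun m : ℕ => Nat.card {g : A // orderOf g = m}) '' Set.range (orderOf : A → ℕ)) := by
  obtain ⟨g, hg⟩ := exists_of_sN (m := m) (G := A) (by rw [h]; exact ht)
  exact ⟨m, ⟨g, hg⟩, h⟩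

theorem set4 : ((fun m : ℕ => Nat.card {g : alternatingGroup (Fin 4) // orderOf g = m}) ''
    Set.range (orderOf : alternatingGroup (Fin 4) → ℕ)) = (({1, 3, 8} : Finset ℕ) : Set ℕ) := by
  have h1 : sN (alternatingGroup (Fin 4)) 1 = 1 := sN_one
  have h2 : sN (alternatingGroup (Fin 4)) 2 = 3 := sN_prime_eq Nat.prime_two c42
  have h3 : sN (alternatingGroup (Fin 4)) 3 = 8 := sN_prime_eq Nat.prime_three c43
  ext t
  simp only [Finset.coe_insert, Finset.coe_singleton, Set.mem_insert_iff, Set.mem_singleton_iff]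
  constructor
  · rintro ⟨m, ⟨g, rfl⟩, rfl⟩
    change sN (alternatingGroup (Fin 4)) (orderOf g) = 1 ∨ sN (alternatingGroup (Fin 4)) (orderOf g) = 3 ∨
      sN (alternatingGroup (Fin 4)) (orderOf g) = 8
    rcases ord4 g with h | h | h <;> rw [h] <;> omega
  · rintro (rfl | rfl | rfl)
    · exact mem_img h1 (by norm_num)
    · exact mem_img h2 (by norm_num)
    · exact mem_img h3 (by norm_num)

theorem set5 : ((fun m : ℕ => Nat.card {g : alternatingGroup (Fin 5) // orderOf g = m}) ''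
    Set.range (orderOf : alternatingGroup (Fin 5) → ℕ)) = (({1, 15, 20, 24} : Finset ℕ) : Set ℕ) := by
  have h1 : sN (alternatingGroup (Fin 5)) 1 = 1 := sN_one
  have h2 : sN (alternatingGroup (Fin 5)) 2 = 15 := sN_prime_eq Nat.prime_two c52
  have h3 : sN (alternatingGroup (Fin 5)) 3 = 20 := sN_prime_eq Nat.prime_three c53
  have h5 : sN (alternatingGroup (Fin 5)) 5 = 24 := sN_prime_eq Nat.prime_five c55
  ext t
  simp only [Finset.coe_insert, Finset.coe_singleton, Set.mem_insert_iff, Set.mem_singleton_iff]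
  constructor
  · rintro ⟨m, ⟨g, rfl⟩, rfl⟩
    change sN (alternatingGroup (Fin 5)) (orderOf g) = 1 ∨ sN (alternatingGroup (Fin 5)) (orderOf g) = 15 ∨
      sN (alternatingGroup (Fin 5)) (orderOf g) = 20 ∨ sN (alternatingGroup (Fin 5)) (orderOf g) = 24
    rcases ord5 g with h | h | h | h <;> rw [h] <;> omega
  · rintro (rfl | rfl | rfl | rfl)
    · exact mem_img h1 (by norm_num)
    · exact mem_img h2 (by norm_num)
    · exact mem_img h3 (by norm_num)
    · exact mem_img h5 (by norm_num)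

theorem set6 : ((fun m : ℕ => Nat.card {g : alternatingGroup (Fin 6) // orderOf g = m}) ''
    Set.range (orderOf : alternatingGroup (Fin 6) → ℕ)) = (({1, 45, 80, 90, 144} : Finset ℕ) : Set ℕ) := by
  have h1 : sN (alternatingGroup (Fin 6)) 1 = 1 := sN_one
  have h2 : sN (alternatingGroup (Fin 6)) 2 = 45 := sN_prime_eq Nat.prime_two c62
  have h3 : sN (alternatingGroup (Fin 6)) 3 = 80 := sN_prime_eq Nat.prime_three c63
  have h5 : sN (alternatingGroup (Fin 6)) 5 = 144 := sN_prime_eq Nat.prime_five c65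
  have h4 : sN (alternatingGroup (Fin 6)) 4 = 90 := by
    have h := sum_sN (G := alternatingGroup (Fin 6)) 4 (by norm_num)
    have hd : Nat.divisors 4 = {1, 2, 4} := by decide
    rw [hd, Finset.sum_insert (by decide), Finset.sum_pair (by decide), h1, h2, c64] at h
    omega
  ext t
  simp only [Finset.coe_insert, Finset.coe_singleton, Set.mem_insert_iff, Set.mem_singleton_iff]
  constructor
  · rintro ⟨m, ⟨g, rfl⟩, rfl⟩
    change sN (alternatingGroup (Fin 6)) (orderOf g) = 1 ∨ sN (alternatingGroup (Fin 6)) (orderOf g) = 45 ∨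
      sN (alternatingGroup (Fin 6)) (orderOf g) = 80 ∨ sN (alternatingGroup (Fin 6)) (orderOf g) = 90 ∨
      sN (alternatingGroup (Fin 6)) (orderOf g) = 144
    rcases ord6 g with h | h | h | h | h <;> rw [h] <;> omega
  · rintro (rfl | rfl | rfl | rfl | rfl)
    · exact mem_img h1 (by norm_num)
    · exact mem_img h2 (by norm_num)
    · exact mem_img h3 (by norm_num)
    · exact mem_img h4 (by norm_num)
    · exact mem_img h5 (by norm_num)

end H15.Nse
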