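import Mathlib
import Cfsg.Agent.Lib.H15.Nse1
import Cfsg.Agent.Lib.H98.DicksonIdent

/-! Groups with the same-order class sizes of `A₄`. -/

set_option autoImplicit false
open Subgroup

namespace H15.Nse

universe u
variable {G : Type u} [Group G] [Finite G]

theorem two_dvd_sN {m : ℕ} (hm : 3 ≤ m) : 2 ∣ sN G m :=
  (even_iff_two_dvd.1 (Nat.totient_even (by omega : 2 < m))).trans (totient_dvd m)

theorem sylow_two_data {k : ℕ} (hk : ∀ P : Sylow 2 G, Nat.card (P : Subgroup G) = 2 ^ k) (hs : sN G (2 ^ k) ≠ 0) :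
    ∃ n, Odd n ∧ sN G (2 ^ k) = n * (2 ^ k).totient := by
  have h := sN_cyclic_sylow (G := G) (p := 2) hk hs
  refine ⟨_, ?_, h.1⟩
  have := card_sylow_modEq_one 2 G
  rw [Nat.odd_iff]
  exact this

theorem sylow_card {p a : ℕ} [hp : Fact p.Prime] (h1 : p ^ a ∣ Nat.card G) (h2 : ¬ p ^ (a + 1) ∣ Nat.card G) :
    ∀ P : Sylow p G, Nat.card (P : Subgroup G) = p ^ a := by
  obtain ⟨m, hm⟩ := h1
  intro P
  refine H21.SylowTools.card_sylow_eq_pow hm ?_ P
  rintro ⟨c, rfl⟩
  exact h2 ⟨c, by rw [hm, pow_succ]; ring⟩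

section four
variable (h : HasSet G {1, 3, 8})
include h

theorem F4.ge3 {m : ℕ} (hm : 3 ≤ m) : sN G m = 0 ∨ sN G m = 8 := by
  have h1 := two_dvd_sN (G := G) hm
  rcases h.1 m with h2 | h2
  · exact Or.inl h2
  · simp only [Finset.mem_insert, Finset.mem_singleton] at h2
    rcases h2 with h2 | h2 | h2
    · omega
    · omega
    · exact Or.inr h2

theorem F4.two : sN G 2 = 3 := by
  obtain ⟨m, hm⟩ := h.2 3 (by simp)
  rcases Nat.lt_or_ge m 3 with h1 | h1
  · interval_cases m
    · rw [sN_zero] at hm; omega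
    · rw [sN_one] at hm; omega
    · exact hm
  · rcases F4.ge3 h h1 with h2 | h2 <;> omega

theorem F4.even : 2 ∣ Nat.card G := dvd_card_of_sN (by rw [F4.two h]; norm_num)

theorem F4.mod8 : Nat.card G % 8 = 4 := by
  have h0 := sum_card (G := G)
  have hd1 : 1 ∈ (Nat.card G).divisors := Nat.mem_divisors.2 ⟨one_dvd _, Nat.card_pos.ne'⟩
  have hd2 : 2 ∈ (Nat.card G).divisors.erase 1 := Finset.mem_erase.2 ⟨by norm_num, Nat.mem_divisors.2 ⟨F4.even h, Nat.card_pos.ne'⟩⟩
  rw [← Finset.add_sum_erase _ _ hd1, ← Finset.add_sum_erase _ _ hd2, sN_one, F4.two h] at h0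
  have h3 : 8 ∣ ∑ x ∈ ((Nat.card G).divisors.erase 1).erase 2, sN G x := by
    apply Finset.dvd_sum
    intro m hm
    rw [Finset.mem_erase, Finset.mem_erase, Nat.mem_divisors] at hm
    have hm0 : m ≠ 0 := by
      rintro rfl
      exact hm.2.2.2 (Nat.eq_zero_of_zero_dvd hm.2.2.1)
    rcases F4.ge3 h (m := m) (by omega) with h4 | h4 <;> rw [h4]
    exact dvd_zero _
  omega

theorem F4.no4 : sN G 4 = 0 := by
  by_contra hne
  have h1 := F4.mod8 h
  have hS : ∀ P : Sylow 2 G, Nat.card (P : Subgroup G) = 2 ^ 2 := sylow_card (by norm_num; omega) (by norm_num; omega)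
  obtain ⟨n, hn, hn2⟩ := sylow_two_data hS (by norm_num; exact hne)
  have h2 : (2 ^ 2 : ℕ).totient = 2 := by decide
  rw [h2] at hn2
  have h3 := F4.ge3 h (m := 4) (by norm_num)
  norm_num at hn2
  rw [Nat.odd_iff] at hn
  omega

theorem F4.primes {p : ℕ} (hp : p.Prime) (hd : p ∣ Nat.card G) : p = 2 ∨ p = 3 := by
  by_cases h2 : p = 2
  · exact Or.inl h2
  · right
    have h3 : 3 ≤ p := by have := hp.two_le; omega
    have h4 := frob_prime hp hd
    have h5 := sN_prime_pos hp hd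
    rcases F4.ge3 h h3 with h6 | h6
    · exact absurd h6 h5
    · rw [h6] at h4
      have h7 : p ∣ 3 ^ 2 := h4
      exact (Nat.prime_dvd_prime_iff_eq hp Nat.prime_three).1 (hp.dvd_of_dvd_pow h7)

theorem F4.three_dvd : 3 ∣ Nat.card G := by
  obtain ⟨m, hm⟩ := h.2 8 (by simp)
  have hm3 : 3 ≤ m := by
    by_contra hlt
    push Not at hlt
    interval_cases m
    · rw [sN_zero] at hm; omega
    · rw [sN_one] at hm; omega
    · rw [F4.two h] at hm; omega
  have hmd : m ∣ Nat.card G := dvd_card_of_sN (by omega)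
  have hm4 : ¬ 4 ∣ m := fun h4 => by
    have := sN_dvd_zero h4 (by omega) (F4.no4 h)
    omega
  by_contra h3
  have h5 : m = 2 ^ m.primeFactorsList.length := by
    apply Nat.eq_prime_pow_of_unique_prime_dvd (by omega)
    intro d hd hdm
    rcases F4.primes h hd (hdm.trans hmd) with h6 | h6
    · exact h6
    · exact absurd (h6 ▸ hdm.trans hmd) h3
  rcases Nat.lt_or_ge m.primeFactorsList.length 2 with h6 | h6
  · interval_cases hl : m.primeFactorsList.length <;> omega
  · apply hm4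
    rw [h5]
    exact (pow_dvd_pow 2 h6 : 2 ^ 2 ∣ _)

theorem F4.no9 : sN G 9 = 0 := by
  rcases F4.ge3 h (m := 9) (by norm_num) with h1 | h1
  · exact h1
  · have h2 := totient_dvd (G := G) 9
    have h3 : Nat.totient 9 = 6 := by decide
    rw [h1, h3] at h2
    omega

theorem F4.not27 : ¬ 27 ∣ Nat.card G := by
  intro hd
  have h1 := frob 27 hd
  have hdiv : Nat.divisors 27 = {1, 3, 9, 27} := by decide
  have h27 : sN G 27 = 0 := sN_dvd_zero (by norm_num : 9 ∣ 27) (by norm_num) (F4.no9 h)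
  have h3 := F4.ge3 h (m := 3) le_rfl
  rw [hdiv, Finset.sum_insert (by decide), Finset.sum_insert (by decide), Finset.sum_pair (by decide), sN_one, F4.no9 h, h27] at h1
  omega

theorem F4.dvd36 : Nat.card G ∣ 36 := by
  have h8 := F4.mod8 h
  obtain ⟨m, hm⟩ : 4 ∣ Nat.card G := by omega
  have hm0 : m ≠ 0 := by
    rintro rfl
    exact Nat.card_pos.ne' hm
  have h5 : m = 3 ^ m.primeFactorsList.length := by
    apply Nat.eq_prime_pow_of_unique_prime_dvd hm0
    intro d hd hdm
    rcases F4.primes h hd (hdm.trans ⟨4, by rw [hm]; ring⟩) with h6 | h6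
    · rw [h6] at hdm
      omega
    · exact h6
  have h27 := F4.not27 h
  have h6 : m.primeFactorsList.length ≤ 2 := by
    by_contra hlt
    push Not at hlt
    apply h27
    rw [hm, h5]
    exact Dvd.dvd.mul_left (pow_dvd_pow 3 hlt : 3 ^ 3 ∣ _) 4
  rw [hm, h5]
  exact Nat.mul_dvd_mul_left 4 (pow_dvd_pow 3 h6 : _ ∣ 3 ^ 2)

theorem F4.card12 : Nat.card G = 12 := by
  have h36 := F4.dvd36 h
  have h3 := F4.three_dvd h
  have h8 := F4.mod8 h
  have hle := Nat.le_of_dvd (by norm_num) h36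
  have key : ∀ g : G, g ^ 6 = 1 := by
    intro g
    have hg : sN G (orderOf g) ≠ 0 := (sN_pos rfl).ne'
    have h1 : orderOf g ∣ 36 := (orderOf_dvd_natCard g).trans h36
    have h2 : ¬ 4 ∣ orderOf g := fun h4 => hg (sN_dvd_zero h4 (orderOf_pos g).ne' (F4.no4 h))
    have h2' : ¬ 9 ∣ orderOf g := fun h4 => hg (sN_dvd_zero h4 (orderOf_pos g).ne' (F4.no9 h))
    apply orderOf_dvd_iff_pow_eq_one.1
    have h4 : orderOf g ∈ Nat.divisors 36 := Nat.mem_divisors.2 ⟨h1, by norm_num⟩
    have h5 : ∀ d ∈ Nat.divisors 36, ¬ 4 ∣ d → ¬ 9 ∣ d → d ∣ 6 := by decide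
    exact h5 _ h4 h2 h2'
  have h6 := sum_sN (G := G) 6 (by norm_num)
  rw [Nat.card_congr (Equiv.subtypeUnivEquiv key)] at h6
  have hdiv : Nat.divisors 6 = {1, 2, 3, 6} := by decide
  have hs3 : sN G 3 = 8 := (F4.ge3 h le_rfl).resolve_left (sN_prime_pos Nat.prime_three h3)
  have hs6 := F4.ge3 h (m := 6) (by norm_num)
  rw [hdiv, Finset.sum_insert (by decide), Finset.sum_insert (by decide), Finset.sum_pair (by decide), sN_one, F4.two h, hs3] at h6
  have h7 : Nat.card G ≠ 20 := by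
    intro h20
    rw [h20] at h3
    omega
  omega

theorem case4 : Nonempty (G ≃* alternatingGroup (Fin 4)) := by
  have : Fact (Nat.Prime 3) := ⟨by norm_num⟩
  have h12 := F4.card12 h
  have hP : ∀ P : Sylow 3 G, Nat.card (P : Subgroup G) = 3 := fun P => by
    have := sylow_card (G := G) (p := 3) (a := 1) (by rw [h12]; norm_num) (by rw [h12]; norm_num) P
    rw [this, pow_one]
  have hs3 : sN G 3 = 8 := (F4.ge3 h le_rfl).resolve_left (sN_prime_pos Nat.prime_three (by rw [h12]; norm_num))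
  have hn : Nat.card (Sylow 3 G) = 4 := by
    have := H39.NseM11.cnt_prime hP
    rw [sN] at hs3
    omega
  apply H98.DicksonIdent.A4_of h12 hn
  intro g hg
  have hN : ∀ P : Sylow 3 G, g ∈ (P : Subgroup G) := by
    intro P
    have h1 := Sylow.smul_eq_iff_mem_normalizer.1 (hg P)
    have h2 := H21.SylowTools.card_normalizer_mul_card_sylow P
    rw [hn, h12] at h2
    have h3 : (P : Subgroup G) = normalizer ((P : Subgroup G) : Set G) :=
      Subgroup.eq_of_le_of_card_ge Subgroup.le_normalizer (by rw [hP P]; omega)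
    rw [h3]
    exact h1
  by_contra hg1
  have hne : ∃ P Q : Sylow 3 G, P ≠ Q := by
    by_contra hall
    push Not at hall
    have : Subsingleton (Sylow 3 G) := ⟨hall⟩
    have := Finite.card_le_one_iff_subsingleton.2 this
    omega
  obtain ⟨P, Q, hPQ⟩ := hne
  apply hPQ
  apply Sylow.ext
  have ho : orderOf g = 3 := by
    have h1 : orderOf (⟨g, hN P⟩ : (P : Subgroup G)) ∣ 3 := (_root_.orderOf_dvd_natCard _).trans (hP P).dvd
    rw [Subgroup.orderOf_mk] at h1
    rcases (Nat.dvd_prime Nat.prime_three).1 h1 with h2 | h2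
    · exact absurd (orderOf_eq_one_iff.1 h2) hg1
    · exact h2
  rw [← H39.NseM11.zpowers_eq_sylow ho P (hP P) (hN P), H39.NseM11.zpowers_eq_sylow ho Q (hP Q) (hN Q)]

end four

end H15.Nse
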