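import Mathlib
import Cfsg.Agent.Lib.H15.Nse4
import Cfsg.Agent.Lib.H60.Ord60
import Cfsg.Agent.Lib.H64.J2Y

/-! Groups with the same-order class sizes of `A₅`. -/

set_option autoImplicit false
open Subgroup

namespace H15.Nse

universe u
variable {G : Type u} [Group G] [Finite G]

/-- a Sylow subgroup of prime order containing no elements of order `p q`: it is self-centralizing -/
theorem cent_card {p : ℕ} [hp : Fact p.Prime] (hP : ∀ P : Sylow p G, Nat.card (P : Subgroup G) = p)
    (hp2 : ¬ p ^ 2 ∣ Nat.card G)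
    (hq : ∀ q : ℕ, q.Prime → q ∣ Nat.card G → q ≠ p → sN G (p * q) = 0) {x : G} (hx : orderOf x = p) :
    Nat.card (centralizer ({x} : Set G)) = p := by
  classical
  have hxC : x ∈ centralizer ({x} : Set G) := mem_centralizer_singleton_iff.2 rfl
  have h1 : p ∣ Nat.card (centralizer ({x} : Set G)) := by
    have h2 := _root_.orderOf_dvd_natCard (⟨x, hxC⟩ : centralizer ({x} : Set G))
    rwa [Subgroup.orderOf_mk, hx] at h2
  obtain ⟨k, hk⟩ := h1
  have hk0 : k ≠ 0 := by
    rintro rfl
    exact Nat.card_pos.ne' hk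
  by_contra hne
  have hk1 : k ≠ 1 := by
    rintro rfl
    exact hne (by rw [hk, mul_one])
  obtain ⟨q, hq1, hqk⟩ := Nat.exists_prime_and_dvd hk1
  have hqC : q ∣ Nat.card (centralizer ({x} : Set G)) := by rw [hk]; exact Dvd.dvd.mul_left hqk p
  have hqG : q ∣ Nat.card G := hqC.trans (Subgroup.card_subgroup_dvd_card _)
  have hqp : q ≠ p := by
    rintro rfl
    apply hp2
    rw [pow_two]
    exact (hk ▸ Nat.mul_dvd_mul_left q hqk : q * q ∣ Nat.card (centralizer ({x} : Set G))).trans (Subgroup.card_subgroup_dvd_card _)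
  have : Fact q.Prime := ⟨hq1⟩
  obtain ⟨y, hy⟩ := exists_prime_orderOf_dvd_card' (G := centralizer ({x} : Set G)) q hqC
  have hyo : orderOf (y : G) = q := by rw [Subgroup.orderOf_coe]; exact hy
  have hxy : Commute x (y : G) := (mem_centralizer_singleton_iff.1 y.2).symm
  have ho : orderOf (x * (y : G)) = p * q := by
    rw [hxy.orderOf_mul_eq_mul_orderOf_of_coprime (by rw [hx, hyo]; exact (Nat.coprime_primes hp.out hq1).2 hqp.symm), hx, hyo]
  exact (sN_pos ho).ne' (hq q hq1 hqG hqp)

/-- the order of the normalizer of a self-centralizing Sylow subgroup of prime order -/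
theorem card_eq_of_cent {p : ℕ} [hp : Fact p.Prime] (hP : ∀ P : Sylow p G, Nat.card (P : Subgroup G) = p)
    (hC : ∀ x : G, orderOf x = p → Nat.card (centralizer ({x} : Set G)) = p) :
    ∃ l, l ∣ p - 1 ∧ Nat.card G = Nat.card (Sylow p G) * (p * l) := by
  classical
  obtain ⟨P⟩ : Nonempty (Sylow p G) := inferInstance
  have h1 := H64.J2.card_norm_dvd hp.out (P : Subgroup G) (hP P)
  obtain ⟨x, hx⟩ := exists_prime_orderOf_dvd_card' (G := (P : Subgroup G)) p (hP P).symm.dvd
  have hx' : orderOf (x : G) = p := by rw [Subgroup.orderOf_coe]; exact hx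
  have h2 : zpowers (x : G) = (P : Subgroup G) := H39.NseM11.zpowers_eq_sylow hx' P (hP P) x.2
  have h3 : centralizer ((P : Subgroup G) : Set G) = centralizer ({(x : G)} : Set G) :=
    (congrArg (fun K : Subgroup G => centralizer (K : Set G)) h2).symm.trans (H94.PNorm.centralizer_zpowers _)
  rw [h3, hC _ hx'] at h1
  have h4 := H21.SylowTools.card_normalizer_mul_card_sylow P
  have h5 : p ∣ Nat.card (normalizer ((P : Subgroup G) : Set G)) := by
    have := Subgroup.card_dvd_of_le (Subgroup.le_normalizer (H := (P : Subgroup G)))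
    rwa [hP P] at this
  obtain ⟨l, hl⟩ := h5
  rw [hl] at h1 h4
  refine ⟨l, Nat.dvd_of_mul_dvd_mul_left hp.out.pos h1, ?_⟩
  rw [← h4, mul_comm]

section five
variable (h : HasSet G {1, 15, 20, 24})
include h

theorem F5.ge3 {m : ℕ} (hm : 3 ≤ m) : sN G m = 0 ∨ sN G m = 20 ∨ sN G m = 24 := by
  have h1 := two_dvd_sN (G := G) hm
  rcases h.1 m with h2 | h2
  · exact Or.inl h2
  · simp only [Finset.mem_insert, Finset.mem_singleton] at h2
    rcases h2 with h2 | h2 | h2 | h2
    · omega
    · omega
    · exact Or.inr (Or.inl h2)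
    · exact Or.inr (Or.inr h2)

theorem F5.two : sN G 2 = 15 := by
  obtain ⟨m, hm⟩ := h.2 15 (by simp)
  rcases Nat.lt_or_ge m 3 with h1 | h1
  · interval_cases m
    · rw [sN_zero] at hm; omega
    · rw [sN_one] at hm; omega
    · exact hm
  · rcases F5.ge3 h h1 with h2 | h2 | h2 <;> omega

theorem F5.even : 2 ∣ Nat.card G := dvd_card_of_sN (by rw [F5.two h]; norm_num)

theorem F5.att {t : ℕ} (ht : t = 20 ∨ t = 24) : ∃ m, 3 ≤ m ∧ sN G m = t ∧ m ∣ Nat.card G := by
  obtain ⟨m, hm⟩ := h.2 t (by rcases ht with rfl | rfl <;> simp)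
  refine ⟨m, ?_, hm, dvd_card_of_sN (by omega)⟩
  by_contra hlt
  push Not at hlt
  interval_cases m
  · rw [sN_zero] at hm; omega
  · rw [sN_one] at hm; omega
  · rw [F5.two h] at hm; omega

theorem F5.sixty_le : 60 ≤ Nat.card G := by
  obtain ⟨m, hm3, hm, -⟩ := F5.att h (t := 20) (Or.inl rfl)
  obtain ⟨n, hn3, hn, -⟩ := F5.att h (t := 24) (Or.inr rfl)
  have h1 := sum_le (G := G) {1, 2, m, n}
  have hmn : m ≠ n := by rintro rfl; omega
  rw [Finset.sum_insert (by simp; omega), Finset.sum_insert (by simp; omega), Finset.sum_pair hmn, sN_one, F5.two h, hm, hn] at h1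
  omega

theorem F5.three (h3 : 3 ∣ Nat.card G) : sN G 3 = 20 := by
  have h1 := frob_prime Nat.prime_three h3
  have h2 := sN_prime_pos Nat.prime_three h3
  rcases F5.ge3 h (m := 3) le_rfl with h4 | h4 | h4
  · exact absurd h4 h2
  · exact h4
  · rw [h4] at h1; omega

theorem F5.five (h5 : 5 ∣ Nat.card G) : sN G 5 = 24 := by
  have h1 := frob_prime Nat.prime_five h5
  have h2 := sN_prime_pos Nat.prime_five h5
  rcases F5.ge3 h (m := 5) (by norm_num) with h4 | h4 | h4
  · exact absurd h4 h2
  · rw [h4] at h1; omega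
  · exact h4

theorem F5.primes {p : ℕ} (hp : p.Prime) (hd : p ∣ Nat.card G) : p = 2 ∨ p = 3 ∨ p = 5 := by
  by_cases h2 : p = 2
  · exact Or.inl h2
  · right
    have h3 : 3 ≤ p := by have := hp.two_le; omega
    have h4 := frob_prime hp hd
    have h5 := sN_prime_pos hp hd
    rcases F5.ge3 h h3 with h6 | h6 | h6
    · exact absurd h6 h5
    · have h7 := totient_dvd (G := G) p
      rw [Nat.totient_prime hp, h6] at h7
      rw [h6] at h4
      have h8 : p ∈ Nat.divisors 21 := Nat.mem_divisors.2 ⟨h4, by norm_num⟩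
      have h9 : ∀ d ∈ Nat.divisors 21, 3 ≤ d → d - 1 ∣ 20 → d = 3 ∨ d = 21 := by decide
      rcases h9 p h8 h3 h7 with h10 | h10
      · exact Or.inl h10
      · rw [h10] at hp; exact absurd hp (by norm_num)
    · rw [h6] at h4
      have h8 : p ∣ 5 ^ 2 := h4
      exact Or.inr ((Nat.prime_dvd_prime_iff_eq hp Nat.prime_five).1 (hp.dvd_of_dvd_pow h8))

theorem F5.not9 : ¬ 9 ∣ Nat.card G := by
  intro h9
  have : Fact (Nat.Prime 3) := ⟨by norm_num⟩
  have h3 : 3 ∣ Nat.card G := (by norm_num : 3 ∣ 9).trans h9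
  have hs3 := F5.three h h3
  have h1 := frob 9 h9
  have hdiv : Nat.divisors 9 = {1, 3, 9} := by decide
  have hs9 := F5.ge3 h (m := 9) (by norm_num)
  rw [hdiv, Finset.sum_insert (by decide), Finset.sum_pair (by decide), sN_one, hs3] at h1
  have hs9' : sN G 9 = 24 := by omega
  have h27 : ¬ 27 ∣ Nat.card G := by
    intro h27
    have h2 := frob 27 h27
    have hdiv' : Nat.divisors 27 = {1, 3, 9, 27} := by decide
    have h4 : sN G 27 = 0 := by
      have h5 := totient_dvd (G := G) 27
      have h6 : Nat.totient 27 = 18 := by decide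
      rw [h6] at h5
      rcases F5.ge3 h (m := 27) (by norm_num) with h7 | h7 | h7
      · exact h7
      · rw [h7] at h5; omega
      · rw [h7] at h5; omega
    rw [hdiv', Finset.sum_insert (by decide), Finset.sum_insert (by decide), Finset.sum_pair (by decide), sN_one, hs3, hs9', h4] at h2
    omega
  have hP : ∀ P : Sylow 3 G, Nat.card (P : Subgroup G) = 3 ^ 2 := sylow_card (by norm_num; exact h9) (by norm_num; exact h27)
  obtain ⟨h4, h5⟩ := sN_cyclic_sylow (G := G) (p := 3) (k := 2) hP (by norm_num; omega)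
  have h6 : (3 ^ 2 : ℕ).totient = 6 := by decide
  rw [h6] at h4
  norm_num at h4
  have hn : Nat.card (Sylow 3 G) = 4 := by omega
  -- at most `2 * 4` elements of order 3
  classical
  have hex : ∀ x : {g : G // orderOf g = 3}, ∃ P : Sylow 3 G, (x : G) ∈ (P : Subgroup G) := by
    rintro ⟨x, hx⟩
    have h2 : IsPGroup 3 (zpowers x) := IsPGroup.of_card (n := 1) (by rw [Nat.card_zpowers, hx, pow_one])
    obtain ⟨P, hP1⟩ := h2.exists_le_sylow
    exact ⟨P, hP1 (mem_zpowers _)⟩
  choose f hf using hex
  let F : {g : G // orderOf g = 3} → (Σ P : Sylow 3 G, {y : (P : Subgroup G) // orderOf y = 3}) :=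
    fun x => ⟨f x, ⟨⟨x.1, hf x⟩, by rw [Subgroup.orderOf_mk]; exact x.2⟩⟩
  have hF : Function.Injective F := by
    intro a b hab
    have h7 : ((F a).2.1 : G) = ((F b).2.1 : G) := by rw [hab]
    exact Subtype.ext h7
  have h7 := Nat.card_le_card_of_injective F hF
  let _ := Fintype.ofFinite (Sylow 3 G)
  rw [Nat.card_sigma, Finset.sum_const_nat (m := 2), Finset.card_univ, ← Nat.card_eq_fintype_card, hn] at h7
  · change sN G 3 ≤ _ at h7
    omega
  · intro P _
    let _ := Fintype.ofFinite (P : Subgroup G)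
    have := h5 P
    rw [Nat.card_eq_fintype_card, Fintype.card_subtype]
    have h8 := IsCyclic.card_orderOf_eq_totient (α := (P : Subgroup G)) (d := 3)
      (by rw [← Nat.card_eq_fintype_card, hP P]; norm_num)
    rw [h8]
    decide

theorem F5.card_of_three (h3 : 3 ∣ Nat.card G) : Nat.card G = 60 := by
  have : Fact (Nat.Prime 3) := ⟨by norm_num⟩
  have hs3 := F5.three h h3
  have h9 := F5.not9 h
  have hP : ∀ P : Sylow 3 G, Nat.card (P : Subgroup G) = 3 := fun P => by
    have := sylow_card (G := G) (p := 3) (a := 1) (by norm_num; exact h3) (by norm_num; exact h9) P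
    rw [this, pow_one]
  have hn : Nat.card (Sylow 3 G) = 10 := by
    have := H39.NseM11.cnt_prime hP
    rw [sN] at hs3
    omega
  have hs6 : sN G 6 = 0 := by
    have h1 := card_sylow_dvd_sN hP (n := 6) (by norm_num)
    rw [hn] at h1
    rcases F5.ge3 h (m := 6) (by norm_num) with h4 | h4 | h4
    · exact h4
    · exfalso
      have h6 : 6 ∣ Nat.card G := dvd_card_of_sN (by omega)
      have h2 := frob 6 h6
      have hdiv : Nat.divisors 6 = {1, 2, 3, 6} := by decide
      rw [hdiv, Finset.sum_insert (by decide), Finset.sum_insert (by decide), Finset.sum_pair (by decide), sN_one,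
        F5.two h, hs3, h4] at h2
      omega
    · rw [h4] at h1; omega
  have hs15 : sN G 15 = 0 := by
    have h1 := card_sylow_dvd_sN hP (n := 15) (by norm_num)
    have h2 := totient_dvd (G := G) 15
    have h5 : Nat.totient 15 = 8 := by decide
    rw [hn] at h1
    rw [h5] at h2
    rcases F5.ge3 h (m := 15) (by norm_num) with h4 | h4 | h4
    · exact h4
    · rw [h4] at h2; omega
    · rw [h4] at h1; omega
  obtain ⟨l, hl, hc⟩ := card_eq_of_cent hP (fun x hx => cent_card hP (by norm_num; exact h9) (by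
    intro q hq hqG hq3
    rcases F5.primes h hq hqG with rfl | rfl | rfl
    · exact hs6
    · exact absurd rfl hq3
    · exact hs15) hx)
  rw [hn] at hc
  have h60 := F5.sixty_le h
  have : l ≤ 2 := Nat.le_of_dvd (by norm_num) hl
  omega

theorem F5.not_two_group (h5 : ¬ 5 ∣ Nat.card G) (h3 : ¬ 3 ∣ Nat.card G) : False := by
  have h60 := F5.sixty_le h
  have hpow : Nat.card G = 2 ^ (Nat.card G).primeFactorsList.length := by
    apply Nat.eq_prime_pow_of_unique_prime_dvd (by omega)
    intro d hd hdm
    rcases F5.primes h hd hdm with h6 | h6 | h6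
    · exact h6
    · exact absurd (h6 ▸ hdm) h3
    · exact absurd (h6 ▸ hdm) h5
  set k := (Nat.card G).primeFactorsList.length with hk
  have hk6 : 6 ≤ k := by
    by_contra hlt
    push Not at hlt
    have : 2 ^ k ≤ 2 ^ 5 := Nat.pow_le_pow_right (by norm_num) (by omega)
    omega
  have h64 : 64 ∣ Nat.card G := by
    rw [hpow]
    exact (pow_dvd_pow 2 hk6 : 2 ^ 6 ∣ _)
  have hs32 : sN G 32 = 0 := by
    have h7 := totient_dvd (G := G) 32
    have h8 : Nat.totient 32 = 16 := by decide
    rw [h8] at h7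
    rcases F5.ge3 h (m := 32) (by norm_num) with h9 | h9 | h9
    · exact h9
    · rw [h9] at h7; omega
    · rw [h9] at h7; omega
  have hs64 : sN G 64 = 0 := sN_dvd_zero (by norm_num : 32 ∣ 64) (by norm_num) hs32
  have hf := frob 64 h64
  have hdiv : Nat.divisors 64 = {1, 2, 4, 8, 16, 32, 64} := by decide
  rw [hdiv, Finset.sum_insert (by decide), Finset.sum_insert (by decide), Finset.sum_insert (by decide),
    Finset.sum_insert (by decide), Finset.sum_insert (by decide), Finset.sum_pair (by decide), sN_one,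
    F5.two h, hs32, hs64] at hf
  have h4 := F5.ge3 h (m := 4) (by norm_num)
  have h8 := F5.ge3 h (m := 8) (by norm_num)
  have h16 := F5.ge3 h (m := 16) (by norm_num)
  have hno20 : sN G 4 ≠ 20 ∧ sN G 8 ≠ 20 ∧ sN G 16 ≠ 20 := by omega
  obtain ⟨m, hm3, hm, hmd⟩ := F5.att h (t := 20) (Or.inl rfl)
  rw [hpow] at hmd
  obtain ⟨j, hj, rfl⟩ := (Nat.dvd_prime_pow Nat.prime_two).1 hmd
  rcases Nat.lt_or_ge j 5 with h10 | h10
  · interval_cases j
    · omega
    · omega
    · exact hno20.1 hm
    · exact hno20.2.1 hm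
    · exact hno20.2.2 hm
  · have := sN_dvd_zero (G := G) (a := 32) (b := 2 ^ j) (pow_dvd_pow 2 h10 : 2 ^ 5 ∣ _) (by positivity) hs32
    omega

theorem F5.five_case (h5 : 5 ∣ Nat.card G) (h3 : ¬ 3 ∣ Nat.card G) : False := by
  have : Fact (Nat.Prime 5) := ⟨by norm_num⟩
  have hs5 := F5.five h h5
  have h25 : 25 ∣ Nat.card G := by
    by_contra h25
    have hP : ∀ P : Sylow 5 G, Nat.card (P : Subgroup G) = 5 := fun P => by
      have := sylow_card (G := G) (p := 5) (a := 1) (by norm_num; exact h5) (by norm_num; exact h25) P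
      rw [this, pow_one]
    have hn : Nat.card (Sylow 5 G) = 6 := by
      have := H39.NseM11.cnt_prime hP
      rw [sN] at hs5
      omega
    have h1 := H21.SylowTools.card_sylow_dvd (G := G) 5
    rw [hn] at h1
    exact h3 ((by norm_num : 3 ∣ 6).trans h1)
  have hs25 : sN G 25 = 0 := by
    have h1 := frob 25 h25
    have hdiv : Nat.divisors 25 = {1, 5, 25} := by decide
    rw [hdiv, Finset.sum_insert (by decide), Finset.sum_pair (by decide), sN_one, hs5] at h1
    rcases F5.ge3 h (m := 25) (by norm_num) with h4 | h4 | h4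
    · exact h4
    · rw [h4] at h1; omega
    · rw [h4] at h1; omega
  have h125 : ¬ 125 ∣ Nat.card G := by
    intro h125
    have h1 := frob 125 h125
    have hdiv : Nat.divisors 125 = {1, 5, 25, 125} := by decide
    have hs125 : sN G 125 = 0 := sN_dvd_zero (by norm_num : 25 ∣ 125) (by norm_num) hs25
    rw [hdiv, Finset.sum_insert (by decide), Finset.sum_insert (by decide), Finset.sum_pair (by decide), sN_one, hs5, hs25, hs125] at h1
    omega
  obtain ⟨P⟩ : Nonempty (Sylow 5 G) := inferInstance
  have hPc : Nat.card (P : Subgroup G) = 25 := by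
    have := sylow_card (G := G) (p := 5) (a := 2) (by norm_num; exact h25) (by norm_num; exact h125) P
    rw [this]; norm_num
  have hPo : ∀ y ∈ (P : Subgroup G), y ≠ 1 → orderOf y = 5 := by
    intro y hy hy1
    have h1 : orderOf y ∣ 5 ^ 2 := by
      have := _root_.orderOf_dvd_natCard (⟨y, hy⟩ : (P : Subgroup G))
      rw [Subgroup.orderOf_mk, hPc] at this
      exact this
    obtain ⟨k, hk, hk2⟩ := (Nat.dvd_prime_pow Nat.prime_five).1 h1
    interval_cases k
    · exact absurd (orderOf_eq_one_iff.1 hk2) hy1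
    · exact hk2
    · exact absurd hs25 (sN_pos hk2).ne'
  -- all elements of order 5 are in `P`
  have hall : ∀ y : G, orderOf y = 5 → y ∈ (P : Subgroup G) := by
    classical
    let _ := Fintype.ofFinite G
    let F : {y : (P : Subgroup G) // y ≠ 1} → {g : G // orderOf g = 5} := fun y => ⟨y.1.1, hPo _ y.1.2 (fun h1 => y.2 (Subtype.ext h1))⟩
    have hF : Function.Injective F := by
      intro a b hab
      have h7 : (a.1 : G) = (b.1 : G) := congrArg (fun z : {g : G // orderOf g = 5} => (z : G)) hab
      exact Subtype.ext (Subtype.ext h7)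
    have hc1 : Nat.card {y : (P : Subgroup G) // y ≠ 1} = 24 := by
      let _ := Fintype.ofFinite (P : Subgroup G)
      rw [Nat.card_eq_fintype_card, Fintype.card_subtype_compl, ← Nat.card_eq_fintype_card, hPc]
      simp
    have hbij : Function.Bijective F := by
      rw [Nat.bijective_iff_injective_and_card]
      exact ⟨hF, hc1.trans hs5.symm⟩
    intro y hy
    obtain ⟨a, ha⟩ := hbij.2 ⟨y, hy⟩
    have : (a.1 : G) = y := congrArg (fun z : {g : G // orderOf g = 5} => (z : G)) ha
    rw [← this]
    exact a.1.2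
  have hconj : ∀ g y : G, y ∈ (P : Subgroup G) → g * y * g⁻¹ ∈ (P : Subgroup G) := by
    intro g y hy
    by_cases hy1 : y = 1
    · rw [hy1, mul_one, mul_inv_cancel]; exact one_mem _
    · exact hall _ (((MulAut.conj g).orderOf_eq y).trans (hPo y hy hy1))
  have hcomm : ∀ a ∈ (P : Subgroup G), ∀ b ∈ (P : Subgroup G), a * b = b * a := by
    have : IsMulCommutative (P : Subgroup G) := IsPGroup.isMulCommutative_of_card_eq_prime_sq (p := 5) (by rw [hPc]; norm_num)
    intro a ha b hb
    exact congrArg Subtype.val (mul_comm' (⟨a, ha⟩ : (P : Subgroup G)) ⟨b, hb⟩)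
  -- every involution centralizes an element of order 5
  have hinv : ∀ t : G, orderOf t = 2 → ∃ y ∈ (P : Subgroup G), orderOf y = 5 ∧ t * y = y * t := by
    intro t ht
    by_contra hne
    push Not at hne
    have htt : t * t = 1 := by have := pow_orderOf_eq_one t; rwa [ht, pow_two] at this
    have htinv : t⁻¹ = t := inv_eq_of_mul_eq_one_left htt
    have hinvert : ∀ y ∈ (P : Subgroup G), t * y * t = y⁻¹ := by
      intro y hy
      have h1 : t * y * t ∈ (P : Subgroup G) := by
        have := hconj t y hy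
        rwa [htinv] at this
      set z := y * (t * y * t) with hz
      have hzP : z ∈ (P : Subgroup G) := mul_mem hy h1
      have hzt : t * z = z * t := by
        have h2 : t * z = (t * y * t) * y * t := by
          rw [hz]
          calc t * (y * (t * y * t)) = t * y * t * y * t := by group
            _ = _ := rfl
        rw [h2, hcomm _ h1 y hy]
      by_cases hz1 : z = 1
      · exact eq_inv_of_mul_eq_one_right hz1
      · exact absurd hzt (hne z hzP (hPo z hzP hz1))
    -- 25 involutions
    have h2t : t ∉ (P : Subgroup G) := by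
      intro htP
      have ht1 : t ≠ 1 := by rintro rfl; rw [orderOf_one] at ht; omega
      have := hPo t htP ht1
      omega
    let F : ↥(P : Subgroup G) → {g : G // orderOf g = 2} := fun y => ⟨t * y, by
      have h1 : (t * (y : G)) ^ 2 = 1 := by
        rw [pow_two]
        calc t * (y : G) * (t * y) = (t * y * t) * y := by group
          _ = 1 := by rw [hinvert y y.2, inv_mul_cancel]
      have h2 : t * (y : G) ≠ 1 := by
        intro h3
        apply h2t
        have : t = (y : G)⁻¹ := eq_inv_of_mul_eq_one_left h3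
        rw [this]; exact inv_mem y.2
      exact orderOf_eq_prime h1 h2⟩
    have hF : Function.Injective F := by
      intro a b hab
      have h7 : t * (a : G) = t * b := congrArg (fun z : {g : G // orderOf g = 2} => (z : G)) hab
      exact Subtype.ext (mul_left_cancel h7)
    have h7 := Nat.card_le_card_of_injective F hF
    rw [hPc] at h7
    change 25 ≤ sN G 2 at h7
    rw [F5.two h] at h7
    omega
  -- too many elements of order 10
  choose! f hf hf5 hft using hinv
  have ho10 : ∀ t : G, orderOf t = 2 → orderOf (t * f t) = 10 ∧ orderOf (t * (f t)⁻¹) = 10 := by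
    intro t ht
    constructor
    · have hc : Commute t (f t) := hft t ht
      rw [hc.orderOf_mul_eq_mul_orderOf_of_coprime (by rw [ht, hf5 t ht]; norm_num), ht, hf5 t ht]
    · have hc : Commute t (f t)⁻¹ := (show Commute t (f t) from hft t ht).inv_right
      rw [hc.orderOf_mul_eq_mul_orderOf_of_coprime (by rw [ht, orderOf_inv, hf5 t ht]; norm_num), ht, orderOf_inv, hf5 t ht]
  have hpow5 : ∀ t z : G, orderOf t = 2 → orderOf z = 5 → t * z = z * t → (t * z) ^ 5 = t := by
    intro t z ht hz htz
    have hc : Commute t z := htz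
    have h1 : z ^ 5 = 1 := by rw [← hz]; exact pow_orderOf_eq_one z
    have h2 : t ^ 2 = 1 := by rw [← ht]; exact pow_orderOf_eq_one t
    rw [hc.mul_pow, h1, mul_one, show (5 : ℕ) = 2 * 2 + 1 by norm_num, pow_succ, pow_mul, h2, one_pow, one_mul]
  let F : {g : G // orderOf g = 2} × Bool → {g : G // orderOf g = 10} := fun x =>
    if x.2 then ⟨x.1.1 * f x.1.1, (ho10 _ x.1.2).1⟩ else ⟨x.1.1 * (f x.1.1)⁻¹, (ho10 _ x.1.2).2⟩
  have hF5 : ∀ x, ((F x : G)) ^ 5 = x.1.1 := by
    rintro ⟨⟨t, ht⟩, b⟩
    cases b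
    · exact hpow5 t _ ht (by rw [orderOf_inv, hf5 t ht]) (show Commute t (f t) from hft t ht).inv_right
    · exact hpow5 t _ ht (hf5 t ht) (hft t ht)
  have hF : Function.Injective F := by
    rintro ⟨⟨t, ht⟩, b⟩ ⟨⟨t', ht'⟩, b'⟩ hab
    have h1 := hF5 ⟨⟨t, ht⟩, b⟩
    rw [hab, hF5] at h1
    have h2 : t' = t := h1
    subst h2
    have hne : t' * f t' ≠ t' * (f t')⁻¹ := by
      intro h3
      have h4 : f t' = (f t')⁻¹ := mul_left_cancel h3
      have h5 : (f t') ^ 2 = 1 := by rw [pow_two]; nth_rewrite 1 [h4]; exact inv_mul_cancel _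
      have h6 := orderOf_dvd_of_pow_eq_one h5
      rw [hf5 t' ht'] at h6
      omega
    cases b <;> cases b'
    · rfl
    · exact absurd (congrArg Subtype.val hab).symm hne
    · exact absurd (congrArg Subtype.val hab) hne
    · rfl
  have h7 := Nat.card_le_card_of_injective F hF
  rw [Nat.card_prod] at h7
  change sN G 2 * Nat.card Bool ≤ sN G 10 at h7
  rw [F5.two h, Nat.card_eq_fintype_card, Fintype.card_bool] at h7
  rcases F5.ge3 h (m := 10) (by norm_num) with h8 | h8 | h8 <;> omega

theorem F5.card60 : Nat.card G = 60 := by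
  by_cases h3 : 3 ∣ Nat.card G
  · exact F5.card_of_three h h3
  · exfalso
    by_cases h5 : 5 ∣ Nat.card G
    · exact F5.five_case h h5 h3
    · exact F5.not_two_group h h5 h3

end five

end H15.Nse
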