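import Mathlib
import Cfsg.Agent.Lib.H15.Nse5

/-! Groups with the same-order class sizes of `A₆`: the order; simplicity of the groups of order 60 and 360. -/

set_option autoImplicit false
open Subgroup

namespace H15.Nse

universe u
variable {G : Type u} [Group G] [Finite G]

section six
variable (h : HasSet G {1, 45, 80, 90, 144})
include h

theorem F6.ge3 {m : ℕ} (hm : 3 ≤ m) : sN G m = 0 ∨ sN G m = 80 ∨ sN G m = 90 ∨ sN G m = 144 := by
  have h1 := two_dvd_sN (G := G) hm
  rcases h.1 m with h2 | h2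
  · exact Or.inl h2
  · simp only [Finset.mem_insert, Finset.mem_singleton] at h2
    omega

theorem F6.two : sN G 2 = 45 := by
  obtain ⟨m, hm⟩ := h.2 45 (by simp)
  rcases Nat.lt_or_ge m 3 with h1 | h1
  · interval_cases m
    · rw [sN_zero] at hm; omega
    · rw [sN_one] at hm; omega
    · exact hm
  · rcases F6.ge3 h h1 with h2 | h2 | h2 | h2 <;> omega

theorem F6.even : 2 ∣ Nat.card G := dvd_card_of_sN (by rw [F6.two h]; norm_num)

theorem F6.att {t : ℕ} (ht : t = 80 ∨ t = 90 ∨ t = 144) : ∃ m, 3 ≤ m ∧ sN G m = t := by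
  obtain ⟨m, hm⟩ := h.2 t (by rcases ht with rfl | rfl | rfl <;> simp)
  refine ⟨m, ?_, hm⟩
  by_contra hlt
  push Not at hlt
  interval_cases m
  · rw [sN_zero] at hm; omega
  · rw [sN_one] at hm; omega
  · rw [F6.two h] at hm; omega

theorem F6.card_ge : 360 ≤ Nat.card G := by
  obtain ⟨a, ha3, ha⟩ := F6.att h (t := 80) (Or.inl rfl)
  obtain ⟨b, hb3, hb⟩ := F6.att h (t := 90) (Or.inr (Or.inl rfl))
  obtain ⟨c, hc3, hc⟩ := F6.att h (t := 144) (Or.inr (Or.inr rfl))
  have h1 := sum_le (G := G) {1, 2, a, b, c}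
  have hab : a ≠ b := by rintro rfl; omega
  have hac : a ≠ c := by rintro rfl; omega
  have hbc : b ≠ c := by rintro rfl; omega
  rw [Finset.sum_insert (by simp; omega), Finset.sum_insert (by simp; omega), Finset.sum_insert (by simp; omega),
    Finset.sum_pair hbc, sN_one, F6.two h, ha, hb, hc] at h1
  omega

theorem F6.three (h3 : 3 ∣ Nat.card G) : sN G 3 = 80 := by
  have h1 := frob_prime Nat.prime_three h3
  have h2 := sN_prime_pos Nat.prime_three h3
  rcases F6.ge3 h (m := 3) le_rfl with h4 | h4 | h4 | h4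
  · exact absurd h4 h2
  · exact h4
  · rw [h4] at h1; omega
  · rw [h4] at h1; omega

theorem F6.five (h5 : 5 ∣ Nat.card G) : sN G 5 = 144 := by
  have h1 := frob_prime Nat.prime_five h5
  have h2 := sN_prime_pos Nat.prime_five h5
  rcases F6.ge3 h (m := 5) (by norm_num) with h4 | h4 | h4 | h4
  · exact absurd h4 h2
  · rw [h4] at h1; omega
  · rw [h4] at h1; omega
  · exact h4

theorem F6.seven (h7 : 7 ∣ Nat.card G) : sN G 7 = 90 := by
  have h1 := frob_prime (by norm_num : Nat.Prime 7) h7
  have h2 := sN_prime_pos (by norm_num : Nat.Prime 7) h7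
  rcases F6.ge3 h (m := 7) (by norm_num) with h4 | h4 | h4 | h4
  · exact absurd h4 h2
  · rw [h4] at h1; omega
  · exact h4
  · rw [h4] at h1; omega

theorem F6.primes {p : ℕ} (hp : p.Prime) (hd : p ∣ Nat.card G) : p = 2 ∨ p = 3 ∨ p = 5 ∨ p = 7 := by
  by_cases h2 : p = 2
  · exact Or.inl h2
  · right
    have h3 : 3 ≤ p := by have := hp.two_le; omega
    have h4 := frob_prime hp hd
    have h5 := sN_prime_pos hp hd
    have h7 := totient_dvd (G := G) p
    rw [Nat.totient_prime hp] at h7
    rcases F6.ge3 h h3 with h6 | h6 | h6 | h6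
    · exact absurd h6 h5
    · rw [h6] at h4
      have h8 : p ∣ 3 ^ 4 := h4
      exact Or.inl ((Nat.prime_dvd_prime_iff_eq hp Nat.prime_three).1 (hp.dvd_of_dvd_pow h8))
    · rw [h6] at h4 h7
      have h8 : p ∈ Nat.divisors 91 := Nat.mem_divisors.2 ⟨h4, by norm_num⟩
      have h9 : ∀ d ∈ Nat.divisors 91, 3 ≤ d → d - 1 ∣ 90 → d = 7 ∨ d = 91 := by decide +kernel
      rcases h9 p h8 h3 h7 with h10 | h10
      · exact Or.inr (Or.inr h10)
      · rw [h10] at hp; exact absurd hp (by norm_num)
    · rw [h6] at h4 h7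
      have h8 : p ∈ Nat.divisors 145 := Nat.mem_divisors.2 ⟨h4, by norm_num⟩
      have h9 : ∀ d ∈ Nat.divisors 145, 3 ≤ d → d - 1 ∣ 144 → d = 5 ∨ d = 145 := by decide +kernel
      rcases h9 p h8 h3 h7 with h10 | h10
      · exact Or.inr (Or.inl h10)
      · rw [h10] at hp; exact absurd hp (by norm_num)

theorem F6.four (h4 : 4 ∣ Nat.card G) : sN G 4 = 90 := by
  have h1 := frob 4 h4
  have hdiv : Nat.divisors 4 = {1, 2, 4} := by decide
  rw [hdiv, Finset.sum_insert (by decide), Finset.sum_pair (by decide), sN_one, F6.two h] at h1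
  rcases F6.ge3 h (m := 4) (by norm_num) with h5 | h5 | h5 | h5 <;> omega

theorem F6.eight' : sN G 8 = 0 ∨ sN G 8 = 80 ∨ sN G 8 = 144 := by
  have h7 := totient_dvd (G := G) 8
  have h8 : Nat.totient 8 = 4 := by decide
  rw [h8] at h7
  rcases F6.ge3 h (m := 8) (by norm_num) with h5 | h5 | h5 | h5 <;> omega

theorem F6.not16 : ¬ 16 ∣ Nat.card G := by
  intro h16
  have h4 := F6.four h ((by norm_num : 4 ∣ 16).trans h16)
  have h1 := frob 16 h16
  have hdiv : Nat.divisors 16 = {1, 2, 4, 8, 16} := by decide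
  have h7 := totient_dvd (G := G) 16
  have h8 : Nat.totient 16 = 8 := by decide
  rw [h8] at h7
  rw [hdiv, Finset.sum_insert (by decide), Finset.sum_insert (by decide), Finset.sum_insert (by decide),
    Finset.sum_pair (by decide), sN_one, F6.two h, h4] at h1
  have h5 := F6.eight' h
  rcases F6.ge3 h (m := 16) (by norm_num) with h6 | h6 | h6 | h6 <;> omega

theorem F6.no8 : sN G 8 = 0 := by
  by_contra hne
  have h8 : 8 ∣ Nat.card G := dvd_card_of_sN hne
  have hS : ∀ P : Sylow 2 G, Nat.card (P : Subgroup G) = 2 ^ 3 :=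
    sylow_card (by norm_num; exact h8) (by norm_num; exact F6.not16 h)
  obtain ⟨n, hn, hn2⟩ := sylow_two_data hS (by norm_num; exact hne)
  have h2 : (2 ^ 3 : ℕ).totient = 4 := by decide
  rw [h2] at hn2
  norm_num at hn2
  have h5 := F6.eight' h
  rw [Nat.odd_iff] at hn
  omega

theorem F6.no9 : sN G 9 = 0 := by
  have : Fact (Nat.Prime 3) := ⟨by norm_num⟩
  by_contra hne
  have h9 : 9 ∣ Nat.card G := dvd_card_of_sN hne
  have hs3 := F6.three h ((by norm_num : 3 ∣ 9).trans h9)
  have h7 := totient_dvd (G := G) 9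
  have h8 : Nat.totient 9 = 6 := by decide
  rw [h8] at h7
  have hs9 : sN G 9 = 90 ∨ sN G 9 = 144 := by
    rcases F6.ge3 h (m := 9) (by norm_num) with h5 | h5 | h5 | h5 <;> omega
  have h27 : ¬ 27 ∣ Nat.card G := by
    intro h27
    have h1 := frob 27 h27
    have hdiv : Nat.divisors 27 = {1, 3, 9, 27} := by decide
    have h7' := totient_dvd (G := G) 27
    have h8' : Nat.totient 27 = 18 := by decide
    rw [h8'] at h7'
    rw [hdiv, Finset.sum_insert (by decide), Finset.sum_insert (by decide), Finset.sum_pair (by decide), sN_one, hs3] at h1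
    rcases F6.ge3 h (m := 27) (by norm_num) with h6 | h6 | h6 | h6 <;> omega
  have hP : ∀ P : Sylow 3 G, Nat.card (P : Subgroup G) = 3 ^ 2 := sylow_card (by norm_num; exact h9) (by norm_num; exact h27)
  obtain ⟨h4, -⟩ := sN_cyclic_sylow (G := G) (p := 3) (k := 2) hP (by norm_num; omega)
  have h6 : (3 ^ 2 : ℕ).totient = 6 := by decide
  rw [h6] at h4
  norm_num at h4
  have h10 := card_sylow_modEq_one 3 G
  have h11 : Nat.card (Sylow 3 G) % 3 = 1 := h10
  omega

theorem F6.not243 : ¬ 243 ∣ Nat.card G := by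
  intro hd
  have hs3 := F6.three h ((by norm_num : 3 ∣ 243).trans hd)
  have h1 := frob 243 hd
  have hdiv : Nat.divisors 243 = {1, 3, 9, 27, 81, 243} := by decide +kernel
  have h9 := F6.no9 h
  have h27 : sN G 27 = 0 := sN_dvd_zero (by norm_num : 9 ∣ 27) (by norm_num) h9
  have h81 : sN G 81 = 0 := sN_dvd_zero (by norm_num : 9 ∣ 81) (by norm_num) h9
  have h243 : sN G 243 = 0 := sN_dvd_zero (by norm_num : 9 ∣ 243) (by norm_num) h9
  rw [hdiv, Finset.sum_insert (by decide), Finset.sum_insert (by decide), Finset.sum_insert (by decide),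
    Finset.sum_insert (by decide), Finset.sum_pair (by decide), sN_one, hs3, h9, h27, h81, h243] at h1
  omega

theorem F6.not25 : ¬ 25 ∣ Nat.card G := by
  intro hd
  have : Fact (Nat.Prime 5) := ⟨by norm_num⟩
  have hs5 := F6.five h ((by norm_num : 5 ∣ 25).trans hd)
  have h1 := frob 25 hd
  have hdiv : Nat.divisors 25 = {1, 5, 25} := by decide
  rw [hdiv, Finset.sum_insert (by decide), Finset.sum_pair (by decide), sN_one, hs5] at h1
  have hs25 : sN G 25 = 80 := by
    rcases F6.ge3 h (m := 25) (by norm_num) with h6 | h6 | h6 | h6 <;> omega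
  have h125 : ¬ 125 ∣ Nat.card G := by
    intro h125
    have h2 := frob 125 h125
    have hdiv' : Nat.divisors 125 = {1, 5, 25, 125} := by decide +kernel
    have h7 := totient_dvd (G := G) 125
    have h8 : Nat.totient 125 = 100 := by decide +kernel
    rw [h8] at h7
    rw [hdiv', Finset.sum_insert (by decide), Finset.sum_insert (by decide), Finset.sum_pair (by decide), sN_one, hs5, hs25] at h2
    rcases F6.ge3 h (m := 125) (by norm_num) with h6 | h6 | h6 | h6 <;> omega
  have hP : ∀ P : Sylow 5 G, Nat.card (P : Subgroup G) = 5 ^ 2 := sylow_card (by norm_num; exact hd) (by norm_num; exact h125)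
  obtain ⟨h4, -⟩ := sN_cyclic_sylow (G := G) (p := 5) (k := 2) hP (by norm_num; omega)
  have h6 : (5 ^ 2 : ℕ).totient = 20 := by decide
  rw [h6] at h4
  norm_num at h4
  have h11 : Nat.card (Sylow 5 G) % 5 = 1 := card_sylow_modEq_one 5 G
  omega

theorem F6.not7 : ¬ 7 ∣ Nat.card G := by
  intro hd
  have : Fact (Nat.Prime 7) := ⟨by norm_num⟩
  have hs7 := F6.seven h hd
  have h49 : ¬ 49 ∣ Nat.card G := by
    intro h49
    have h2 := frob 49 h49
    have hdiv' : Nat.divisors 49 = {1, 7, 49} := by decide +kernel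
    have h7 := totient_dvd (G := G) 49
    have h8 : Nat.totient 49 = 42 := by decide +kernel
    rw [h8] at h7
    rw [hdiv', Finset.sum_insert (by decide), Finset.sum_pair (by decide), sN_one, hs7] at h2
    rcases F6.ge3 h (m := 49) (by norm_num) with h6 | h6 | h6 | h6 <;> omega
  have hP : ∀ P : Sylow 7 G, Nat.card (P : Subgroup G) = 7 := fun P => by
    have := sylow_card (G := G) (p := 7) (a := 1) (by norm_num; exact hd) (by norm_num; exact h49) P
    rw [this, pow_one]
  have hn : Nat.card (Sylow 7 G) = 15 := by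
    have := H39.NseM11.cnt_prime hP
    rw [sN] at hs7
    omega
  have h5 : 5 ∣ Nat.card G := by
    have h1 := H21.SylowTools.card_sylow_dvd (G := G) 7
    rw [hn] at h1
    exact (by norm_num : 5 ∣ 15).trans h1
  have hs5 := F6.five h h5
  obtain ⟨x, hx⟩ := exists_prime_orderOf_dvd_card' (G := G) 7 hd
  have h1 := H39.NseM11.cnt_modEq hx 5
  have h2 : Nat.card {g : G // orderOf g = 5 ∧ x * g = g * x} ≠ 0 := by
    intro h0
    rw [h0] at h1
    change sN G 5 ≡ 0 [MOD 7] at h1
    rw [hs5] at h1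
    exact absurd h1 (by decide)
  have h3 : Nonempty {g : G // orderOf g = 5 ∧ x * g = g * x} := by
    by_contra hne
    rw [not_nonempty_iff] at hne
    exact h2 (Nat.card_of_isEmpty)
  obtain ⟨g, hg, hxg⟩ := h3
  have hxg' : Commute x g := hxg
  have ho : orderOf (x * g) = 35 := by
    rw [hxg'.orderOf_mul_eq_mul_orderOf_of_coprime (by rw [hx, hg]; norm_num), hx, hg]
  have h6 := (sN_pos ho).ne'
  have h7 := card_sylow_dvd_sN hP (n := 35) (by norm_num)
  have h8 := totient_dvd (G := G) 35
  have h9 : Nat.totient 35 = 24 := by decide +kernel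
  rw [hn] at h7
  rw [h9] at h8
  rcases F6.ge3 h (m := 35) (by norm_num) with h10 | h10 | h10 | h10 <;> omega

theorem F6.five_dvd : 5 ∣ Nat.card G := by
  by_contra h5
  have hge := F6.card_ge h
  have hd : Nat.card G ∣ 648 := by
    rw [Nat.dvd_iff_prime_pow_dvd_dvd]
    intro p k hp hk
    rcases Nat.eq_zero_or_pos k with rfl | hk0
    · rw [pow_zero]; exact one_dvd _
    have hpd : p ∣ Nat.card G := (dvd_pow_self p hk0.ne').trans hk
    rcases F6.primes h hp hpd with rfl | rfl | rfl | rfl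
    · have : k ≤ 3 := by
        by_contra hlt
        push Not at hlt
        exact F6.not16 h ((pow_dvd_pow 2 hlt : 2 ^ 4 ∣ _).trans hk)
      exact (pow_dvd_pow 2 this).trans (by norm_num)
    · have : k ≤ 4 := by
        by_contra hlt
        push Not at hlt
        exact F6.not243 h ((pow_dvd_pow 3 hlt : 3 ^ 5 ∣ _).trans hk)
      exact (pow_dvd_pow 3 this).trans (by norm_num)
    · exact absurd hpd h5
    · exact absurd hpd (F6.not7 h)
  have h648 : Nat.card G = 648 := by
    obtain ⟨c, hc⟩ := hd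
    have hc2 : c < 2 := by
      by_contra hlt
      push Not at hlt
      nlinarith
    interval_cases c <;> omega
  have h0 := sum_card (G := G)
  rw [h648] at h0
  have h1 : ∑ m ∈ ({1, 2, 3, 4, 6, 12} : Finset ℕ), sN G m = ∑ m ∈ Nat.divisors 648, sN G m := by
    apply Finset.sum_subset
    · decide +kernel
    · intro m hm hm'
      have h2 : ∀ d ∈ Nat.divisors 648, d ∉ ({1, 2, 3, 4, 6, 12} : Finset ℕ) → (8 ∣ d ∨ 9 ∣ d) ∧ d ≠ 0 := by decide +kernel
      obtain ⟨h3, h4⟩ := h2 m hm hm'
      rcases h3 with h3 | h3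
      · exact sN_dvd_zero h3 h4 (F6.no8 h)
      · exact sN_dvd_zero h3 h4 (F6.no9 h)
  rw [h0, Finset.sum_insert (by decide), Finset.sum_insert (by decide), Finset.sum_insert (by decide),
    Finset.sum_insert (by decide), Finset.sum_pair (by decide), sN_one, F6.two h,
    F6.three h (by rw [h648]; norm_num), F6.four h (by rw [h648]; norm_num)] at h1
  have h6 := F6.ge3 h (m := 6) (by norm_num)
  have h12 := F6.ge3 h (m := 12) (by norm_num)
  omega

theorem F6.syl5 : (∀ P : Sylow 5 G, Nat.card (P : Subgroup G) = 5) ∧ Nat.card (Sylow 5 G) = 36 := by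
  have h5 := F6.five_dvd h
  have : Fact (Nat.Prime 5) := ⟨by norm_num⟩
  have hP : ∀ P : Sylow 5 G, Nat.card (P : Subgroup G) = 5 := fun P => by
    have := sylow_card (G := G) (p := 5) (a := 1) (by norm_num; exact h5) (by norm_num; exact F6.not25 h) P
    rw [this, pow_one]
  refine ⟨hP, ?_⟩
  have h1 := H39.NseM11.cnt_prime hP
  have hs5 := F6.five h h5
  rw [sN] at hs5
  omega

theorem F6.cent5 {x : G} (hx : orderOf x = 5) : Nat.card (centralizer ({x} : Set G)) = 5 := by
  have h5 := F6.five_dvd h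
  have : Fact (Nat.Prime 5) := ⟨by norm_num⟩
  obtain ⟨hP, hn⟩ := F6.syl5 h
  have h36 : 36 ∣ Nat.card G := by
    have h1 := H21.SylowTools.card_sylow_dvd (G := G) 5
    rwa [hn] at h1
  have hs5 := F6.five h h5
  have hs3 := F6.three h ((by norm_num : 3 ∣ 36).trans h36)
  refine cent_card hP (by norm_num; exact F6.not25 h) ?_ hx
  intro q hq hqG hq5
  rcases F6.primes h hq hqG with rfl | rfl | rfl | rfl
  · have h1 := card_sylow_dvd_sN hP (n := 10) (by norm_num)
    rw [hn] at h1
    have h10 : 10 ∣ Nat.card G := by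
      have := Nat.Coprime.mul_dvd_of_dvd_of_dvd (by norm_num : Nat.Coprime 2 5) hqG h5
      exact this
    have h2 := frob 10 h10
    have hdiv : Nat.divisors 10 = {1, 2, 5, 10} := by decide +kernel
    rw [hdiv, Finset.sum_insert (by decide), Finset.sum_insert (by decide), Finset.sum_pair (by decide), sN_one,
      F6.two h, hs5] at h2
    change sN G 10 = 0
    rcases F6.ge3 h (m := 10) (by norm_num) with h4 | h4 | h4 | h4 <;> omega
  · have h1 := card_sylow_dvd_sN hP (n := 15) (by norm_num)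
    rw [hn] at h1
    have h15 : 15 ∣ Nat.card G := by
      have := Nat.Coprime.mul_dvd_of_dvd_of_dvd (by norm_num : Nat.Coprime 3 5) hqG h5
      exact this
    have h2 := frob 15 h15
    have hdiv : Nat.divisors 15 = {1, 3, 5, 15} := by decide +kernel
    rw [hdiv, Finset.sum_insert (by decide), Finset.sum_insert (by decide), Finset.sum_pair (by decide), sN_one,
      hs3, hs5] at h2
    change sN G 15 = 0
    rcases F6.ge3 h (m := 15) (by norm_num) with h4 | h4 | h4 | h4 <;> omega
  · exact absurd rfl hq5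
  · exact absurd hqG (F6.not7 h)

theorem F6.card360 : Nat.card G = 360 := by
  have h5 := F6.five_dvd h
  have : Fact (Nat.Prime 5) := ⟨by norm_num⟩
  obtain ⟨hP, hn⟩ := F6.syl5 h
  obtain ⟨l, hl, hc⟩ := card_eq_of_cent hP (fun x hx => F6.cent5 h hx)
  rw [hn] at hc
  have h360 := F6.card_ge h
  have h16 := F6.not16 h
  have hl4 : l ≤ 4 := Nat.le_of_dvd (by norm_num) hl
  interval_cases l <;> omega

end six

/-! Simplicity -/

theorem dvd_card_set {p : ℕ} [hp : Fact p.Prime] {x : G} (hx : orderOf x = p) (S : Set G)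
    (hS : ∀ g ∈ S, x * g * x⁻¹ ∈ S) (hfix : ∀ g ∈ S, x * g ≠ g * x) : p ∣ Nat.card S := by
  classical
  let f : Function.End S := fun g => ⟨x * g * x⁻¹, hS g g.2⟩
  have hf : ∀ m : ℕ, ∀ g : S, ((f ^ m) g : G) = x ^ m * g * (x ^ m)⁻¹ := by
    intro m
    induction m with
    | zero =>
      intro g
      change (g : G) = x ^ 0 * g * (x ^ 0)⁻¹
      simp
    | succ m ih =>
      intro g
      rw [pow_succ', Function.End.mul_def]
      change x * ((f ^ m) g : G) * x⁻¹ = _
      rw [ih g]
      group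
  have h1 : f ^ p ^ 1 = 1 := by
    funext g
    apply Subtype.ext
    rw [hf, pow_one, ← hx, pow_orderOf_eq_one]
    change 1 * (g : G) * 1⁻¹ = g
    simp
  let _ := Fintype.ofFinite G
  have h2 := Equiv.Perm.card_fixedPoints_modEq (p := p) (n := 1) h1
  have h3 : Fintype.card f.fixedPoints = 0 := by
    rw [Fintype.card_eq_zero_iff]
    refine ⟨?_⟩
    rintro ⟨g, hg⟩
    have h4 := congrArg Subtype.val hg
    change x * g.1 * x⁻¹ = g.1 at h4
    rw [mul_inv_eq_iff_eq_mul] at h4
    exact hfix _ g.2 h4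
  rw [h3] at h2
  rw [Nat.card_eq_fintype_card]
  exact (Nat.modEq_zero_iff_dvd).1 h2

theorem sN_normal {p : ℕ} [hp : Fact p.Prime] {x : G} (hx : orderOf x = p)
    (hC : Nat.card (centralizer ({x} : Set G)) = p) {N : Subgroup G} (hN : N.Normal) (hpN : ¬ p ∣ Nat.card N)
    {m : ℕ} (hm : m ≠ 1) : p ∣ sN N m := by
  have h1 := dvd_card_set hx {g : G | g ∈ N ∧ orderOf g = m}
    (fun g hg => ⟨hN.conj_mem g hg.1 x, ((MulAut.conj x).orderOf_eq g).trans hg.2⟩) (by
      rintro g ⟨hgN, hg⟩ hc
      have h3 : orderOf (⟨g, mem_centralizer_singleton_iff.2 hc.symm⟩ : centralizer ({x} : Set G)) ∣ p := by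
        rw [← hC]; exact _root_.orderOf_dvd_natCard _
      rw [Subgroup.orderOf_mk, hg] at h3
      rcases (Nat.dvd_prime hp.out).1 h3 with h4 | h4
      · exact hm h4
      · apply hpN
        have := _root_.orderOf_dvd_natCard (⟨g, hgN⟩ : N)
        rwa [Subgroup.orderOf_mk, hg, h4] at this)
  have h2 : Nat.card {g : G | g ∈ N ∧ orderOf g = m} = sN N m :=
    Nat.card_congr ⟨fun g => ⟨⟨g.1, g.2.1⟩, by rw [Subgroup.orderOf_mk]; exact g.2.2⟩,
      fun g => ⟨g.1.1, g.1.2, by rw [Subgroup.orderOf_coe]; exact g.2⟩, fun g => rfl, fun g => rfl⟩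
  rwa [h2] at h1

theorem card_normal {p : ℕ} [hp : Fact p.Prime] {x : G} (hx : orderOf x = p)
    (hC : Nat.card (centralizer ({x} : Set G)) = p) {N : Subgroup G} (hN : N.Normal) (hpN : ¬ p ∣ Nat.card N) :
    p ∣ Nat.card N - 1 := by
  have h0 := sum_card (G := N)
  have hd1 : 1 ∈ (Nat.card N).divisors := Nat.mem_divisors.2 ⟨one_dvd _, Nat.card_pos.ne'⟩
  rw [← Finset.add_sum_erase _ _ hd1, sN_one] at h0
  have h1 : p ∣ ∑ m ∈ (Nat.card N).divisors.erase 1, sN N m := by
    apply Finset.dvd_sum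
    intro m hm
    exact sN_normal hx hC hN hpN (Finset.mem_erase.1 hm).1
  rw [← h0, Nat.add_sub_cancel_left]
  exact h1

theorem all_mem {p : ℕ} [hp : Fact p.Prime] {N : Subgroup G} (hN : N.Normal) (hi : ¬ p ∣ N.index) {y : G}
    (hy : orderOf y = p) : y ∈ N := by
  rw [← QuotientGroup.eq_one_iff, ← orderOf_eq_one_iff]
  have h1 : orderOf (y : G ⧸ N) ∣ p := by
    rw [← hy]
    exact orderOf_map_dvd (QuotientGroup.mk' N) y
  have h2 : orderOf (y : G ⧸ N) ∣ N.index := by
    rw [Subgroup.index_eq_card]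
    exact _root_.orderOf_dvd_natCard _
  rcases (Nat.dvd_prime hp.out).1 h1 with h3 | h3
  · exact h3
  · exact absurd (h3 ▸ h2) hi

theorem sN_all {N : Subgroup G} {m : ℕ} (hall : ∀ y : G, orderOf y = m → y ∈ N) : sN N m = sN G m :=
  Nat.card_congr ⟨fun g => ⟨g.1.1, by rw [Subgroup.orderOf_coe]; exact g.2⟩,
    fun g => ⟨⟨g.1, hall g.1 g.2⟩, by rw [Subgroup.orderOf_mk]; exact g.2⟩, fun g => rfl, fun g => rfl⟩

theorem simple60 (hG : Nat.card G = 60) (h3 : sN G 3 = 20) (h5 : sN G 5 = 24)
    (hC : ∀ x : G, orderOf x = 5 → Nat.card (centralizer ({x} : Set G)) = 5) : IsSimpleGroup G := by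
  have : Nontrivial G := Finite.one_lt_card_iff_nontrivial.1 (by rw [hG]; norm_num)
  have : Fact (Nat.Prime 5) := ⟨by norm_num⟩
  have : Fact (Nat.Prime 3) := ⟨by norm_num⟩
  refine ⟨fun N hN => ?_⟩
  have hci := Subgroup.card_mul_index N
  have hNd := Subgroup.card_subgroup_dvd_card N
  rw [hG] at hci hNd
  have hN0 : 0 < Nat.card N := Nat.card_pos
  have hi0 : 0 < N.index := Nat.pos_of_ne_zero (by intro h0; rw [h0] at hci; omega)
  by_cases h5N : 5 ∣ Nat.card N
  · right
    have hi5 : ¬ 5 ∣ N.index := by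
      rintro ⟨c, hc⟩
      obtain ⟨d, hd⟩ := h5N
      rw [hc, hd] at hci
      have : 25 * (d * c) = 60 := by rw [← hci]; ring
      omega
    have h5a := sN_all (N := N) (fun y hy => all_mem (p := 5) hN hi5 hy)
    have hle := sum_le (G := N) {1, 5}
    rw [Finset.sum_pair (by decide), sN_one, h5a, h5] at hle
    have hi2 : N.index ≤ 2 := by
      by_contra hlt
      push Not at hlt
      nlinarith
    have h3a := sN_all (N := N) (m := 3) (fun y hy => all_mem (p := 3) hN (fun h => by have := Nat.le_of_dvd hi0 h; omega) hy)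
    have hle2 := sum_le (G := N) {1, 3, 5}
    rw [Finset.sum_insert (by decide), Finset.sum_pair (by decide), sN_one, h5a, h5, h3a, h3] at hle2
    apply Subgroup.eq_top_of_card_eq
    rw [hG]
    interval_cases hN1 : N.index <;> omega
  · left
    obtain ⟨x, hx⟩ := exists_of_sN (G := G) (m := 5) (by rw [h5]; norm_num)
    have h1 := card_normal hx (hC x hx) hN h5N
    have h2 : Nat.card N = 1 ∨ Nat.card N = 6 := by
      have h4 : ∀ d ∈ Nat.divisors 60, ¬ 5 ∣ d → 5 ∣ d - 1 → d = 1 ∨ d = 6 := by decide +kernel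
      exact h4 _ (Nat.mem_divisors.2 ⟨hNd, by norm_num⟩) h5N h1
    rcases h2 with h2 | h2
    · exact Subgroup.eq_bot_of_card_eq N h2
    · exfalso
      have hi10 : N.index = 10 := by rw [h2] at hci; omega
      have h3a := sN_all (N := N) (m := 3) (fun y hy => all_mem (p := 3) hN (by rw [hi10]; norm_num) hy)
      have hle := sum_le (G := N) {1, 3}
      rw [Finset.sum_pair (by decide), sN_one, h3a, h3, h2] at hle
      omega

theorem simple360 (hG : Nat.card G = 360) (h3 : sN G 3 = 80) (h5 : sN G 5 = 144)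
    (hC : ∀ x : G, orderOf x = 5 → Nat.card (centralizer ({x} : Set G)) = 5) : IsSimpleGroup G := by
  have : Nontrivial G := Finite.one_lt_card_iff_nontrivial.1 (by rw [hG]; norm_num)
  have : Fact (Nat.Prime 5) := ⟨by norm_num⟩
  have : Fact (Nat.Prime 3) := ⟨by norm_num⟩
  refine ⟨fun N hN => ?_⟩
  have hci := Subgroup.card_mul_index N
  have hNd := Subgroup.card_subgroup_dvd_card N
  rw [hG] at hci hNd
  have hN0 : 0 < Nat.card N := Nat.card_pos
  have hi0 : 0 < N.index := Nat.pos_of_ne_zero (by intro h0; rw [h0] at hci; omega)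
  by_cases h5N : 5 ∣ Nat.card N
  · right
    have hi5 : ¬ 5 ∣ N.index := by
      rintro ⟨c, hc⟩
      obtain ⟨d, hd⟩ := h5N
      rw [hc, hd] at hci
      have : 25 * (d * c) = 360 := by rw [← hci]; ring
      omega
    have h5a := sN_all (N := N) (fun y hy => all_mem (p := 5) hN hi5 hy)
    have hle := sum_le (G := N) {1, 5}
    rw [Finset.sum_pair (by decide), sN_one, h5a, h5] at hle
    have hi2 : N.index ≤ 2 := by
      by_contra hlt
      push Not at hlt
      nlinarith
    have h3a := sN_all (N := N) (m := 3) (fun y hy => all_mem (p := 3) hN (fun h => by have := Nat.le_of_dvd hi0 h; omega) hy)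
    have hle2 := sum_le (G := N) {1, 3, 5}
    rw [Finset.sum_insert (by decide), Finset.sum_pair (by decide), sN_one, h5a, h5, h3a, h3] at hle2
    apply Subgroup.eq_top_of_card_eq
    rw [hG]
    interval_cases hN1 : N.index <;> omega
  · left
    obtain ⟨x, hx⟩ := exists_of_sN (G := G) (m := 5) (by rw [h5]; norm_num)
    have h1 := card_normal hx (hC x hx) hN h5N
    have h2 : Nat.card N = 1 ∨ Nat.card N = 6 ∨ Nat.card N = 36 := by
      have h4 : ∀ d ∈ Nat.divisors 360, ¬ 5 ∣ d → 5 ∣ d - 1 → d = 1 ∨ d = 6 ∨ d = 36 := by decide +kernel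
      exact h4 _ (Nat.mem_divisors.2 ⟨hNd, by norm_num⟩) h5N h1
    rcases h2 with h2 | h2 | h2
    · exact Subgroup.eq_bot_of_card_eq N h2
    · exfalso
      have h4 := sN_normal hx (hC x hx) hN h5N (m := 3) (by norm_num)
      have h6 := sN_prime_pos (G := N) Nat.prime_three (by rw [h2]; norm_num)
      have h7 := totient_dvd (G := N) 3
      have h8 : Nat.totient 3 = 2 := by decide
      rw [h8] at h7
      have hle := sum_le (G := N) {1, 3}
      rw [Finset.sum_pair (by decide), sN_one, h2] at hle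
      omega
    · exfalso
      have hi10 : N.index = 10 := by rw [h2] at hci; omega
      have h3a := sN_all (N := N) (m := 3) (fun y hy => all_mem (p := 3) hN (by rw [hi10]; norm_num) hy)
      have hle := sum_le (G := N) {1, 3}
      rw [Finset.sum_pair (by decide), sN_one, h3a, h3, h2] at hle
      omega

theorem case5 (h : HasSet G {1, 15, 20, 24}) : Nat.card G = 60 ∧ IsSimpleGroup G := by
  have hG := F5.card60 h
  have : Fact (Nat.Prime 5) := ⟨by norm_num⟩
  have hs3 := F5.three h (by rw [hG]; norm_num)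
  have hs5 := F5.five h (by rw [hG]; norm_num)
  refine ⟨hG, simple60 hG hs3 hs5 ?_⟩
  intro x hx
  have hP : ∀ P : Sylow 5 G, Nat.card (P : Subgroup G) = 5 := fun P => by
    have := sylow_card (G := G) (p := 5) (a := 1) (by rw [hG]; norm_num) (by rw [hG]; norm_num) P
    rw [this, pow_one]
  refine cent_card hP (by rw [hG]; norm_num) ?_ hx
  intro q hq hqG hq5
  rcases F5.primes h hq hqG with rfl | rfl | rfl
  · have h1 := sum_le (G := G) {1, 2, 3, 5, 10}
    rw [Finset.sum_insert (by decide), Finset.sum_insert (by decide), Finset.sum_insert (by decide),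
      Finset.sum_pair (by decide), sN_one, F5.two h, hs3, hs5, hG] at h1
    change sN G 10 = 0
    omega
  · have h1 := sum_le (G := G) {1, 2, 3, 5, 15}
    rw [Finset.sum_insert (by decide), Finset.sum_insert (by decide), Finset.sum_insert (by decide),
      Finset.sum_pair (by decide), sN_one, F5.two h, hs3, hs5, hG] at h1
    change sN G 15 = 0
    omega
  · exact absurd rfl hq5

theorem case6 (h : HasSet G {1, 45, 80, 90, 144}) : Nat.card G = 360 ∧ IsSimpleGroup G := by
  have hG := F6.card360 h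
  refine ⟨hG, simple360 hG (F6.three h (by rw [hG]; norm_num)) (F6.five h (by rw [hG]; norm_num))
    (fun x hx => F6.cent5 h hx)⟩

end H15.Nse
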