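import Cfsg.Agent.Lib.H15.Commutant
import Cfsg.Agent.Lib.H18.CharQuot

set_option autoImplicit false

/-! Intertwiners of permutation modules: matrix entries, relation operators. -/

namespace H15.PermMod

open Cfsg Representation H18.CharBasic H18.CharOrtho H15.Commutant
open scoped ComplexConjugate

universe u v

variable {G : Type u} [Group G] {Ω : Type v} [Fintype Ω] [DecidableEq Ω] [MulAction G Ω]

/-- matrix entries -/
def ent (T : (Ω → ℂ) →ₗ[ℂ] (Ω → ℂ)) (x y : Ω) : ℂ := T (Pi.single y 1) x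

theorem apply_eq_sum (T : (Ω → ℂ) →ₗ[ℂ] (Ω → ℂ)) (f : Ω → ℂ) (x : Ω) :
    T f x = ∑ y, ent T x y * f y := by
  have h1 : f = ∑ y, f y • (Pi.single y (1 : ℂ) : Ω → ℂ) := by
    funext z
    rw [Finset.sum_apply, Finset.sum_eq_single z]
    · simp
    · intro b _ hb
      simp [Pi.single_eq_of_ne (Ne.symm hb)]
    · simp
  conv_lhs => rw [h1, map_sum, Finset.sum_apply]
  refine Finset.sum_congr rfl fun y _ => ?_
  rw [map_smul, Pi.smul_apply, smul_eq_mul, mul_comm]
  rfl

theorem ext_ent {S T : (Ω → ℂ) →ₗ[ℂ] (Ω → ℂ)} (h : ∀ x y, ent S x y = ent T x y) : S = T := by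
  ext f x
  rw [LinearMap.comp_apply, LinearMap.comp_apply]
  rw [apply_eq_sum S, apply_eq_sum T]
  exact Finset.sum_congr rfl fun y _ => by rw [h]

theorem ent_comp (S T : (Ω → ℂ) →ₗ[ℂ] (Ω → ℂ)) (x y : Ω) :
    ent (S ∘ₗ T) x y = ∑ z, ent S x z * ent T z y := by
  rw [ent, LinearMap.comp_apply, apply_eq_sum]
  rfl

theorem permRep_single (g : G) (y : Ω) :
    permRep ℂ G Ω g (Pi.single y 1) = (Pi.single (g • y) 1 : Ω → ℂ) := by
  funext x
  change (Pi.single y (1 : ℂ) : Ω → ℂ) (g⁻¹ • x) = _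
  by_cases h : x = g • y
  · subst h
    simp
  · rw [Pi.single_eq_of_ne h, Pi.single_eq_of_ne]
    intro h'
    exact h (by rw [← h', smul_inv_smul])

/-- entries of an intertwiner are constant on orbitals -/
theorem ent_smul {T : (Ω → ℂ) →ₗ[ℂ] (Ω → ℂ)}
    (hT : ∀ (g : G) v, T (permRep ℂ G Ω g v) = permRep ℂ G Ω g (T v)) (g : G) (x y : Ω) :
    ent T (g • x) (g • y) = ent T x y := by
  rw [ent, ← permRep_single, hT]
  change T (Pi.single y 1) (g⁻¹ • g • x) = _
  rw [inv_smul_smul]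
  rfl

omit [DecidableEq Ω] in
open Classical in
/-- the operator of a relation -/
noncomputable def relOp (R : Ω → Ω → Prop) : (Ω → ℂ) →ₗ[ℂ] (Ω → ℂ) where
  toFun f x := ∑ y, if R x y then f y else 0
  map_add' f g := by
    funext x
    simp only [Pi.add_apply, ← Finset.sum_add_distrib]
    refine Finset.sum_congr rfl fun y _ => ?_
    split_ifs <;> simp
  map_smul' c f := by
    funext x
    simp only [Pi.smul_apply, smul_eq_mul, RingHom.id_apply, Finset.mul_sum]
    refine Finset.sum_congr rfl fun y _ => ?_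
    split_ifs <;> simp

open Classical in
theorem ent_relOp (R : Ω → Ω → Prop) (x y : Ω) : ent (relOp R) x y = if R x y then 1 else 0 := by
  change (∑ z, if R x z then (Pi.single y (1 : ℂ) : Ω → ℂ) z else 0) = _
  rw [Finset.sum_eq_single y]
  · rw [Pi.single_eq_same]
  · intro z _ hz
    rw [Pi.single_eq_of_ne hz]
    simp
  · simp

omit [DecidableEq Ω] in
theorem relOp_comm {R : Ω → Ω → Prop} (hR : ∀ (g : G) x y, R (g • x) (g • y) ↔ R x y) (g : G)
    (f : Ω → ℂ) : relOp R (permRep ℂ G Ω g f) = permRep ℂ G Ω g (relOp R f) := by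
  classical
  funext x
  change (∑ y, if R x y then f (g⁻¹ • y) else 0) = ∑ y, if R (g⁻¹ • x) y then f y else 0
  refine Fintype.sum_equiv (MulAction.toPerm g⁻¹) _ _ fun y => ?_
  simp only [MulAction.toPerm_apply]
  by_cases h : R x y
  · rw [if_pos h, if_pos ((hR _ _ _).2 h)]
  · rw [if_neg h, if_neg (fun h' => h ((hR _ _ _).1 h'))]

/-- the orbital of a pair -/
def orbital (G : Type u) [Group G] {Ω : Type v} [MulAction G Ω] (a b : Ω) (x y : Ω) : Prop :=
  ∃ g : G, g • a = x ∧ g • b = y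

omit [Fintype Ω] [DecidableEq Ω] in
theorem orbital_inv (a b : Ω) (g : G) (x y : Ω) :
    orbital G a b (g • x) (g • y) ↔ orbital G a b x y := by
  constructor
  · rintro ⟨h, h1, h2⟩
    exact ⟨g⁻¹ * h, by rw [mul_smul, h1, inv_smul_smul], by rw [mul_smul, h2, inv_smul_smul]⟩
  · rintro ⟨h, rfl, rfl⟩
    exact ⟨g * h, mul_smul _ _ _, mul_smul _ _ _⟩

section fin
variable [Fintype G]

/-- entries of `avgOp` -/
theorem ent_avgOp (c : G → ℂ) (x y : Ω) :
    ent (avgOp c (permRep ℂ G Ω)) x y = ∑ g : G, if g • x = y then c g else 0 := by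
  rw [ent]
  simp only [avgOp, LinearMap.sum_apply, LinearMap.smul_apply, Finset.sum_apply, Pi.smul_apply,
    smul_eq_mul]
  refine Finset.sum_congr rfl fun g _ => ?_
  rw [permRep_single]
  by_cases h : g • x = y
  · rw [if_pos h, ← h, inv_smul_smul, Pi.single_eq_same, mul_one]
  · rw [if_neg h, Pi.single_eq_of_ne, mul_zero]
    intro h'
    apply h
    rw [h', smul_inv_smul]

theorem ent_avgOp_symm (c : G → ℂ) (x y : Ω) :
    ent (avgOp c (permRep ℂ G Ω)) x y = ent (avgOp (fun g => c g⁻¹) (permRep ℂ G Ω)) y x := by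
  rw [ent_avgOp, ent_avgOp]
  refine Fintype.sum_equiv (Equiv.inv G) _ _ fun g => ?_
  simp only [Equiv.inv_apply, inv_inv]
  by_cases h : g • x = y
  · rw [if_pos h, if_pos (by rw [← h, inv_smul_smul])]
  · rw [if_neg h, if_neg (fun h' => h (by rw [← h', smul_inv_smul]))]

end fin

end H15.PermMod
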