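import Cfsg.Agent.Lib.H15.Spectral
import Cfsg.Agent.Lib.H15.PermMod
import Cfsg.Agent.Lib.H4.Integral

set_option autoImplicit false

/-! Orbital operators of a transitive permutation group: traces, eigenvalues. -/

namespace H15.Orbital

open Cfsg Representation H18.CharBasic H18.CharOrtho H15.Commutant H15.PermMod H15.Spectral
open scoped ComplexConjugate

universe u v

section
variable {Ω : Type v} [Fintype Ω] [DecidableEq Ω]

theorem trace_eq (T : (Ω → ℂ) →ₗ[ℂ] (Ω → ℂ)) : LinearMap.trace ℂ (Ω → ℂ) T = ∑ x, ent T x x := by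
  rw [LinearMap.trace_eq_matrix_trace ℂ (Pi.basisFun ℂ Ω), Matrix.trace]
  refine Finset.sum_congr rfl fun x _ => ?_
  rw [Matrix.diag_apply, LinearMap.toMatrix_apply]
  simp only [Pi.basisFun_repr, Pi.basisFun_apply]
  rfl

/-- eigenvalues of relation operators are algebraic integers -/
theorem isIntegral_spec (R : Ω → Ω → Prop) {l : ℂ} (hl : l ∈ spec (relOp R)) : IsIntegral ℤ l := by
  classical
  rw [mem_spec] at hl
  have h1 : Module.End.HasEigenvalue (relOp R) l := by
    have h2 : Module.End.HasUnifEigenvalue (relOp R) l ⊤ := hl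
    exact h2.lt zero_lt_one
  let M : Matrix Ω Ω ℤ := fun x y => if R x y then 1 else 0
  have hM : LinearMap.toMatrix (Pi.basisFun ℂ Ω) (Pi.basisFun ℂ Ω) (relOp R) =
      M.map (algebraMap ℤ ℂ) := by
    ext x y
    rw [LinearMap.toMatrix_apply]
    simp only [Pi.basisFun_repr, Pi.basisFun_apply]
    have h3 := ent_relOp R x y
    rw [ent] at h3
    rw [h3, Matrix.map_apply]
    change _ = algebraMap ℤ ℂ (if R x y then 1 else 0)
    split_ifs <;> simp
  have h4 := (Module.End.hasEigenvalue_iff_isRoot_charpoly (relOp R) l).1 h1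
  rw [← LinearMap.charpoly_toMatrix (relOp R) (Pi.basisFun ℂ Ω), hM, Matrix.charpoly_map] at h4
  refine ⟨M.charpoly, M.charpoly_monic, ?_⟩
  rw [Polynomial.IsRoot, Polynomial.eval_map] at h4
  exact h4

end

section perm
variable {G : Type u} [Group G] {Ω : Type v} [Fintype Ω] [DecidableEq Ω] [MulAction G Ω]

theorem trace_orbital {a b : Ω} (hab : b ≠ a) :
    LinearMap.trace ℂ (Ω → ℂ) (relOp (orbital G a b)) = 0 := by
  classical
  rw [trace_eq]
  refine Finset.sum_eq_zero fun x _ => ?_
  rw [ent_relOp, if_neg]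
  rintro ⟨g, h1, h2⟩
  exact hab (smul_left_cancel g (h2.trans h1.symm))

omit [DecidableEq Ω] in
theorem card_orbital_left [MulAction.IsPretransitive G Ω] (a b x : Ω) :
    Nat.card {y // orbital G a b x y} = Nat.card (MulAction.orbit (MulAction.stabilizer G a) b) := by
  obtain ⟨k, rfl⟩ := MulAction.exists_smul_eq G a x
  apply Nat.card_congr
  refine ⟨fun y => ⟨k⁻¹ • y.1, ?_⟩, fun y => ⟨k • y.1, ?_⟩, fun y => ?_, fun y => ?_⟩
  · obtain ⟨g, h1, h2⟩ := y.2
    refine ⟨⟨k⁻¹ * g, ?_⟩, ?_⟩
    · rw [MulAction.mem_stabilizer_iff, mul_smul, h1, inv_smul_smul]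
    · change (k⁻¹ * g) • b = _
      rw [mul_smul, h2]
  · obtain ⟨⟨g, hg⟩, h⟩ := y.2
    refine ⟨k * g, ?_, ?_⟩
    · rw [mul_smul, MulAction.mem_stabilizer_iff.1 hg]
    · have h' : g • b = y.1 := h
      rw [mul_smul, h']
  · exact Subtype.ext (smul_inv_smul k _)
  · exact Subtype.ext (inv_smul_smul k _)

/-- the constant function is an eigenvector for the valency -/
theorem relOp_one [MulAction.IsPretransitive G Ω] (a b : Ω) :
    relOp (orbital G a b) (fun _ => 1) =
      (Nat.card (MulAction.orbit (MulAction.stabilizer G a) b) : ℂ) • (fun _ => 1 : Ω → ℂ) := by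
  classical
  funext x
  change (∑ y, if orbital G a b x y then (1 : ℂ) else 0) = _
  rw [Finset.sum_boole, Pi.smul_apply, smul_eq_mul, mul_one, ← card_orbital_left a b x]
  congr 1
  rw [← Fintype.card_subtype, Nat.card_eq_fintype_card]

variable [Fintype G]

theorem inner_one [MulAction.IsPretransitive G Ω] [Nonempty Ω] :
    classInner (permRep ℂ G Ω).character (fun _ => 1) = 1 := by
  have h := H4.TwoTrans.inner_permChar_one (G := G) Ω
  rw [permRep_char']
  have h1 : Nat.card (MulAction.orbitRel.Quotient G Ω) = 1 := by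
    rw [Nat.card_eq_one_iff_unique]
    refine ⟨⟨fun x y => ?_⟩, ⟨Quotient.mk'' (Classical.arbitrary Ω)⟩⟩
    induction x using Quotient.inductionOn' with
    | h x =>
      induction y using Quotient.inductionOn' with
      | h y =>
        apply Quotient.sound'
        obtain ⟨g, hg⟩ := MulAction.exists_smul_eq G y x
        exact ⟨g, hg⟩
  rw [h1, Nat.cast_one] at h
  exact h

/-- multiplicities add up over the generalised eigenspaces -/
theorem inner_eq_sum {V : Type v} [AddCommGroup V] [Module ℂ V] [FiniteDimensional ℂ V]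
    (ρ : Representation ℂ G V) {A : V →ₗ[ℂ] V} (hA : ∀ g v, A (ρ g v) = ρ g (A v)) (χ : G → ℂ) :
    classInner ρ.character χ = ∑ l ∈ spec A, classInner (W ρ hA l).toRepresentation.character χ := by
  rw [char_eq ρ hA, inner_sum_left]

/-- the eigenspace of the valency contains the trivial character -/
theorem inner_W_one [MulAction.IsPretransitive G Ω] [Nonempty Ω] (a b : Ω) :
    let A := relOp (orbital G a b)
    let hA := relOp_comm (G := G) (orbital_inv (G := G) a b)
    ∀ l ∈ spec A, classInner (W (permRep ℂ G Ω) hA l).toRepresentation.character (fun _ => 1) =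
      if l = (Nat.card (MulAction.orbit (MulAction.stabilizer G a) b) : ℂ) then 1 else 0 := by
  intro A hA
  set d : ℂ := (Nat.card (MulAction.orbit (MulAction.stabilizer G a) b) : ℂ) with hd
  have hmem : (fun _ => 1 : Ω → ℂ) ∈ Module.End.maxGenEigenspace A d := by
    apply Module.End.eigenspace_le_maxGenEigenspace
    rw [Module.End.mem_eigenspace_iff]
    exact relOp_one a b
  have hone : (fun _ => 1 : Ω → ℂ) ≠ 0 := by
    intro h
    have := congrFun h (Classical.arbitrary Ω)
    exact one_ne_zero this
  have hds : d ∈ spec A := by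
    rw [mem_spec]
    intro h
    rw [h, Submodule.mem_bot] at hmem
    exact hone hmem
  have hnat : ∀ l, ∃ m : ℕ, classInner (W (permRep ℂ G Ω) hA l).toRepresentation.character
      (fun _ => 1) = m := fun l =>
    inner_char_natCast (isCharacter_of_rep _) (isCharacter_of_isIrr isIrrCharacter_one)
  choose m hm using hnat
  have hsum : ∑ l ∈ spec A, m l = 1 := by
    have h1 := inner_eq_sum (permRep ℂ G Ω) hA (fun _ => 1)
    rw [inner_one] at h1
    have h2 : ((∑ l ∈ spec A, m l : ℕ) : ℂ) = 1 := by
      rw [h1]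
      push_cast
      exact Finset.sum_congr rfl fun l _ => (hm l).symm
    exact_mod_cast h2
  have hd1 : 1 ≤ m d := by
    have : Invertible (Nat.card G : ℂ) := invertibleOfNonzero card_ne_zero'
    have h1 := card_inv_mul_sum_char_eq_finrank (ρ := (W (permRep ℂ G Ω) hA d).toRepresentation)
    have h2 : classInner (W (permRep ℂ G Ω) hA d).toRepresentation.character (fun _ => 1) =
        (Module.finrank ℂ (invariants (W (permRep ℂ G Ω) hA d).toRepresentation) : ℂ) := by
      rw [← h1]
      simp only [classInner, map_one, mul_one]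
    rw [hm] at h2
    have h3 : m d = Module.finrank ℂ (invariants (W (permRep ℂ G Ω) hA d).toRepresentation) := by
      exact_mod_cast h2
    rw [h3]
    have h4 : Nontrivial (invariants (W (permRep ℂ G Ω) hA d).toRepresentation) := by
      refine ⟨⟨⟨⟨fun _ => 1, hmem⟩, ?_⟩, 0, ?_⟩⟩
      · rw [mem_invariants]
        intro g
        apply Subtype.ext
        rfl
      · intro h
        exact hone (congrArg (fun z => ((z.1 : _) : Ω → ℂ)) h)
    exact Module.finrank_pos (R := ℂ) (M := invariants (W (permRep ℂ G Ω) hA d).toRepresentation)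
  have hrest : m d = 1 ∧ ∀ l ∈ spec A, l ≠ d → m l = 0 := by
    rw [← Finset.add_sum_erase _ _ hds] at hsum
    constructor
    · omega
    · intro l hl hld
      have h1 : ∑ l ∈ (spec A).erase d, m l = 0 := by omega
      exact (Finset.sum_eq_zero_iff.1 h1) l (Finset.mem_erase.2 ⟨hld, hl⟩)
  intro l hl
  rw [hm]
  by_cases h : l = d
  · rw [if_pos h, h, hrest.1, Nat.cast_one]
  · rw [if_neg h, hrest.2 l hl h, Nat.cast_zero]

end perm

end H15.Orbital
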