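import Cfsg.Agent.Lib.H15.Commutant

set_option autoImplicit false

/-! Generalised eigenspaces of an intertwiner and the decomposition of the character. -/

namespace H15.Spectral

open Cfsg Representation H18.CharBasic H18.CharOrtho H15.Commutant Module.End
open scoped ComplexConjugate

universe u v w

variable {G : Type u} [Group G] {V : Type v} [AddCommGroup V] [Module ℂ V] [FiniteDimensional ℂ V]

omit [FiniteDimensional ℂ V] in
theorem commute_of (ρ : Representation ℂ G V) {A : V →ₗ[ℂ] V}
    (hA : ∀ g v, A (ρ g v) = ρ g (A v)) (g : G) : Commute (A : Module.End ℂ V) (ρ g) :=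
  LinearMap.ext fun v => hA g v

/-- the generalised eigenspace as a subrepresentation -/
def W (ρ : Representation ℂ G V) {A : V →ₗ[ℂ] V} (hA : ∀ g v, A (ρ g v) = ρ g (A v)) (l : ℂ) :
    Subrepresentation ρ :=
  ⟨maxGenEigenspace A l, fun g _ hv => mapsTo_maxGenEigenspace_of_comm (commute_of ρ hA g) l hv⟩

theorem internal (A : V →ₗ[ℂ] V) : DirectSum.IsInternal (fun l => maxGenEigenspace A l) :=
  DirectSum.isInternal_submodule_of_iSupIndep_of_iSup_eq_top
    (independent_maxGenEigenspace A) (iSup_maxGenEigenspace_eq_top A)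

theorem finite_ne (A : V →ₗ[ℂ] V) : {l | maxGenEigenspace A l ≠ ⊥}.Finite :=
  WellFoundedGT.finite_ne_bot_of_iSupIndep (independent_maxGenEigenspace A)

/-- the finite set of eigenvalues -/
noncomputable def spec (A : V →ₗ[ℂ] V) : Finset ℂ := (finite_ne A).toFinset

theorem mem_spec {A : V →ₗ[ℂ] V} {l : ℂ} : l ∈ spec A ↔ maxGenEigenspace A l ≠ ⊥ := by
  rw [spec, Set.Finite.mem_toFinset]
  rfl

theorem char_eq (ρ : Representation ℂ G V) {A : V →ₗ[ℂ] V} (hA : ∀ g v, A (ρ g v) = ρ g (A v)) :
    ρ.character = ∑ l ∈ spec A, (W ρ hA l).toRepresentation.character := by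
  funext g
  rw [Finset.sum_apply]
  exact LinearMap.trace_eq_sum_trace_restrict' (internal A) (finite_ne A)
    (fun l => mapsTo_maxGenEigenspace_of_comm (commute_of ρ hA g) l)

theorem trace_pow (A : V →ₗ[ℂ] V) (j : ℕ) : LinearMap.trace ℂ V ((A : Module.End ℂ V) ^ j) =
    ∑ l ∈ spec A, l ^ j * Module.finrank ℂ (maxGenEigenspace A l) := by
  rw [LinearMap.trace_eq_sum_trace_restrict' (internal A) (finite_ne A)
    (fun l => mapsTo_maxGenEigenspace_of_comm (Commute.self_pow (A : Module.End ℂ V) j) l)]
  refine Finset.sum_congr rfl fun l _ => ?_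
  set N := maxGenEigenspace A l with hN
  have hmA : Set.MapsTo A N N := mapsTo_maxGenEigenspace_of_comm (Commute.refl (A : Module.End ℂ V)) l
  have h1 : IsNilpotent ((A - algebraMap ℂ (Module.End ℂ V) l).restrict
    (mapsTo_maxGenEigenspace_of_comm (Algebra.mul_sub_algebraMap_commutes (A : Module.End ℂ V) l) l)) :=
    isNilpotent_restrict_maxGenEigenspace_sub_algebraMap (A : Module.End ℂ V) l
  let B : Module.End ℂ N := A.restrict hmA
  have h2 : IsNilpotent (B - algebraMap ℂ (Module.End ℂ N) l) := by
    have h3 : B - algebraMap ℂ (Module.End ℂ N) l = (A - algebraMap ℂ (Module.End ℂ V) l).restrict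
      (mapsTo_maxGenEigenspace_of_comm (Algebra.mul_sub_algebraMap_commutes (A : Module.End ℂ V) l) l) := by
      ext v
      rfl
    rw [h3]
    exact h1
  have h4 : IsNilpotent (B ^ j - (algebraMap ℂ (Module.End ℂ N) l) ^ j) := by
    have hc : Commute B (algebraMap ℂ (Module.End ℂ N) l) := (Algebra.commutes l B).symm
    rw [← hc.mul_geom_sum₂]
    refine Commute.isNilpotent_mul_right ?_ h2
    refine Commute.sum_right _ _ _ fun i _ => ?_
    refine Commute.mul_right ?_ ?_
    · exact ((Commute.refl B).sub_left hc.symm).pow_right _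
    · exact (hc.sub_left (Commute.refl _)).pow_right _
  have h5 := (LinearMap.isNilpotent_trace_of_isNilpotent h4).eq_zero
  rw [map_sub, sub_eq_zero, ← map_pow, Algebra.algebraMap_eq_smul_one, map_smul,
    LinearMap.trace_one, smul_eq_mul] at h5
  rw [← h5]
  congr 1
  exact (Module.End.pow_restrict j hmA _).symm

end H15.Spectral
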