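import Cfsg.Agent.Lib.H15.Jordan
import Cfsg.Agent.Lib.H15.Blk

set_option autoImplicit false

/-! Normal subgroups of doubly transitive groups (Burnside). -/

namespace H15.TwoTrans

open MulAction SubMulAction

variable {G X : Type*} [Group G] [MulAction G X]

/-- elementary blocks for a subgroup -/
def Bk (N : Subgroup G) (B : Set X) : Prop :=
  ∀ h ∈ N, ∀ z ∈ B, h • z ∈ B → ∀ w ∈ B, h • w ∈ B

/-- the line through two points: the intersection of all blocks containing both -/
def line (N : Subgroup G) (x y : X) : Set X := {z | ∀ B : Set X, Bk N B → x ∈ B → y ∈ B → z ∈ B}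

theorem line_bk (N : Subgroup G) (x y : X) : Bk N (line N x y) := by
  intro h hh z hz hhz w hw B hB hx hy
  exact hB h hh z (hz B hB hx hy) (hhz B hB hx hy) w (hw B hB hx hy)

theorem left_mem (N : Subgroup G) (x y : X) : x ∈ line N x y := fun _ _ h _ => h

theorem right_mem (N : Subgroup G) (x y : X) : y ∈ line N x y := fun _ _ _ h => h

theorem line_smul (N : Subgroup G) [hN : N.Normal] (g : G) {x y z : X} (hz : z ∈ line N x y) :
    g • z ∈ line N (g • x) (g • y) := by
  intro B hB hx hy
  refine hz {w | g • w ∈ B} ?_ hx hy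
  intro h hh u hu hhu w hw
  have h1 := hB (g * h * g⁻¹) (hN.conj_mem h hh g) (g • u) hu (by
    rw [mul_smul, mul_smul, inv_smul_smul]; exact hhu) (g • w) hw
  rw [mul_smul, mul_smul, inv_smul_smul] at h1
  exact h1

theorem line_subset (N : Subgroup G) {x y u v : X} (hu : u ∈ line N x y) (hv : v ∈ line N x y) :
    line N u v ⊆ line N x y := fun _ hz => hz _ (line_bk N x y) hu hv

section
variable [Finite X] (N : Subgroup G) [hN : N.Normal]
    (h2 : ∀ x y u v : X, x ≠ y → u ≠ v → ∃ g : G, g • x = u ∧ g • y = v)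
include h2

theorem line_ncard {x y u v : X} (hxy : x ≠ y) (huv : u ≠ v) :
    (line N x y).ncard = (line N u v).ncard := by
  have key : ∀ x y u v : X, x ≠ y → u ≠ v → (line N x y).ncard ≤ (line N u v).ncard := by
    intro x y u v hxy huv
    obtain ⟨g, rfl, rfl⟩ := h2 x y u v hxy huv
    refine Set.ncard_le_ncard_of_injOn (fun z => g • z) (fun z hz => line_smul N g hz) ?_ (Set.toFinite _)
    intro a _ b _ hab
    exact smul_left_cancel g hab
  exact le_antisymm (key x y u v hxy huv) (key u v x y huv hxy)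

theorem line_eq {x y u v : X} (hxy : x ≠ y) (huv : u ≠ v) (hu : u ∈ line N x y)
    (hv : v ∈ line N x y) : line N u v = line N x y :=
  Set.eq_of_subset_of_ncard_le (line_subset N hu hv) (line_ncard N h2 hxy huv).le (Set.toFinite _)

/-- an imprimitive normal subgroup has trivial two-point stabilisers -/
theorem fix_of_imprimitive {B : Set X} (hB : Bk N B) {a b : X} (ha : a ∈ B) (hb : b ∈ B)
    (hab : a ≠ b) (hne : B ≠ Set.univ) {x y : X} (hxy : x ≠ y) {h : G} (hh : h ∈ N)
    (hx : h • x = x) (hy : h • y = y) (w : X) : h • w = w := by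
  -- off the line
  have hoff : ∀ x y : X, x ≠ y → h • x = x → h • y = y → ∀ z, z ∉ line N x y → h • z = z := by
    intro x y hxy hx hy z hz
    by_contra hcon
    have hxz : x ≠ z := fun h => hz (h ▸ left_mem N x y)
    have hyz : y ≠ z := fun h => hz (h ▸ right_mem N x y)
    have h1 : h • z ∈ line N x z := line_bk N x z h hh x (left_mem N x z)
      (by rw [hx]; exact left_mem N x z) z (right_mem N x z)
    have h3 : h • z ∈ line N y z := line_bk N y z h hh y (left_mem N y z)
      (by rw [hy]; exact left_mem N y z) z (right_mem N y z)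
    have h4 := line_eq N h2 hxz (Ne.symm hcon) (right_mem N x z) h1
    have h5 := line_eq N h2 hyz (Ne.symm hcon) (right_mem N y z) h3
    have h6 : x ∈ line N y z := by rw [← h5, h4]; exact left_mem N x z
    have h7 := line_eq N h2 hyz hxy h6 (left_mem N y z)
    apply hz
    rw [h7]
    exact right_mem N y z
  have hproper : ∀ x y : X, x ≠ y → ∃ z, z ∉ line N x y := by
    intro x y hxy
    by_contra hcon
    push Not at hcon
    apply hne
    have h1 : (line N x y) = Set.univ := Set.eq_univ_of_forall hcon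
    have h3 := line_ncard N h2 hxy hab
    rw [h1, Set.ncard_univ] at h3
    have h4 : line N a b = Set.univ := (Set.eq_univ_iff_ncard _).2 h3.symm
    apply Set.eq_univ_of_forall
    intro z
    have h5 : z ∈ line N a b := by rw [h4]; trivial
    exact h5 B hB ha hb
  by_cases hw : w ∈ line N x y
  · by_cases hwx : w = x
    · rw [hwx, hx]
    obtain ⟨z, hz⟩ := hproper x y hxy
    have hhz := hoff x y hxy hx hy z hz
    have hxz : x ≠ z := fun h => hz (h ▸ left_mem N x y)
    apply hoff x z hxz hx hhz w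
    intro hw2
    have h3 := line_eq N h2 hxz (Ne.symm hwx) (left_mem N x z) hw2
    have h4 := line_eq N h2 hxy (Ne.symm hwx) (left_mem N x y) hw
    apply hz
    rw [← h4, h3]
    exact right_mem N x z
  · exact hoff x y hxy hx hy w hw

end

section frob
variable [Finite X] [Finite G] [Nontrivial X] (N : Subgroup G) [hN : N.Normal]
    (h2 : ∀ x y u v : X, x ≠ y → u ≠ v → ∃ g : G, g • x = u ∧ g • y = v)
    (htr : IsPretransitive N X)
    (hfix : ∀ h ∈ N, ∀ x y : X, x ≠ y → h • x = x → h • y = y → h = 1)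

include htr hfix in
/-- the number of fixed point free elements of a group with trivial two-point stabilisers -/
theorem card_fpf : Nat.card {k : N // ∀ x : X, k • x ≠ x} + 1 = Nat.card X := by
  classical
  have := Fintype.ofFinite X
  have := Fintype.ofFinite N
  have := Fintype.ofFinite (Quotient (orbitRel N X))
  have hsum := sum_card_fixedBy_eq_card_orbits_mul_card_group N X
  have hone : Fintype.card (Quotient (orbitRel N X)) = 1 := by
    rw [Fintype.card_eq_one_iff]
    obtain ⟨a⟩ := (inferInstance : Nonempty X)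
    refine ⟨Quotient.mk _ a, ?_⟩
    intro q
    induction q using Quotient.inductionOn with
    | h b =>
      apply Quotient.sound
      obtain ⟨g, hg⟩ := exists_smul_eq N a b
      exact ⟨g, hg⟩
  rw [hone, one_mul] at hsum
  have hpt : ∀ h : N, Fintype.card (fixedBy X h) + (if ∀ x : X, h • x ≠ x then 1 else 0) =
      1 + (if h = 1 then Fintype.card X - 1 else 0) := by
    intro h
    by_cases h1 : h = 1
    · subst h1
      rw [if_pos rfl, if_neg (by
        push Not
        obtain ⟨a⟩ := (inferInstance : Nonempty X)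
        exact ⟨a, one_smul _ _⟩)]
      have : Fintype.card (fixedBy X (1 : N)) = Fintype.card X := by
        rw [← Nat.card_eq_fintype_card, ← Nat.card_eq_fintype_card]
        have : fixedBy X (1 : N) = Set.univ := by
          ext x
          simp
        rw [this, Nat.card_univ]
      rw [this]
      have := Fintype.card_pos (α := X)
      omega
    · rw [if_neg h1, add_zero]
      by_cases hf : ∀ x : X, h • x ≠ x
      · rw [if_pos hf]
        have : Fintype.card (fixedBy X h) = 0 := by
          rw [Fintype.card_eq_zero_iff]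
          exact ⟨fun x => hf x.1 x.2⟩
        omega
      · rw [if_neg hf, add_zero, Fintype.card_eq_one_iff]
        push Not at hf
        obtain ⟨x, hx⟩ := hf
        refine ⟨⟨x, hx⟩, ?_⟩
        rintro ⟨y, hy⟩
        apply Subtype.ext
        by_contra hyx
        apply h1
        exact Subtype.ext (hfix h h.2 y x hyx hy hx)
  have hsum2 := Finset.sum_congr (rfl : (Finset.univ : Finset N) = Finset.univ) (fun h _ => hpt h)
  rw [Finset.sum_add_distrib, Finset.sum_add_distrib, hsum, Finset.sum_ite_eq' Finset.univ (1 : N)] at hsum2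
  simp only [Finset.sum_boole, Finset.mem_univ, if_true, Finset.sum_const, smul_eq_mul, mul_one,
    Finset.card_univ, Nat.cast_id] at hsum2
  have h3 : Nat.card {k : N // ∀ x : X, k • x ≠ x} =
      (Finset.univ.filter (fun k : N => ∀ x : X, k • x ≠ x)).card := by
    rw [Nat.card_eq_fintype_card, Fintype.card_subtype]
  rw [h3, Nat.card_eq_fintype_card]
  have := Fintype.card_pos (α := X)
  omega

include h2 htr hfix in
/-- the fixed point free elements are all conjugate under the doubly transitive group -/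
theorem conj_fpf (k k' : N) (hk : ∀ x : X, k • x ≠ x) (hk' : ∀ x : X, k' • x ≠ x) :
    ∃ g : G, g * k * g⁻¹ = k' := by
  classical
  obtain ⟨a, b, hab⟩ := exists_pair_ne X
  have := Fintype.ofFinite X
  have := Fintype.ofFinite N
  have hcard := card_fpf N htr hfix
  let φ : {k : N // ∀ x : X, k • x ≠ x} → {b : X // b ≠ a} := fun k => ⟨k.1 • a, k.2 a⟩
  have hconj : ∀ (g : G), g • a = a → ∀ k : {k : N // ∀ x : X, k • x ≠ x},
      ∃ k' : {k : N // ∀ x : X, k • x ≠ x}, (k'.1 : G) = g * k.1 * g⁻¹ ∧
        ((φ k' : {b : X // b ≠ a}) : X) = g • (φ k : X) := by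
    intro g hg k
    refine ⟨⟨⟨g * k.1 * g⁻¹, hN.conj_mem _ k.1.2 g⟩, ?_⟩, rfl, ?_⟩
    · intro x hx
      apply k.2 (g⁻¹ • x)
      rw [eq_inv_smul_iff]
      have h1 : (g * (k.1 : G) * g⁻¹) • x = x := hx
      rw [mul_smul, mul_smul] at h1
      exact h1
    · change (g * (k.1 : G) * g⁻¹) • a = g • ((k.1 : G) • a)
      have h1 : g⁻¹ • a = a := by rw [inv_smul_eq_iff, hg]
      rw [mul_smul, mul_smul, h1]
  have hsurj : Function.Surjective φ := by
    rintro ⟨c, hc⟩
    obtain ⟨g, hga, hgc⟩ := h2 a (k • a) a c (Ne.symm (hk a)) (Ne.symm hc)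
    obtain ⟨k', -, h3⟩ := hconj g hga ⟨k, hk⟩
    refine ⟨k', Subtype.ext ?_⟩
    rw [h3]
    exact hgc
  have hcards : Fintype.card {k : N // ∀ x : X, k • x ≠ x} = Fintype.card {b : X // b ≠ a} := by
    rw [← Nat.card_eq_fintype_card, Fintype.card_subtype_compl, Fintype.card_subtype_eq]
    rw [Nat.card_eq_fintype_card (α := X)] at hcard
    omega
  have hbij := (Fintype.bijective_iff_surjective_and_card φ).2 ⟨hsurj, hcards⟩
  obtain ⟨g, hga, hgc⟩ := h2 a (k • a) a (k' • a) (Ne.symm (hk a)) (Ne.symm (hk' a))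
  obtain ⟨k'', h4, h5⟩ := hconj g hga ⟨k, hk⟩
  refine ⟨g, ?_⟩
  have h6 : φ k'' = φ ⟨k', hk'⟩ := by
    apply Subtype.ext
    rw [h5]
    exact hgc
  have h7 := hbij.1 h6
  rw [← h4, h7]

include h2 htr hfix in
/-- a transitive normal subgroup with trivial two-point stabilisers contains a nontrivial normal
`p`-subgroup -/
theorem exists_pgroup : ∃ (p : ℕ) (_ : p.Prime) (Q : Subgroup G), Q.Normal ∧ Q ≤ N ∧ Q ≠ ⊥ ∧
    IsPGroup p Q := by
  classical
  have hcard := card_fpf N htr hfix
  have hn1 : 1 < Nat.card X := Finite.one_lt_card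
  have hdvd : Nat.card X ∣ Nat.card N := by
    obtain ⟨a⟩ := (inferInstance : Nonempty X)
    have h1 := MulAction.index_stabilizer_of_transitive N a
    rw [← h1]
    exact Subgroup.index_dvd_card _
  -- elements of `r`-power order are fixed point free
  have hK3 : ∀ r : ℕ, r.Prime → r ∣ Nat.card X → ∀ x : N, x ≠ 1 → ∀ j, x ^ (r ^ j) = 1 →
      ∀ y : X, x • y ≠ y := by
    intro r hr hrX x hx1 j hj y hy
    have hF : Fact r.Prime := ⟨hr⟩
    have hpg : IsPGroup r (Subgroup.zpowers x) := by
      rintro ⟨g, hg⟩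
      obtain ⟨i, rfl⟩ := hg
      refine ⟨j, Subtype.ext ?_⟩
      change (x ^ i) ^ r ^ j = 1
      rw [← zpow_natCast, ← zpow_mul, mul_comm, zpow_mul, zpow_natCast, hj, one_zpow]
    have hyf : y ∈ fixedPoints (Subgroup.zpowers x) X := by
      rintro ⟨g, hg⟩
      obtain ⟨i, rfl⟩ := hg
      change (x ^ i) • y = y
      have : x ^ i ∈ stabilizer N y := Subgroup.zpow_mem _ hy i
      exact this
    obtain ⟨b, hb, hyb⟩ := hpg.exists_fixed_point_of_prime_dvd_card_of_fixed_point X hrX hyf
    apply hx1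
    exact Subtype.ext (hfix x x.2 y b hyb hy (hb ⟨x, Subgroup.mem_zpowers x⟩))
  -- a prime
  obtain ⟨p, hp, hpX⟩ := Nat.exists_prime_and_dvd hn1.ne'
  have hord : ∀ r : ℕ, r.Prime → r ∣ Nat.card X → ∀ k : N, (∀ x : X, k • x ≠ x) → orderOf k = r := by
    intro r hr hrX k hk
    have hF : Fact r.Prime := ⟨hr⟩
    obtain ⟨x, hx⟩ := exists_prime_orderOf_dvd_card' r (hrX.trans hdvd)
    have hx1 : x ≠ 1 := by
      rintro rfl
      rw [orderOf_one] at hx
      exact hr.one_lt.ne hx
    have hxK := hK3 r hr hrX x hx1 1 (by rw [pow_one, ← hx, pow_orderOf_eq_one])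
    obtain ⟨g, hg⟩ := conj_fpf N h2 htr hfix x k hxK hk
    have h3 : orderOf (k : G) = orderOf (x : G) := by
      rw [← hg]
      have : g * (x : G) * g⁻¹ = MulAut.conj g x := rfl
      rw [this]
      exact orderOf_injective (MulAut.conj g).toMonoidHom (MulAut.conj g).injective (x : G)
    rw [Subgroup.orderOf_coe, Subgroup.orderOf_coe] at h3
    rw [h3, hx]
  -- a fixed point free element
  obtain ⟨k0, hk0⟩ : ∃ k : N, ∀ x : X, k • x ≠ x := by
    have : 0 < Nat.card {k : N // ∀ x : X, k • x ≠ x} := by omega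
    obtain ⟨k, hk⟩ := (Nat.card_pos_iff.1 this).1
    exact ⟨k, hk⟩
  have hpow : Nat.card X = p ^ (Nat.card X).primeFactorsList.length := by
    apply Nat.eq_prime_pow_of_unique_prime_dvd (by omega)
    intro d hd hdX
    rw [← hord d hd hdX k0 hk0, hord p hp hpX k0 hk0]
  have hF : Fact p.Prime := ⟨hp⟩
  obtain ⟨P⟩ := (inferInstance : Nonempty (Sylow p N))
  have hPcard : Nat.card X ≤ Nat.card P := by
    apply Nat.le_of_dvd Nat.card_pos
    rw [hpow]
    apply P.pow_dvd_card_of_pow_dvd_card
    rw [← hpow]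
    exact hdvd
  let Q : Subgroup G := (P : Subgroup N).map N.subtype
  have hQN : Q ≤ N := Subgroup.map_subtype_le _
  -- nontrivial elements of P are the fixed point free elements
  have hsub : {x : N | x ∈ P ∧ x ≠ 1} ⊆ {k : N | ∀ x : X, k • x ≠ x} := by
    rintro x ⟨hx, hx1⟩
    obtain ⟨j, hj⟩ := P.isPGroup' ⟨x, hx⟩
    exact hK3 p hp hpX x hx1 j (congrArg Subtype.val hj)
  have heq : {x : N | x ∈ P ∧ x ≠ 1} = {k : N | ∀ x : X, k • x ≠ x} := by
    apply Set.eq_of_subset_of_ncard_le hsub _ (Set.toFinite _)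
    have h3 : {k : N | ∀ x : X, k • x ≠ x}.ncard + 1 = Nat.card X := by
      rw [← Nat.card_coe_set_eq]
      exact hcard
    have h4 : {x : N | x ∈ P ∧ x ≠ 1} = ((P : Subgroup N) : Set N) \ {1} := by
      ext x
      simp only [Set.mem_ofPred_eq, Set.mem_sdiff, Set.mem_singleton_iff]
      rfl
    have h5 : ((P : Subgroup N) : Set N).ncard = Nat.card P := by
      rw [← Nat.card_coe_set_eq]
      rfl
    rw [h4, Set.ncard_sdiff_singleton_of_mem (Subgroup.one_mem _), h5]
    omega
  have hmemQ : ∀ x : N, (∀ y : X, x • y ≠ y) → (x : G) ∈ Q := by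
    intro x hx
    have h3 : x ∈ {x : N | x ∈ P ∧ x ≠ 1} := by
      rw [heq]
      exact hx
    exact ⟨x, h3.1, rfl⟩
  refine ⟨p, hp, Q, ⟨?_⟩, hQN, ?_, ?_⟩
  · rintro q hq g
    obtain ⟨x, hx, rfl⟩ := hq
    by_cases hx1 : x = 1
    · subst hx1
      simp
    have hxf := hsub ⟨hx, hx1⟩
    apply hmemQ ⟨g * x * g⁻¹, hN.conj_mem _ x.2 g⟩
    intro y hy
    apply hxf (g⁻¹ • y)
    rw [eq_inv_smul_iff]
    have h1 : (g * (x : G) * g⁻¹) • y = y := hy
    rw [mul_smul, mul_smul] at h1
    exact h1
  · intro hb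
    have h3 := hmemQ k0 hk0
    rw [hb, Subgroup.mem_bot] at h3
    have h4 : k0 = 1 := Subtype.ext h3
    obtain ⟨a⟩ := (inferInstance : Nonempty X)
    apply hk0 a
    rw [h4, one_smul]
  · exact P.isPGroup'.map N.subtype

end frob

end H15.TwoTrans
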